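/-
H23: the root subsystems E6, E7 of E8; Steinberg relations restrict; the centre of the Steinberg groups of types E6, E7.
-/
import Cfsg.Agent.Lib.H23.Mult
set_option autoImplicit false
set_option maxRecDepth 100000
set_option linter.unusedVariables false

namespace H23.SubE8

open scoped commutatorElement
open Cfsg.Lie (ChevalleyDatum)
open H22.RGD H22.Coord H22.RCCheck H22.RCComb H22.ChevTri H22.ChevRel H22.ChevSys H22.ChevMain
open H22.ChevStd H22.ChevSolv H22.ChevUni H22.St H22.ChevTorus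
open H23.ChevSLTheory H23.ChevSLTheory.SLData H23.Cv H23.LiftE H23.ChevSLCheck H23.ChevSLCheck.Code
open H23.ChevNSCheck (allB allB_iff)

/-! ### restriction of relations to a subsystem -/

section sub
variable {D D' : ChevalleyDatum} (C : SLData D) (C' : SLData D') (em : ℕ → ℕ)

structure Emb : Prop where
  lt : ∀ r < D.nroots, em r < D'.nroots
  wt : ∀ r < D.nroots, C'.wt (em r) = C.wt r
  sg : ∀ r < D.nroots, C'.sg (em r) = C.sg r
  rank : D.rank ≤ D'.rank
  bm : ∀ i < D.rank, ∀ j < D.rank, C'.bm i j = C.bm i j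

variable {C C' em} (H : Emb C C' em)
include H

theorem Emb.B {r s : ℕ} (hr : r < D.nroots) (hs : s < D.nroots) :
    C'.B (C'.wt (em r)) (C'.wt (em s)) = C.B (C.wt r) (C.wt s) := by
  rw [H.wt r hr, H.wt s hs]
  unfold SLData.B
  symm
  have h1 : Finset.range D.rank ⊆ Finset.range D'.rank := Finset.range_subset_range.2 H.rank
  calc ∑ i ∈ Finset.range D.rank, ∑ j ∈ Finset.range D.rank, C.wt r i * C.bm i j * C.wt s j
      = ∑ i ∈ Finset.range D.rank, ∑ j ∈ Finset.range D'.rank, C.wt r i * C'.bm i j * C.wt s j := by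
        refine Finset.sum_congr rfl fun i hi => ?_
        rw [← Finset.sum_subset h1 (f := fun j => C.wt r i * C'.bm i j * C.wt s j)]
        · refine Finset.sum_congr rfl fun j hj => ?_
          rw [H.bm i (Finset.mem_range.1 hi) j (Finset.mem_range.1 hj)]
        · intro j _ hj
          rw [C.wt_zero s j (by simpa using hj), mul_zero]
    _ = _ := by
        rw [← Finset.sum_subset h1]
        intro i _ hi
        refine Finset.sum_eq_zero fun j _ => ?_
        rw [C.wt_zero r i (by simpa using hi)]; ring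

theorem Emb.ip {r s : ℕ} (hr : r < D.nroots) (hs : s < D.nroots) :
    C'.ip (C'.wt (em r)) (C'.wt (em s)) = C.ip (C.wt r) (C.wt s) := by
  unfold SLData.ip; rw [H.B hr hs, H.B hs hr]

theorem Emb.N {r s u : ℕ} (hr : r < D.nroots) (hs : s < D.nroots) (hu : u < D.nroots) :
    C'.N (em r) (em s) (em u) = C.N r s u := by
  unfold SLData.N; rw [H.B hr hs, H.sg r hr, H.sg s hs, H.sg u hu]

theorem Emb.neg {r : ℕ} (hr : r < D.nroots) : em (D.neg r) = D'.neg (em r) := by
  apply wt_inj (C := C') (H.lt _ (C.neg_lt r hr)) (C'.neg_lt _ (H.lt r hr))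
  rw [H.wt _ (C.neg_lt r hr), C.wt_neg r hr, C'.wt_neg _ (H.lt r hr), H.wt r hr]

theorem Emb.inj {r s : ℕ} (hr : r < D.nroots) (hs : s < D.nroots) (h : em r = em s) : r = s := by
  apply wt_inj (C := C) hr hs
  rw [← H.wt r hr, ← H.wt s hs, h]

theorem Emb.ab {K : Type*} [Field K] {G : Type*} [Group G] {x : ℕ → K → G} (A : AB D' x) : AB D (fun r t => x (em r) t) := by
  refine ⟨fun r hr t u => A.add _ (H.lt r hr) t u, ?_⟩
  intro r hr s hs hsr hsn t u
  have h1 : em s ≠ em r := fun e => hsr (H.inj hs hr e)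
  have h2 : em s ≠ D'.neg (em r) := fun e => hsn (by
    rw [← H.neg hr] at e
    exact H.inj hs (C.neg_lt r hr) e)
  have h3 := A.comm _ (H.lt r hr) _ (H.lt s hs) h1 h2 t u
  rw [h3]
  congr 1
  rcases tri (C := C) hr hs with ⟨h, -⟩ | ⟨h, -⟩ | h | h | h
  · exact absurd h hsr
  · exact absurd h hsn
  · obtain ⟨a, ha, e⟩ := exists_sum hr hs h
    have e' : C'.wt (em a) = C'.wt (em r) + C'.wt (em s) := by rw [H.wt a ha, H.wt r hr, H.wt s hs, e]
    unfold ChevExc.wp ChevalleyDatum.commWord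
    rw [terms_one C hr hs ha e, terms_one C' (H.lt r hr) (H.lt s hs) (H.lt a ha) e', H.N hr hs ha]
    simp
  · unfold ChevExc.wp ChevalleyDatum.commWord
    rw [terms_nil C hr hs (by omega), terms_nil C' (H.lt r hr) (H.lt s hs) (by rw [H.ip hr hs]; omega)]
    simp
  · unfold ChevExc.wp ChevalleyDatum.commWord
    rw [terms_nil C hr hs (by omega), terms_nil C' (H.lt r hr) (H.lt s hs) (by rw [H.ip hr hs]; omega)]
    simp

end sub

/-! ### the check -/

noncomputable def embCheck (c c' : Code) (em : List ℕ) : Bool :=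
  Nat.ble c.l c'.l &&
  allB (fun r => Nat.blt (em.getD r 0) c'.n && (c'.wl (em.getD r 0) == c.wl r ++ List.replicate (c'.l - c.l) 0) &&
    (c'.sg (em.getD r 0) == c.sg r)) c.n &&
  allB (fun i => allB (fun j => c'.bm i j == c.bm i j) c.l) c.l

theorem emb_of_check {c c' : Code} {D D' : ChevalleyDatum} {em : List ℕ} (h1 : c.easyCheck D = true) (h2 : c.packCheck D = true)
    (h3 : c.rowsCheck D = true) (h1' : c'.easyCheck D' = true) (h2' : c'.packCheck D' = true)
    (h3' : c'.rowsCheck D' = true) (h : embCheck c c' em = true) :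
    Emb (toSLData h1 h2 h3) (toSLData h1' h2' h3') (fun r => em.getD r 0) := by
  have hE := easy_of_check h1
  have hE' := easy_of_check h1'
  unfold embCheck at h
  simp only [Bool.and_eq_true, allB_iff, Nat.blt_eq, beq_iff_eq, Nat.ble_eq] at h
  obtain ⟨⟨g1, g2⟩, g3⟩ := h
  refine ⟨?_, ?_, ?_, ?_, ?_⟩
  · intro r hr
    rw [hE.nroots] at hr; rw [hE'.nroots]
    exact (g2 r hr).1.1
  · intro r hr
    rw [hE.nroots] at hr
    have e := (g2 r hr).1.2
    show c'.wt (em.getD r 0) = c.wt r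
    funext i
    have e1 := congrArg (fun L => L.getD i 0) e
    simp only [wl_getD] at e1
    rw [e1]
    by_cases hi : i < c.l
    · rw [List.getD_append _ _ _ _ (by rw [wl_length]; exact hi), wl_getD]
    · rw [List.getD_append_right _ _ _ _ (by rw [wl_length]; omega), wt_of_ge (by omega)]
      rw [List.getD_eq_getElem?_getD, List.getElem?_replicate]
      split_ifs <;> rfl
  · intro r hr
    rw [hE.nroots] at hr
    exact (g2 r hr).2
  · rw [hE.rank, hE'.rank]; exact g1
  · intro i hi j hj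
    rw [hE.rank] at hi hj
    exact g3 i hi j hj

def emE6 : List ℕ := [35, 45, 51, 54, 55, 61, 64, 65, 68, 69, 70, 73, 74, 75, 76, 77, 83, 86, 87, 90, 91, 92, 95, 96, 97, 98, 101, 102, 103, 104, 107, 108, 109, 112, 113, 116, 123, 126, 127, 130, 131, 132, 135, 136, 137, 138, 141, 142, 143, 144, 147, 148, 149, 152, 153, 156, 162, 163, 164, 165, 166, 169, 170, 171, 174, 175, 178, 184, 185, 188, 194, 204]

theorem embcE6 : embCheck ChevCertE6.codeE6 ChevCertE8.codeE8 emE6 = true := by decide +kernel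

theorem embE6 : Emb (toSLData ChevCertE6.easy_E6 ChevCertE6.pack_E6 ChevCertE6.rows_E6)
    (toSLData ChevCertE8.easy_E8 ChevCertE8.pack_E8 ChevCertE8.rows_E8) (fun r => emE6.getD r 0) :=
  emb_of_check _ _ _ _ _ _ embcE6

theorem simpE6 : ∀ i < Cfsg.Lie.chevE6.rank, emE6.getD (Cfsg.Lie.chevE6.simple i) 0 = Cfsg.Lie.chevE8.simple i := by
  decide +kernel

def emE7 : List ℕ := [13, 20, 25, 29, 32, 34, 35, 39, 42, 44, 45, 48, 50, 51, 53, 54, 55, 58, 60, 61, 63, 64, 65, 67, 68, 69, 70, 72, 73, 74, 75, 76, 77, 80, 82, 83, 85, 86, 87, 89, 90, 91, 92, 94, 95, 96, 97, 98, 100, 101, 102, 103, 104, 106, 107, 108, 109, 111, 112, 113, 115, 116, 118, 121, 123, 124, 126, 127, 128, 130, 131, 132, 133, 135, 136, 137, 138, 139, 141, 142, 143, 144, 145, 147, 148, 149, 150, 152, 153, 154, 156, 157, 159, 162, 163, 164, 165, 166, 167, 169, 170, 171, 172, 174, 175, 176, 178, 179, 181, 184, 185, 186, 188, 189, 191, 194, 195, 197, 200, 204, 205, 207, 210, 214, 219, 226]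

theorem embcE7 : embCheck ChevCertE7.codeE7 ChevCertE8.codeE8 emE7 = true := by decide +kernel

theorem embE7 : Emb (toSLData ChevCertE7.easy_E7 ChevCertE7.pack_E7 ChevCertE7.rows_E7)
    (toSLData ChevCertE8.easy_E8 ChevCertE8.pack_E8 ChevCertE8.rows_E8) (fun r => emE7.getD r 0) :=
  emb_of_check _ _ _ _ _ _ embcE7

theorem simpE7 : ∀ i < Cfsg.Lie.chevE7.rank, emE7.getD (Cfsg.Lie.chevE7.simple i) 0 = Cfsg.Lie.chevE8.simple i := by
  decide +kernel

end H23.SubE8
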