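/-
H23: the centres of the Steinberg groups of types E6, E7 (S1079) and the multipliers of E6(q), E7(q).
-/
import Cfsg.Agent.Lib.H23.SubE8
set_option autoImplicit false
set_option linter.unusedVariables false

namespace H23.CenterE

open scoped commutatorElement
open Cfsg.Lie (ChevalleyDatum)
open H22.RGD H22.Coord H22.RCCheck H22.RCComb H22.ChevTri H22.ChevRel H22.ChevSys H22.ChevMain
open H22.ChevStd H22.ChevSolv H22.ChevUni H22.St H22.ChevTorus H22.ChevTorusCard
open H23.ChevSLTheory H23.ChevSLTheory.SLData H23.Cv H23.LiftE H23.SubE8 H23.Mult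

universe u

variable {K : Type u} [Field K]

/-- extension of a torus element by ones -/
def ext (l m : ℕ) (T : Type*) [CommGroup T] : (Fin l → T) →* (Fin m → T) where
  toFun c := fun j => if h : (j : ℕ) < l then c ⟨j, h⟩ else 1
  map_one' := by funext j; simp
  map_mul' c d := by
    funext j
    simp only [Pi.mul_apply]
    split_ifs <;> simp

theorem ext_single {l m : ℕ} (hlm : l ≤ m) {T : Type*} [CommGroup T] (i : Fin l) (c : T) :
    ext l m T (Pi.mulSingle i c) = Pi.mulSingle (Fin.castLE hlm i) c := by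
  funext j
  simp only [ext, MonoidHom.coe_mk, OneHom.coe_mk]
  by_cases h : j = Fin.castLE hlm i
  · subst h
    rw [Pi.mulSingle_eq_same, dif_pos (by simpa using i.2)]
    have : (⟨(Fin.castLE hlm i : ℕ), by simpa using i.2⟩ : Fin l) = i := Fin.ext (by simp)
    rw [this, Pi.mulSingle_eq_same]
  · rw [Pi.mulSingle_eq_of_ne h]
    split_ifs with h2
    · rw [Pi.mulSingle_eq_of_ne]
      intro e
      apply h
      apply Fin.ext
      simpa using congrArg Fin.val e
    · rfl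

theorem ext_inj {l m : ℕ} (hlm : l ≤ m) {T : Type*} [CommGroup T] {c : Fin l → T} (h : ext l m T c = 1) : c = 1 := by
  funext i
  have := congrFun h (Fin.castLE hlm i)
  simp only [ext, MonoidHom.coe_mk, OneHom.coe_mk, Pi.one_apply] at this
  rw [dif_pos (by simpa using i.2)] at this
  have e : (⟨(Fin.castLE hlm i : ℕ), by simpa using i.2⟩ : Fin l) = i := Fin.ext (by simp)
  rw [e] at this
  exact this

section
variable {D D' : ChevalleyDatum} (hD : D ∈ L7) (hD' : D' ∈ L7) {C : SLData D} {C' : SLData D'} {em : ℕ → ℕ} (H : Emb C C' em)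
  (hsim : ∀ i < D.rank, em (D.simple i) = D'.simple i) {R : Rel D K} {R' : Rel D' K}
  (S : StG R (D.SteinbergGroup K)) (hS : ∀ r t, S.xb r t = D.stGen K r t)
  (S' : StG R' (D'.SteinbergGroup K)) (hS' : ∀ r t, S'.xb r t = D'.stGen K r t)
  (X : RCX D) (Z : Lex X.rc) (W : StCert D X.rc.half) (X' : RCX D') (Z' : Lex X'.rc) (W' : StCert D' X'.rc.half)
  (ρ : D.SteinbergGroup K →* D'.SteinbergGroup K) (hρ : ∀ r < D.nroots, ∀ t, ρ (D.stGen K r t) = D'.stGen K (em r) t)
include hD H hsim hS hS' hρ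

theorem ρ_nb {r : ℕ} (hr : r < D.nroots) (t : K) : ρ (S.nb r t) = S'.nb (em r) t := by
  rw [S.nb_def, S'.nb_def, map_mul, map_mul, hS, hS, hS', hS', hρ r hr, hρ _ (Cv.neg_lt hD r hr), H.neg hr]

theorem ρ_psi (c : Fin D.rank → Kˣ) : ρ (S.psi X Z W c) = S'.psi X' Z' W' (ext D.rank D'.rank Kˣ c) := by
  have key : ∀ (i : Fin D.rank) (c : Kˣ), ρ (S.psi X Z W (Pi.mulSingle i c)) =
      S'.psi X' Z' W' (ext D.rank D'.rank Kˣ (Pi.mulSingle i c)) := by
    intro i c
    rw [ext_single H.rank]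
    have e : S.psi X Z W (Pi.mulSingle i c) = S.hb (D.simple i) c := S.psi_single X Z W i c
    have e' : S'.psi X' Z' W' (Pi.mulSingle (Fin.castLE H.rank i) c) = S'.hb (D'.simple i) c :=
      S'.psi_single X' Z' W' (Fin.castLE H.rank i) c
    have hi := X.rc.simple_lt i i.2
    rw [e, e', S.hb_def, S'.hb_def, map_mul, ρ_nb hD H hsim S hS S' hS' ρ hρ hi, ρ_nb hD H hsim S hS S' hS' ρ hρ hi,
      hsim i i.2]
  have h2 : c ∈ MonoidHom.eqLocus (ρ.comp (S.psi X Z W)) ((S'.psi X' Z' W').comp (ext D.rank D'.rank Kˣ)) := by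
    apply Subgroup.pi_mem_of_mulSingle_mem
    intro i
    exact key i (c i)
  exact h2

include X' Z' W' in
theorem psi_inj (hchi : (chi D' K).ker = ⊥) : Function.Injective (S.psi X Z W) := by
  rw [injective_iff_map_eq_one]
  intro c hc
  have h1 := ρ_psi hD H hsim S hS S' hS' X Z W X' Z' W' ρ hρ c
  rw [hc, map_one] at h1
  have h2 := congrArg S'.θ h1
  rw [map_one, S'.θ_psi] at h2
  have h3 : chi D' K (ext D.rank D'.rank Kˣ c) = 1 := dg_injective (by rw [← h2, map_one])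
  have h4 : ext D.rank D'.rank Kˣ c ∈ (chi D' K).ker := h3
  rw [hchi, Subgroup.mem_bot] at h4
  exact ext_inj H.rank h4

end

theorem card_center {D : ChevalleyDatum} [Finite K] (hD : D ∈ L7) {C : SLData D}
    {em : ℕ → ℕ} (H : Emb C (H23.ChevSLCheck.Code.toSLData ChevCertE8.easy_E8 ChevCertE8.pack_E8 ChevCertE8.rows_E8) em)
    (hsim : ∀ i < D.rank, em (D.simple i) = Cfsg.Lie.chevE8.simple i) :
    Nat.card (Subgroup.center (D.SteinbergGroup K)) = Nat.card (chi D K).ker := by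
  have hD' : Cfsg.Lie.chevE8 ∈ L7 := by simp
  obtain ⟨X, ⟨Z⟩, W⟩ := H22.StTab.exists_all hD
  obtain ⟨X', ⟨Z'⟩, W'⟩ := H22.StTab.exists_all hD'
  have R := H22.ChevAll.rel D hD K
  have R' := H22.ChevAll.rel Cfsg.Lie.chevE8 hD' K
  let S := stGof R (θ₀ R X.rc (hmul_all D hD)) (θ₀_gen R X.rc (hmul_all D hD))
  let S' := stGof R' (θ₀ R' X'.rc (hmul_all _ hD')) (θ₀_gen R' X'.rc (hmul_all _ hD'))
  obtain ⟨ρ, hρ⟩ := H23.ChevExc.exists_lift ((H.ab (st_ab (K := K) hD')).stR hD) (Cv.neg_lt hD) (ct_lt hD)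
  have hinj := psi_inj hD H hsim S (fun _ _ => rfl) S' (fun _ _ => rfl) X Z W X' Z' W' ρ hρ ker_chi_E8
  rw [S.center_eq X Z W]
  exact (Nat.card_congr ((chi D K).ker.equivMapOfInjective _ hinj).toEquiv).symm

theorem s1079 [Fintype K] {q : ℕ} (hq : Fintype.card K = q)
    (p : Cfsg.Lie.ChevalleyDatum × ℕ) (hp : p ∈ [(Cfsg.Lie.chevE6, 3), (Cfsg.Lie.chevE7, 2)]) :
    Nat.card (Subgroup.center (p.1.SteinbergGroup K)) = Nat.gcd p.2 (q - 1) := by
  simp only [List.mem_cons, List.not_mem_nil, or_false] at hp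
  rcases hp with rfl | rfl
  · rw [card_center (by simp) embE6 simpE6]
    exact kerE6 hq
  · rw [card_center (by simp) embE7 simpE7]
    exact kerE7 hq

theorem not_mem (D : ChevalleyDatum) (h : D.rank ≠ 2) {P : Prop} : D ∈ [Cfsg.Lie.chevB2, Cfsg.Lie.chevG2] → P := by
  intro h1
  exfalso
  simp only [List.mem_cons, List.not_mem_nil, or_false] at h1
  rcases h1 with rfl | rfl
  · exact h rfl
  · exact h rfl

theorem gcd_prime {p n : ℕ} (hp : p.Prime) : Nat.gcd p n = 1 ∨ (Nat.gcd p n).Prime := by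
  rcases (Nat.dvd_prime hp).1 (Nat.gcd_dvd_left p n) with h | h
  · exact Or.inl h
  · right; rw [h]; exact hp

theorem s2105 [Fintype K] {q : ℕ} (hq : Fintype.card K = q) :
    Cfsg.HasCyclicSchurMultiplier ↥(Cfsg.Lie.chevE6.group K) (Nat.gcd 3 (q - 1)) :=
  group_mult (by simp) (not_mem _ (by decide)) (fun A hinj => lp_E (by simp) A hinj) (gcd_prime Nat.prime_three)
    (s1079 hq (Cfsg.Lie.chevE6, 3) (by simp))

theorem s2106 [Fintype K] {q : ℕ} (hq : Fintype.card K = q) :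
    Cfsg.HasCyclicSchurMultiplier ↥(Cfsg.Lie.chevE7.group K) (Nat.gcd 2 (q - 1)) :=
  group_mult (by simp) (not_mem _ (by decide)) (fun A hinj => lp_E (by simp) A hinj) (gcd_prime Nat.prime_two)
    (s1079 hq (Cfsg.Lie.chevE7, 2) (by simp))

end H23.CenterE
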