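/-
H23: G2(2)' and PSU3(3): matched actions on 63 points.
-/
import Cfsg.Agent.Lib.H63.J2U3
import Cfsg.Prelude.Def_ChevStructure
import Cfsg.Prelude.Def_ChevG2
set_option autoImplicit false
set_option linter.unusedVariables false
set_option maxRecDepth 100000

namespace H23.G22

open Cfsg.Lie
open scoped Matrix

def VT : ℕ := 0x123faa0100b0201db8dbe7c4b80021004000084af512a47403dbddddddf7ef7c0b8be0b000001245d752f66cea02bf90402548423c1f64892005055018ef4012bbc42eeef42001fa9554182bb780087db610daa9400c7f57cfadfbba2504231820572448c2140bc7e0afbbedd9f3e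

/-- code of an index -/
def enc : chevG2.Idx → ℕ
  | .inl i => i.val
  | .inr s => 2 + s.val

/-- the vectors -/
def vec (k : ℕ) : chevG2.Idx → ZMod 2 := fun i => bif Nat.testBit VT (14 * k + enc i) then 1 else 0

noncomputable def p1 (k : ℕ) : ℕ := H63.PC.ap (H63.QT.tab1.get 1) k
noncomputable def p2 (k : ℕ) : ℕ := H63.PC.ap (H63.QT.tab1.get 2) k

def Q2 : ℕ := 0x3c4feec314a1a27f4ad702d64dc04ce6a5e46a3028f6696d681dc061bcfca0414f529d560eba523824b777e6cea46f1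
def Q9 : ℕ := 0x28978ed66bcdf6d728346ed54dc0c0ea7fe64ef428c9633a4a04bc799e15fabd4106411166bac71e8880123d3ae4747
def Q11 : ℕ := 0x9595ec927df6d4534fc440604fa0ea787e11f798c672e2a95616c2f0becc748b4998ec90cd661f494a22d30adabfe

def aq (T k : ℕ) : ℕ := Nat.land (Nat.shiftRight T (Nat.mul 6 k)) 63

theorem act0 : ∀ k < 63, (chevG2.x (ZMod 2) 0 1) *ᵥ vec k = vec (p1 k) := by decide +kernel
theorem act2 : ∀ k < 63, (chevG2.x (ZMod 2) 2 1) *ᵥ vec k = vec (aq Q2 k) := by decide +kernel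
theorem act9 : ∀ k < 63, (chevG2.x (ZMod 2) 9 1) *ᵥ vec k = vec (aq Q9 k) := by decide +kernel
theorem act11 : ∀ k < 63, (chevG2.x (ZMod 2) 11 1) *ᵥ vec k = vec (aq Q11 k) := by decide +kernel
theorem q2 : ∀ k < 63, aq Q2 k < 63 ∧ aq Q9 (aq Q2 k) < 63 ∧ aq Q11 (aq Q9 (aq Q2 k)) = p2 k := by decide +kernel

theorem vec_inj : ∀ j < 63, ∀ k < 63, vec j = vec k → j = k := by decide +kernel

def subs : List (List ℕ) := [[1, 3, 8, 9, 11, 17, 19, 21, 47], [1, 7, 8, 11, 13, 17, 19, 21, 47], [0, 3, 13, 17], [2, 7, 8, 17], [8, 11, 13, 19, 47], [1, 3, 8, 9, 13, 19, 21], [0, 3, 7, 8, 9, 11, 17, 19, 47], [1, 2, 3, 7, 8, 9, 11, 13, 21, 47], [2, 7, 8, 9, 17], [0, 7, 9, 13, 15, 17, 47], [0, 1, 2, 3, 7, 9, 13, 15, 21], [0, 1, 2, 7, 8, 11, 13, 15, 17, 19], [0, 3, 11, 13, 15, 21, 47], [0, 7, 11, 13, 15, 19, 21, 47]]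

/-- basis vectors as sums -/
theorem basis : ∀ i : chevG2.Idx, (fun j => if j = i then (1 : ZMod 2) else 0) = fun j => ((subs.getD (enc i) []).map fun k => vec k j).sum := by
  decide +kernel

end H23.G22
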