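/-
H23: G2(2)' is isomorphic to PSU3(3).
-/
import Cfsg.Agent.Lib.H23.G22Chk
import Cfsg.Agent.Lib.H22.ChevAll
import Cfsg.Agent.Lib.H22.ChevMain
import Cfsg.Agent.Lib.H22.ChevField
import Cfsg.Agent.Lib.H6.PSUBasic
import Cfsg.Agent.Lib.H6.Frame
import Cfsg.Agent.S1059
import Cfsg.Agent.S0283
set_option autoImplicit false
set_option linter.unusedVariables false

namespace H23.G22

open scoped commutatorElement

open Cfsg.Lie
open scoped Matrix

abbrev G2 := ↥(chevG2.group (ZMod 2))

theorem R : H22.ChevRel.Rel chevG2 (ZMod 2) := H22.ChevAll.rel chevG2 (by simp) (ZMod 2)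

/-- root elements -/
noncomputable def e (r : ℕ) (hr : r < 12) : G2 := ⟨H22.ChevRel.xg R r 1, H22.ChevMain.xg_mem_group R hr _⟩

theorem e_val (r : ℕ) (hr : r < 12) : ((e r hr : GL chevG2.Idx (ZMod 2)) : Matrix chevG2.Idx chevG2.Idx (ZMod 2)) = chevG2.x (ZMod 2) r 1 := rfl

noncomputable def g1 : G2 := e 0 (by norm_num)
noncomputable def g2 : G2 := e 11 (by norm_num) * (e 9 (by norm_num) * e 2 (by norm_num))

/-- matrix of an element -/
abbrev mt (g : G2) : Matrix chevG2.Idx chevG2.Idx (ZMod 2) := ((g : GL chevG2.Idx (ZMod 2)) : Matrix chevG2.Idx chevG2.Idx (ZMod 2))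

abbrev PG := Equiv.Perm (Fin 63)

/-- compatibility -/
def P (p : PG × G2) : Prop := ∀ k : Fin 63, mt p.2 *ᵥ vec k = vec (p.1 k)

/-- the group of pairs -/
noncomputable def Γ : Subgroup (PG × G2) :=
  Subgroup.closure {(H63.U3.alpha H63.U3.C1, g1), (H63.U3.alpha H63.U3.C2, g2)}

theorem P1 : P (H63.U3.alpha H63.U3.C1, g1) := by
  intro k
  have h := act0 k k.2
  have h2 : p1 k = (H63.U3.alpha H63.U3.C1 k : ℕ) := H63.J2.alpha_C1 k
  rw [h2] at h
  exact h

theorem P2 : P (H63.U3.alpha H63.U3.C2, g2) := by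
  intro k
  obtain ⟨h1, h2, h3⟩ := q2 k k.2
  have h4 : p2 k = (H63.U3.alpha H63.U3.C2 k : ℕ) := H63.J2.alpha_C2 k
  have h5 : mt g2 = chevG2.x (ZMod 2) 11 1 * (chevG2.x (ZMod 2) 9 1 * chevG2.x (ZMod 2) 2 1) := rfl
  show mt g2 *ᵥ vec k = _
  rw [h5, ← Matrix.mulVec_mulVec, ← Matrix.mulVec_mulVec, act2 k k.2, act9 _ h1, act11 _ h2, h3, h4]

theorem mem_P {p : PG × G2} (hp : p ∈ Γ) : P p := by
  unfold Γ at hp
  induction hp using Subgroup.closure_induction with
  | mem p hp =>
    rcases hp with rfl | hp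
    · exact P1
    · rw [Set.mem_singleton_iff] at hp; subst hp; exact P2
  | one =>
    intro k
    show (1 : Matrix chevG2.Idx chevG2.Idx (ZMod 2)) *ᵥ vec k = _
    rw [Matrix.one_mulVec]; rfl
  | mul p q _ _ hp hq =>
    intro k
    show (mt p.2 * mt q.2) *ᵥ vec k = vec (p.1 (q.1 k))
    rw [← Matrix.mulVec_mulVec, hq k, hp (q.1 k)]
  | inv p _ hp =>
    intro k
    have h := hp (p.1⁻¹ k)
    have e1 : p.1 (p.1⁻¹ k) = k := p.1.apply_symm_apply k
    rw [e1] at h
    show mt p.2⁻¹ *ᵥ vec k = vec (p.1⁻¹ k)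
    rw [← h, Matrix.mulVec_mulVec]
    have e2 : mt p.2⁻¹ * mt p.2 = 1 := by
      have : mt p.2⁻¹ * mt p.2 = mt (p.2⁻¹ * p.2) := rfl
      rw [this, inv_mul_cancel]; rfl
    rw [e2, Matrix.one_mulVec]

theorem subs_lt : ∀ i : chevG2.Idx, ∀ k ∈ subs.getD (enc i) [], k < 63 := by decide +kernel

theorem fix_one {g : G2} (h : (1, g) ∈ Γ) : g = 1 := by
  have hP := mem_P h
  have h1 : ∀ k < 63, mt g *ᵥ vec k = vec k := fun k hk => hP ⟨k, hk⟩
  have hs : ∀ l : List ℕ, (∀ k ∈ l, k < 63) → mt g *ᵥ (fun j => (l.map fun k => vec k j).sum) = fun j => (l.map fun k => vec k j).sum := by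
    intro l hl
    induction l with
    | nil =>
      have : (fun j : chevG2.Idx => (([] : List ℕ).map fun k => vec k j).sum) = 0 := by funext j; simp
      rw [this, Matrix.mulVec_zero]
    | cons k l ih =>
      have : (fun j : chevG2.Idx => ((k :: l).map fun k => vec k j).sum) = vec k + fun j => (l.map fun k => vec k j).sum := by
        funext j; simp
      rw [this, Matrix.mulVec_add, h1 k (hl k List.mem_cons_self), ih fun k hk => hl k (List.mem_cons_of_mem _ hk)]
  apply Subtype.ext
  apply Units.ext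
  ext i j
  have h2 := hs _ (subs_lt j)
  rw [← basis j] at h2
  have h3 := congrFun h2 i
  have h4 : (mt g *ᵥ fun k => if k = j then (1 : ZMod 2) else 0) i = mt g i j := by
    rw [Matrix.mulVec, dotProduct]
    simp
  rw [h4] at h3
  show mt g i j = (1 : Matrix chevG2.Idx chevG2.Idx (ZMod 2)) i j
  rw [h3, Matrix.one_apply]

theorem perm_one {π : PG} (h : (π, 1) ∈ Γ) : π = 1 := by
  have hP := mem_P h
  ext k
  have h1 := hP k
  have h2 : mt (1 : G2) *ᵥ vec k = vec k := Matrix.one_mulVec _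
  rw [h2] at h1
  have h3 := vec_inj k k.2 _ (π k).2 h1
  rw [← h3]; rfl

theorem card_G2 : Nat.card G2 = 12096 := by
  rw [Cfsg.Agent.S1059.result (F := ZMod 2) (q := 2) (by simp [ZMod.card])]; norm_num

/-- the isomorphism with the unitary group -/
theorem exists_iso : Nonempty (↥Γ ≃* H63.U3.SU3) := by
  let f : ↥Γ →* PG := (MonoidHom.fst _ _).comp Γ.subtype
  have hr : f.range = H63.U3.alpha.range := by
    have : f.range = Γ.map (MonoidHom.fst _ _) := by
      rw [MonoidHom.range_eq_map, ← Subgroup.map_map, ← MonoidHom.range_eq_map, Subgroup.range_subtype]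
    rw [this, ← H63.J2.alpha_range]
    unfold Γ
    rw [MonoidHom.map_closure, Set.image_pair]
    rfl
  have hi : Function.Injective f := by
    rw [injective_iff_map_eq_one]
    rintro ⟨⟨π, g⟩, hm⟩ h
    have h1 : π = 1 := h
    subst h1
    have h2 := fix_one hm
    subst h2
    rfl
  exact ⟨(f.ofInjective hi).trans ((MulEquiv.subgroupCongr hr).trans (H63.U3.alpha.ofInjective H63.U3.alpha_inj).symm)⟩

theorem simple_perfect {A : Type*} [Group A] (hA : IsSimpleGroup A) (hp : ¬ (Nat.card A).Prime) (h0 : Nat.card A ≠ 0) :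
    commutator A = ⊤ := by
  rcases hA.eq_bot_or_eq_top_of_normal (commutator A) inferInstance with h | h
  · exfalso
    have hcomm : ∀ a b : A, a * b = b * a := by
      intro a b
      have hm : ⁅a, b⁆ ∈ commutator A := Subgroup.commutator_mem_commutator (Subgroup.mem_top _) (Subgroup.mem_top _)
      rw [h, Subgroup.mem_bot, commutatorElement_eq_one_iff_mul_comm] at hm
      exact hm
    letI : CommGroup A := { (inferInstance : Group A) with mul_comm := hcomm }
    have hfin : Finite A := Nat.finite_of_card_ne_zero h0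
    exact hp (IsSimpleGroup.prime_card (α := A))
  · exact h

theorem comm_of_index_two {A B : Type*} [Group A] [Group B] (f : A →* B) (hi : Function.Injective f) (hA : IsSimpleGroup A)
    (hp : ¬ (Nat.card A).Prime) (h0 : Nat.card A ≠ 0) (hB : Nat.card B = 2 * Nat.card A) : Nonempty (↥(commutator B) ≃* A) := by
  let ef : A ≃* ↥f.range := f.ofInjective hi
  have hcard : Nat.card f.range = Nat.card A := (Nat.card_congr ef.toEquiv).symm
  have hidx : f.range.index = 2 := by
    have h := Subgroup.card_mul_index f.range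
    rw [hcard, hB, mul_comm] at h
    exact Nat.eq_of_mul_eq_mul_right (Nat.pos_of_ne_zero h0) h
  have hn : f.range.Normal := Subgroup.normal_of_index_eq_two hidx
  have hle : commutator B ≤ f.range := by
    have hc : Nat.card (B ⧸ f.range) = 2 := hidx
    have : Fact (Nat.Prime 2) := ⟨Nat.prime_two⟩
    have hcyc : IsCyclic (B ⧸ f.range) := isCyclic_of_prime_card hc
    rw [commutator_def, Subgroup.commutator_le]
    intro a _ b _
    rw [← QuotientGroup.eq_one_iff, ← QuotientGroup.mk'_apply, map_commutatorElement, commutatorElement_eq_one_iff_mul_comm]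
    letI := hcyc.commGroup
    exact mul_comm _ _
  have hge : f.range ≤ commutator B := by
    have h1 : (commutator A).map f ≤ commutator B := by
      rw [map_commutator_eq]
      exact Subgroup.commutator_mono le_top le_top
    rw [simple_perfect hA hp h0, ← MonoidHom.range_eq_map] at h1
    exact h1
  have heq : commutator B = f.range := le_antisymm hle hge
  exact ⟨(MulEquiv.subgroupCongr heq).trans ef.symm⟩

theorem snd_inj : Function.Injective ((MonoidHom.snd PG G2).comp Γ.subtype) := by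
  rw [injective_iff_map_eq_one]
  rintro ⟨⟨π, g⟩, hm⟩ h
  have h1 : g = 1 := h
  subst h1
  have h2 := perm_one hm
  subst h2
  rfl

theorem psu_simple : IsSimpleGroup (Cfsg.PSU 3 H63.U3.K 3) := Cfsg.Agent.S0283.result H63.U3.card_K 3 (by norm_num) (by norm_num)

theorem commutator_iso : Nonempty (↥(commutator G2) ≃* Cfsg.PSU 3 H63.U3.K 3) := by
  obtain ⟨e1⟩ := exists_iso
  obtain ⟨e2⟩ := H63.J2.SU3_iso
  have hc : Nat.card ↥Γ = 6048 := by rw [Nat.card_congr e1.toEquiv, H63.U3.card_SU3]
  have hsimp : IsSimpleGroup ↥Γ := (MulEquiv.isSimpleGroup_congr (e1.trans e2)).2 psu_simple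
  obtain ⟨e3⟩ := comm_of_index_two _ snd_inj hsimp (by rw [hc]; norm_num) (by rw [hc]; norm_num) (by rw [hc, card_G2])
  exact ⟨e3.trans (e1.trans e2)⟩

/-! ### general fields -/

open Cfsg Matrix in
theorem slCongr_mem_SU {F F' : Type*} [Field F] [Field F'] [Fintype F] [Fintype F'] {n q : ℕ}
    (hF : Fintype.card F = q ^ 2) (hF' : Fintype.card F' = q ^ 2) (e : F ≃+* F')
    (g : SpecialLinearGroup (Fin n) F) :
    H6.Frame.slCongr e g ∈ SU n F' q ↔ g ∈ SU n F q := by
  rw [H7.UnitSU.mem_SU_iff hF, H7.UnitSU.mem_SU_iff hF']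
  have h1 : ((H6.Frame.slCongr e g : SpecialLinearGroup (Fin n) F') : Matrix (Fin n) (Fin n) F') =
      (g : Matrix (Fin n) (Fin n) F).map e := rfl
  have h2 : ((g : Matrix (Fin n) (Fin n) F).map e)ᵀ * H7.UnitSU.bar q ((g : Matrix (Fin n) (Fin n) F).map e) =
      ((g : Matrix (Fin n) (Fin n) F)ᵀ * H7.UnitSU.bar q (g : Matrix (Fin n) (Fin n) F)).map e := by
    ext i j
    simp [Matrix.mul_apply, H7.UnitSU.bar]
  rw [h1, h2]
  constructor
  · intro h
    ext i j
    have h3 := congrFun (congrFun h i) j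
    apply e.injective
    rw [Matrix.map_apply] at h3
    rw [h3]
    by_cases hij : i = j
    · subst hij; simp
    · simp [hij]
  · intro h
    rw [h]
    ext i j
    by_cases hij : i = j
    · subst hij; simp
    · simp [hij]

open Cfsg in
/-- `SU` over isomorphic fields -/
noncomputable def suCongr {F F' : Type*} [Field F] [Field F'] [Fintype F] [Fintype F'] {n q : ℕ}
    (hF : Fintype.card F = q ^ 2) (hF' : Fintype.card F' = q ^ 2) (e : F ≃+* F') :
    SU n F q ≃* SU n F' q :=
  ((H6.Frame.slCongr (ι := Fin n) e).subgroupMap (SU n F q)).trans (MulEquiv.subgroupCongr (by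
    ext g
    rw [Subgroup.mem_map]
    constructor
    · rintro ⟨x, hx, rfl⟩
      exact (slCongr_mem_SU hF hF' e x).2 hx
    · intro hg
      refine ⟨(H6.Frame.slCongr e).symm g, ?_, ?_⟩
      · rw [← slCongr_mem_SU hF hF' e]
        rw [MulEquiv.apply_symm_apply]
        exact hg
      · change H6.Frame.slCongr e ((H6.Frame.slCongr e).symm g) = g
        exact MulEquiv.apply_symm_apply _ _))

theorem comm_congr {A B : Type*} [Group A] [Group B] (β : A ≃* B) : Nonempty (↥(commutator A) ≃* ↥(commutator B)) := by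
  have hβ : (commutator A).map (β : A →* B) = commutator B := by
    rw [map_commutator_eq]
    have : (β : A →* B).range = ⊤ := MonoidHom.range_eq_top.2 β.surjective
    rw [this, commutator_def]
  exact ⟨(β.subgroupMap (commutator A)).trans (MulEquiv.subgroupCongr hβ)⟩

theorem field_iso {F : Type*} [Field F] [Fintype F] (hF : Fintype.card F = 2) : Nonempty (↥(chevG2.group F) ≃* G2) := by
  have h : Fintype.card F = Fintype.card (ZMod 2) := by rw [hF, ZMod.card]
  exact ⟨H22.ChevField.fieldEquiv chevG2 (FiniteField.ringEquivOfCardEq h)⟩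

theorem psu_iso {K : Type*} [Field K] [Fintype K] (hK : Fintype.card K = 9) :
    Nonempty (Cfsg.PSU 3 H63.U3.K 3 ≃* Cfsg.PSU 3 K 3) := by
  have hK2 : Fintype.card K = 3 ^ 2 := by rw [hK]; norm_num
  have h : Fintype.card H63.U3.K = Fintype.card K := by rw [H63.U3.card_K, hK2]
  exact ⟨H6.Frame.quotCenterCongr (suCongr H63.U3.card_K hK2 (FiniteField.ringEquivOfCardEq h))⟩

theorem s1057 {F K : Type*} [Field F] [Fintype F] [Field K] [Fintype K] (hF : Fintype.card F = 2) (hK : Fintype.card K = 9) :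
    Nonempty (↥(commutator ↥(chevG2.group F)) ≃* Cfsg.PSU 3 K 3) := by
  obtain ⟨e1⟩ := commutator_iso
  obtain ⟨β⟩ := field_iso hF
  obtain ⟨e0⟩ := comm_congr β
  obtain ⟨e2⟩ := psu_iso hK
  exact ⟨e0.trans (e1.trans e2)⟩

end H23.G22
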