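/-
H23: the double cover of G2(4).
-/
import Cfsg.Agent.Lib.H34.G24
import Cfsg.Agent.Lib.H34.MPt
import Cfsg.Agent.Lib.H23.G24.ChkA
import Cfsg.Agent.Lib.H23.G24.ChkB
import Cfsg.Agent.Lib.H23.G24.ChkC
import Cfsg.Agent.Lib.H23.G24.ChkD
set_option autoImplicit false
set_option linter.unusedVariables false
set_option maxRecDepth 10000

namespace H23.G24

open H34.MK H35.TC H35.Stem H40.PermCode H35.Net

/-! ### the permutations -/

theorem chk_spec {l : List ℕ} (h : chk 13 8191 8064 13 l = true) {i : ℕ} (hi : i < 8064) : imp 13 8191 l i = i := by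
  have h1 := allB_spec _ _ _ h i (Nat.zero_le _) (by omega)
  have h2 : Nat.ble 8064 i = false := by
    rw [← Bool.not_eq_true, Nat.ble_eq]; omega
  rw [h2] at h1
  exact Nat.eq_of_beq_eq_true h1

theorem rng_spec {T : ℕ} (h : rng T = true) {i : ℕ} (hi : i < 8064) : imp 13 8191 [T] i < 8064 := by
  have h1 := allB_spec _ _ _ h i (Nat.zero_le _) (by omega)
  have h2 : Nat.ble 8064 i = false := by
    rw [← Bool.not_eq_true, Nat.ble_eq]; omega
  rw [h2] at h1
  exact Nat.blt_eq ▸ h1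

theorem imp_tab (T : ℕ) (l : List ℕ) (i : ℕ) : imp 13 8191 (T :: l) i = tab 13 T (imp 13 8191 l i) := by
  rw [imp_cons, show (8191 : ℕ) = 2 ^ 13 - 1 by norm_num, Nat.and_two_pow_sub_one_eq_mod]; rfl

theorem okc_of {T T' : ℕ} (h1 : rng T = true) (h2 : rng T' = true) (h3 : chk 13 8191 8064 13 [T, T'] = true)
    (h4 : chk 13 8191 8064 13 [T', T] = true) : okc 13 8064 T T' = true := by
  rw [okc, allN_iff]
  intro i hi
  have e : imp 13 8191 [] i = i := rfl
  have a1 := rng_spec h1 hi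
  have a2 := rng_spec h2 hi
  have a3 := chk_spec h3 hi
  have a4 := chk_spec h4 hi
  rw [imp_tab, e] at a1 a2
  rw [imp_tab, imp_tab, e] at a3 a4
  simp only [Bool.and_eq_true, Nat.blt_eq, Nat.beq_eq]
  exact ⟨a1, a2, a3, a4⟩

/-- letters -/
inductive Y | a | b | c | d | e | f | z

def cY : Y → ℕ
  | .a => Ta
  | .b => Tb
  | .c => Tc
  | .d => Td
  | .e => Te
  | .f => Tf
  | .z => Tz

def ciY : Y → ℕ
  | .a => Ta
  | .b => Tb
  | .c => Tc
  | .d => Id
  | .e => Ie
  | .f => Tf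
  | .z => Tz

theorem okY : ∀ y, okc 13 8064 (cY y) (ciY y) = true
  | .a => okc_of rg_a rg_a v_a v_a
  | .b => okc_of rg_b rg_b v_b v_b
  | .c => okc_of rg_c rg_c v_c v_c
  | .d => okc_of rg_d rgi_d v_d vi_d
  | .e => okc_of rg_e rgi_e v_e vi_e
  | .f => okc_of rg_f rg_f v_f v_f
  | .z => okc_of rg_z rg_z v_z v_z

abbrev PP := Equiv.Perm (Fin 8064)

abbrev CO : Coding (Fin 8064) 8064 := finCoding 8064

def gY (y : Y) : PP := ofCode CO 13 (cY y) (ciY y) (okY y)

theorem hcY (y : Y) : Rep CO 13 (gY y) (cY y) := rep_ofCode (okY y)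
theorem hciY (y : Y) : Rep CO 13 (gY y)⁻¹ (ciY y) := rep_ofCode_inv (okY y)

theorem evY {w : W Y} (h : chk 13 8191 8064 13 (cw cY ciY w) = true) : ev gY w = 1 :=
  ev_one_of_chk rfl hcY hciY (by norm_num) h

/-- the central permutation -/
def zz : PP := gY .z

theorem zz_two : zz * zz = 1 := by
  have h := evY (w := [(.z, true), (.z, true)]) v_z
  rw [ev_cons, ev_cons, ev_nil, mul_one] at h
  exact h

theorem zz_comm : ∀ y, gY y * zz = zz * gY y := by
  have key : ∀ y, ev gY [(y, true), (.z, true), (y, false), (.z, true)] = 1 → gY y * zz = zz * gY y := by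
    intro y h
    have h1 : gY y * (zz * ((gY y)⁻¹ * zz)) = 1 := by
      rw [ev_cons, ev_cons, ev_cons, ev_cons, ev_nil, mul_one] at h
      exact h
    have h2 : gY y * zz = zz⁻¹ * gY y := by
      rw [← mul_assoc, ← mul_assoc, mul_eq_one_iff_eq_inv, mul_inv_eq_iff_eq_mul] at h1
      exact h1
    have h3 : zz⁻¹ = zz := inv_eq_of_mul_eq_one_left zz_two
    rw [h2, h3]
  intro y
  cases y
  · exact key _ (evY z_a)
  · exact key _ (evY z_b)
  · exact key _ (evY z_c)
  · exact key _ (evY z_d)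
  · exact key _ (evY z_e)
  · exact key _ (evY z_f)
  · rfl

theorem zz_ne : zz ≠ 1 := by
  have h : ev gY [(Y.z, true)] = zz := by rw [ev_cons, ev_nil, mul_one]; rfl
  rw [← h]
  refine ev_ne_one_of_pt (w := [(Y.z, true)]) rfl hcY hciY (i := 0) (by norm_num) ?_
  decide +kernel

end H23.G24
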