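/-
H23: the double cover of G2(4): the presentation modulo the centre.
-/
import Cfsg.Agent.Lib.H23.G24Low
import Cfsg.Agent.Lib.H23.G23Mul
set_option autoImplicit false
set_option linter.unusedVariables false
set_option maxRecDepth 10000

namespace H23.G24

open H34.MK H35.TC H35.Stem H40.PermCode H35.Net

/-- the group of all permutations commuting with the central one -/
abbrev MM : Subgroup PP := Subgroup.centralizer {zz}

theorem mem_MM {g : PP} : g ∈ MM ↔ g * zz = zz * g := by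
  rw [Subgroup.mem_centralizer_singleton_iff]

/-- the elements -/
def my (y : Y) : ↥MM := ⟨gY y, mem_MM.2 (zz_comm y)⟩

/-- the central element -/
def zm : ↥MM := ⟨zz, mem_MM.2 rfl⟩

theorem zm_central : zm ∈ Subgroup.center ↥MM := by
  rw [Subgroup.mem_center_iff]
  intro g
  exact Subtype.ext (mem_MM.1 g.2)

theorem zm_two : zm * zm = 1 := Subtype.ext zz_two
theorem zm_ne : zm ≠ 1 := fun h => zz_ne (congrArg Subtype.val h)

/-- the scalars -/
abbrev ZZ : Subgroup ↥MM := Subgroup.zpowers zm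

instance : (ZZ).Normal := ⟨fun w hw g => by
  obtain ⟨k, rfl⟩ := hw
  have h1 : (fun x : ℤ => zm ^ x) k ∈ Subgroup.center ↥MM := (Subgroup.center ↥MM).zpow_mem zm_central k
  have h2 := Subgroup.mem_center_iff.1 h1 g
  rw [h2, mul_inv_cancel_right]
  exact ⟨k, rfl⟩⟩

/-- letters of the presentation -/
abbrev LB := H35.TCSuzB.Lt

def iY : LB → Y
  | .a => .a
  | .b => .b
  | .c => .c
  | .d => .d
  | .e => .e
  | .f => .f

/-- the elements modulo scalars -/
def qq (x : LB) : ↥MM ⧸ ZZ := ((my (iY x) : ↥MM) : ↥MM ⧸ ZZ)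

def wd (l : List LB) : W Y := l.map fun x => (iY x, true)

theorem ev_wd (l : List LB) : ev gY (wd l) = (((l.map fun x => my (iY x)).prod : ↥MM) : PP) := by
  induction l with
  | nil => rfl
  | cons x l ih =>
    have : wd (x :: l) = (iY x, true) :: wd l := rfl
    rw [this, ev_cons, ih, List.map_cons, List.prod_cons, Subgroup.coe_mul]
    rfl

theorem qq_prod (l : List LB) : (l.map qq).prod = ((((l.map fun x => my (iY x)).prod) : ↥MM) : ↥MM ⧸ ZZ) := by
  have : ((((l.map fun x => my (iY x)).prod) : ↥MM) : ↥MM ⧸ ZZ) = QuotientGroup.mk' ZZ ((l.map fun x => my (iY x)).prod) := rfl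
  rw [this, map_list_prod, List.map_map]
  rfl

theorem rel (l : List LB) (m k : ℕ) (h : chk 13 8191 8064 13 (cw cY ciY (rep (wd l) m ++ rep [(Y.z, true)] k)) = true) :
    ((l.map qq).prod) ^ m = 1 := by
  have h1 := evY h
  rw [ev_append, ev_rep, ev_rep, ev_wd] at h1
  have h2 : ev gY [(Y.z, true)] = (zm : PP) := by rw [ev_cons, ev_nil, mul_one]; rfl
  rw [h2, ← Subgroup.coe_pow, ← Subgroup.coe_pow, ← Subgroup.coe_mul] at h1
  have h3 : (l.map fun x => my (iY x)).prod ^ m * zm ^ k = 1 := Subtype.ext h1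
  rw [qq_prod, ← QuotientGroup.mk_pow, QuotientGroup.eq_one_iff]
  have h4 := eq_inv_of_mul_eq_one_left h3
  rw [h4]
  exact ZZ.inv_mem (ZZ.pow_mem (Subgroup.mem_zpowers _) _)

theorem comm_pow {G : Type*} [Group G] {a b : G} {m : ℕ} (h : (a * b) ^ m = 1) : (b * a) ^ m = 1 := by
  have : b * a = a⁻¹ * (a * b) * a := by group
  rw [this]
  have h2 : (a⁻¹ * (a * b) * a) ^ m = a⁻¹ * (a * b) ^ m * a := by
    have := conj_pow (a := a⁻¹) (b := a * b) (i := m)
    rw [inv_inv] at this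
    exact this
  rw [h2, h, mul_one, inv_mul_cancel]

theorem qq_sq : ∀ x, qq x * qq x = 1 := by
  intro x
  have key : ∀ (k : ℕ), chk 13 8191 8064 13 (cw cY ciY (rep (wd [x]) 2 ++ rep [(Y.z, true)] k)) = true → qq x * qq x = 1 := by
    intro k h
    have h1 := rel [x] 2 k h
    simpa [pow_two] using h1
  cases x
  · exact key 0 v_a
  · exact key 0 v_b
  · exact key 0 v_c
  · exact key 1 s_d
  · exact key 1 s_e
  · exact key 0 v_f

theorem hinvQ : ∀ x, qq (H35.TCSuzB.inv x) = (qq x)⁻¹ := by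
  intro x
  have h := qq_sq x
  have h2 : (qq x)⁻¹ = qq x := inv_eq_of_mul_eq_one_left h
  rw [h2]
  cases x <;> rfl

theorem pr2 (x y : LB) (m k : ℕ) (h : chk 13 8191 8064 13 (cw cY ciY (rep (wd [x, y]) m ++ rep [(Y.z, true)] k)) = true) :
    (qq x * qq y) ^ m = 1 := by
  have h1 := rel [x, y] m k h
  simpa using h1
theorem p_ab : (qq .a * qq .b) ^ 5 = 1 := pr2 .a .b 5 1 w6
theorem p_ac : (qq .a * qq .c) ^ 2 = 1 := pr2 .a .c 2 0 w7
theorem p_ad : (qq .a * qq .d) ^ 2 = 1 := pr2 .a .d 2 1 w8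
theorem p_ae : (qq .a * qq .e) ^ 2 = 1 := pr2 .a .e 2 1 w9
theorem p_af : (qq .a * qq .f) ^ 2 = 1 := pr2 .a .f 2 0 w10
theorem p_bc : (qq .b * qq .c) ^ 3 = 1 := pr2 .b .c 3 0 w11
theorem p_bd : (qq .b * qq .d) ^ 2 = 1 := pr2 .b .d 2 1 w12
theorem p_be : (qq .b * qq .e) ^ 2 = 1 := pr2 .b .e 2 1 w13
theorem p_bf : (qq .b * qq .f) ^ 3 = 1 := pr2 .b .f 3 0 w14
theorem p_cd : (qq .c * qq .d) ^ 8 = 1 := pr2 .c .d 8 0 w15
theorem p_ce : (qq .c * qq .e) ^ 2 = 1 := pr2 .c .e 2 1 w16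
theorem p_cf : (qq .c * qq .f) ^ 2 = 1 := pr2 .c .f 2 0 w17
theorem p_de : (qq .d * qq .e) ^ 3 = 1 := pr2 .d .e 3 0 w18
theorem p_df : (qq .d * qq .f) ^ 2 = 1 := pr2 .d .f 2 1 w19
theorem p_ef : (qq .e * qq .f) ^ 2 = 1 := pr2 .e .f 2 1 w20

theorem hpQ : ∀ x y, (qq x * qq y) ^ H35.TCSuzB.mm x y = 1
  | .a, .a => (pow_one _).trans (qq_sq _)
  | .a, .b => p_ab
  | .a, .c => p_ac
  | .a, .d => p_ad
  | .a, .e => p_ae
  | .a, .f => p_af
  | .b, .a => comm_pow p_ab
  | .b, .b => (pow_one _).trans (qq_sq _)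
  | .b, .c => p_bc
  | .b, .d => p_bd
  | .b, .e => p_be
  | .b, .f => p_bf
  | .c, .a => comm_pow p_ac
  | .c, .b => comm_pow p_bc
  | .c, .c => (pow_one _).trans (qq_sq _)
  | .c, .d => p_cd
  | .c, .e => p_ce
  | .c, .f => p_cf
  | .d, .a => comm_pow p_ad
  | .d, .b => comm_pow p_bd
  | .d, .c => comm_pow p_cd
  | .d, .d => (pow_one _).trans (qq_sq _)
  | .d, .e => p_de
  | .d, .f => p_df
  | .e, .a => comm_pow p_ae
  | .e, .b => comm_pow p_be
  | .e, .c => comm_pow p_ce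
  | .e, .d => comm_pow p_de
  | .e, .e => (pow_one _).trans (qq_sq _)
  | .e, .f => p_ef
  | .f, .a => comm_pow p_af
  | .f, .b => comm_pow p_bf
  | .f, .c => comm_pow p_cf
  | .f, .d => comm_pow p_df
  | .f, .e => comm_pow p_ef
  | .f, .f => (pow_one _).trans (qq_sq _)

theorem heQ : ∀ p ∈ H35.TCSuzB.extra, ((p.1.map qq).prod) ^ p.2 = 1 := by
  intro p hp
  simp only [H35.TCSuzB.extra, List.mem_cons, List.not_mem_nil, or_false] at hp
  rcases hp with rfl | rfl | rfl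
  · exact rel _ 1 0 w21
  · exact rel _ 5 0 w22
  · exact rel _ 3 0 w23

end H23.G24
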