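/-
H23: lifting Steinberg's relations to a central extension when the torus does not separate all pairs of roots.
-/
import Cfsg.Agent.Lib.H23.LiftT
set_option autoImplicit false
set_option linter.unusedVariables false

namespace H23.LiftT

open scoped commutatorElement
open H22.RGD H22.Coord H22.RCCheck H22.RCComb H22.ChevTri H22.ChevRel H22.ChevSys H22.ChevMain
open H22.ChevStd H22.ChevSolv H22.ChevUni H22.St
open H23.Lift H23.LocInj H23.Cv
open H23.ChevExc (wp)
open Cfsg.Lie (ChevalleyDatum)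

variable {D : ChevalleyDatum}
variable {K : Type*} [Field K] {Γ E : Type*} [Group Γ] [Group E] {π : E →* Γ} (h : CE π)

theorem exists_lift_S (X : RCX D) (Z : Lex X.rc) (R : Rel D K) {x : ℕ → K → Γ} (A : AB D x) (θ : Γ →* GL D.Idx K)
    (hθ : ∀ r < D.nroots, ∀ t, θ (x r t) = xg R r t) (T : Set Γ) (hT : ∀ τ ∈ T, ∀ τ' ∈ T, τ * τ' = τ' * τ)
    (hTx : ∀ τ ∈ T, ∀ r < D.nroots, ∃ χ, Acts x τ r χ)
    (I1 : ∀ r < D.nroots, ∃ τ ∈ T, ∃ χ, χ ≠ 1 ∧ Acts x τ r χ)
    (I2 : ∀ r < D.nroots, ∀ s t, h.c (x r s) (x r t) = 1)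
    (G : ℕ → ℕ → Prop)
    (I3 : ∀ r < D.nroots, ∀ s < D.nroots, s ≠ r → s ≠ D.neg r → G r s →
      (Pair x T r s ∧ ∀ k l, P X.rc r s k → P X.rc r s l → l ≠ k → G k l) ∨
      (Pair x T s r ∧ ∀ k l, P X.rc s r k → P X.rc s r l → l ≠ k → G k l) ∨
      (D.commTerms r s = [] ∧ ∀ t u, h.c (x r t) (x s u) = 1))
    (I4 : ∀ r < D.nroots, ∀ s < D.nroots, s ≠ r → s ≠ D.neg r → ¬ G r s → ∃ c < D.nroots, ∃ d < D.nroots, ∃ N : ℤ,
      (s ≠ c ∧ s ≠ D.neg c ∧ s ≠ d ∧ s ≠ D.neg d ∧ d ≠ c ∧ d ≠ D.neg c) ∧ (G c s ∧ G d s ∧ G c d) ∧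
      P X.rc c s d ∧ P X.rc c s r ∧ D.commTerms c d = [(r, N, 1, 1)] ∧ (N : K) ≠ 0 ∧
      (∀ p ∈ D.commTerms d s, P X.rc c s p.1) ∧ (∀ p ∈ D.commTerms r s, P X.rc c s p.1) ∧
      ∀ k l, P X.rc c s k → P X.rc c s l → l ≠ k → G k l) :
    ∃ y : ℕ → K → E, AB D y ∧ ∀ r < D.nroots, ∀ t, π (y r t) = x r t := by
  have hex : ∀ r : ℕ, ∃ τ : Γ, ∃ χ : K, r < D.nroots → τ ∈ T ∧ χ ≠ 1 ∧ Acts x τ r χ := by
    intro r
    by_cases hr : r < D.nroots
    · obtain ⟨τ, h1, χ, h2, h3⟩ := I1 r hr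
      exact ⟨τ, χ, fun _ => ⟨h1, h2, h3⟩⟩
    · exact ⟨1, 1, fun h => absurd h hr⟩
  choose τ χ hτ using hex
  let y : ℕ → K → E := fun r t => h.c (τ r) (x r (t / (χ r - 1)))
  have hinj : ∀ r < D.nroots, ∀ s t, x r s = x r t → s = t := by
    intro r hr s t e
    apply xg_inj R X.rc hr
    rw [← hθ r hr, ← hθ r hr, e]
  have comm_acts : ∀ r < D.nroots, ∀ (σ : Γ) (ψ : K), Acts x σ r ψ → ∀ v, ⁅σ, x r v⁆ = x r ((ψ - 1) * v) := by
    intro r hr σ ψ hσ v
    rw [commutatorElement_def, hσ, ← A.neg hr, A.add r hr]; congr 1; ring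
  have hπ : ∀ r < D.nroots, ∀ t, π (y r t) = x r t := by
    intro r hr t
    obtain ⟨-, h2, h3⟩ := hτ r hr
    show π (h.c _ _) = _
    rw [h.π_c, comm_acts r hr _ _ h3]
    congr 1
    field_simp [sub_ne_zero.2 h2]
  have hadd : ∀ r < D.nroots, ∀ t u, y r t * y r u = y r (t + u) := by
    intro r hr t u
    obtain ⟨-, h2, h3⟩ := hτ r hr
    show h.c _ _ * h.c _ _ = h.c _ _
    rw [add_div, ← A.add r hr, h.c_mul_right' ?_]
    rw [comm_acts r hr _ _ h3]
    exact I2 r hr _ _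
  have hzero : ∀ r < D.nroots, y r 0 = 1 := by
    intro r hr
    have := hadd r hr 0 0; rw [add_zero] at this; exact mul_eq_left.1 this
  have hneg : ∀ r < D.nroots, ∀ t, y r (-t) = (y r t)⁻¹ := by
    intro r hr t
    rw [eq_inv_iff_mul_eq_one, hadd r hr, neg_add_cancel, hzero r hr]
  -- equivariance
  have hequiv : ∀ σ ∈ T, ∀ r < D.nroots, ∀ ψ, Acts x σ r ψ → ∀ t, h.act σ (y r t) = y r (ψ * t) := by
    intro σ hσ r hr ψ hψ t
    obtain ⟨h1, h2, h3⟩ := hτ r hr
    show h.act σ (h.c _ _) = h.c _ _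
    rw [h.act_c, hψ, hT σ hσ _ h1, mul_assoc, mul_inv_cancel, mul_one, mul_div_assoc]
  -- Lemma A
  have hA : ∀ σ ∈ T, ∀ r < D.nroots, ∀ ψ, ψ ≠ 1 → Acts x σ r ψ → ∀ t, y r t = h.c σ (x r (t / (ψ - 1))) := by
    intro σ hσ r hr ψ hψ1 hψ t
    have e1 := hequiv σ hσ r hr ψ hψ (t / (ψ - 1))
    rw [h.act_eq_c, hπ r hr] at e1
    have e2 : h.c σ (x r (t / (ψ - 1))) = y r (ψ * (t / (ψ - 1))) * (y r (t / (ψ - 1)))⁻¹ := by
      rw [← e1]; group
    rw [e2, ← hneg r hr, hadd r hr]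
    congr 1
    field_simp [sub_ne_zero.2 hψ1]
    ring
  -- the words
  have hterm : ∀ r < D.nroots, ∀ s < D.nroots, ∀ t u, ∀ p ∈ D.commWord K r s t u, p.1 < D.nroots ∧ In X.rc r s p.1 := by
    intro r hr s hs t u p hp
    unfold ChevalleyDatum.commWord at hp
    simp only [List.mem_map] at hp
    obtain ⟨c, hc, rfl⟩ := hp
    obtain ⟨g1, g2, g3, g4⟩ := commTerms_co X.rc hr hs hc
    exact ⟨g1, _, _, g2, g3, g4⟩
  have hwp : ∀ r < D.nroots, ∀ s < D.nroots, ∀ t u, wp y (D.commWord K r s t u) ∈ gp y (P X.rc r s) := by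
    intro r hr s hs t u
    unfold wp
    apply Subgroup.list_prod_mem
    intro z hz
    rw [List.mem_map] at hz
    obtain ⟨p, hp, rfl⟩ := hz
    obtain ⟨g1, g2⟩ := hterm r hr s hs t u p hp
    exact mem_gp (P_of_In g1 g2) _
  have hwpi : ∀ r < D.nroots, ∀ s < D.nroots, ∀ t u, π (wp y (D.commWord K r s t u)) = wp x (D.commWord K r s t u) := by
    intro r hr s hs t u
    unfold wp
    rw [map_list_prod, List.map_map]
    congr 1
    apply List.map_congr_left
    intro p hp
    exact hπ _ (hterm r hr s hs t u p hp).1 _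
  -- the relation
  have key : ∀ n : ℕ, ∀ r < D.nroots, ∀ s < D.nroots, s ≠ r → s ≠ D.neg r → G r s → N X.rc r s = n → ∀ t u,
      (y s u)⁻¹ * (y r t)⁻¹ * y s u * y r t = wp y (D.commWord K r s t u) := by
    intro n
    induction n using Nat.strong_induction_on with
    | _ n ih =>
      -- local structure
      have hloc : ∀ r < D.nroots, ∀ s < D.nroots, s ≠ D.neg r → (∀ k l, P X.rc r s k → P X.rc r s l → l ≠ k → G k l) → N X.rc r s = n →
          ∃ c : Gen X.rc, (∀ k, P X.rc r s k → 0 < fr X.rc c.c k) ∧ Loc R X.rc (P X.rc r s) y (θ.comp π) := by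
        intro r hr s hs hsn hG hN
        obtain ⟨c, hc1, hc2⟩ := exists_pos Z (r := ⟨r, hr⟩) (s := ⟨s, hs⟩) (fun e => hsn (congrArg Fin.val e))
        refine ⟨c, fun k hk => fr_P hc1 hc2 hk, ⟨fun k hk => hk.1, fun k hk => hadd k hk.1, ?_, P_closed, ?_⟩⟩
        · intro k l hk hl hkl t u
          have h1 : l ≠ D.neg k := by
            rintro rfl
            have g1 := fr_P hc1 hc2 hk
            have g2 := fr_P hc1 hc2 hl
            rw [fr_neg X.rc _ hk.1] at g2
            omega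
          have h2 := N_lt X hc1 hc2 hr hk hl hkl
          rw [hN] at h2
          exact ih _ h2 k hk.1 l hl.1 hkl h1 (hG k l hk hl hkl) rfl t u
        · intro k hk t
          rw [MonoidHom.comp_apply, hπ k hk.1, hθ k hk.1]
      -- case A
      have caseA : ∀ r < D.nroots, ∀ s < D.nroots, s ≠ r → s ≠ D.neg r → (∀ k l, P X.rc r s k → P X.rc r s l → l ≠ k → G k l) → N X.rc r s = n → Pair x T r s → ∀ t u,
          (y s u)⁻¹ * (y r t)⁻¹ * y s u * y r t = wp y (D.commWord K r s t u) := by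
        intro r hr s hs hsr hsn hG hN hP t u
        obtain ⟨σ, hσ, ⟨ψ, hψ1, hψ⟩, hσs⟩ := hP
        obtain ⟨c, hc, hL⟩ := hloc r hr s hs hsn hG hN
        have hΓ := comm' A r hr s hs hsr hsn
        -- membership of the conjugate
        set v := -t / (ψ - 1) with hv
        have hyr : (y r t)⁻¹ = h.c σ (x r v) := by rw [← hneg r hr, hA σ hσ r hr ψ hψ1 hψ]
        set e : E := wp y (D.commWord K r s (-v) u) * y r v with he
        have heP : e ∈ gp y (P X.rc r s) := Subgroup.mul_mem _ (hwp r hr s hs _ _) (mem_gp (P_self hr) v)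
        have hπe : π e = (x s u)⁻¹ * x r v * x s u := by
          rw [he, map_mul, hwpi r hr s hs, hπ r hr]
          have := hΓ (-v) u
          rw [A.neg hr, inv_inv] at this
          unfold wp
          rw [← this]; group
        have hcs : σ * x s u = x s u * σ := by
          have := hσs u
          rw [one_mul, mul_inv_eq_iff_eq_mul] at this
          exact this
        have hconj : (y s u)⁻¹ * (y r t)⁻¹ * y s u = h.act σ e * e⁻¹ := by
          have e1 : (y s u)⁻¹ * (y r t)⁻¹ * y s u = h.act (x s u)⁻¹ (y r t)⁻¹ := by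
            have := h.act_eq (y s u)⁻¹ (y r t)⁻¹
            rw [map_inv, hπ s hs, inv_inv] at this
            exact this.symm
          rw [e1, hyr, h.act_c, inv_inv]
          have e2 : (x s u)⁻¹ * σ * x s u = σ := by rw [mul_assoc, hcs]; group
          rw [e2, ← hπe, h.act_eq_c]
          group
        have hact : h.act σ e ∈ gp y (P X.rc r s) := by
          have : ∀ g ∈ gp y (P X.rc r s), h.act σ g ∈ gp y (P X.rc r s) := by
            intro g hg
            unfold gp at hg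
            induction hg using Subgroup.closure_induction with
            | mem g hg =>
              obtain ⟨k, w, hk, rfl⟩ := hg
              obtain ⟨ψ', hψ'⟩ := hTx σ hσ k hk.1
              rw [hequiv σ hσ k hk.1 ψ' hψ']
              exact mem_gp hk _
            | one => unfold CE.act; simp [Subgroup.one_mem]
            | mul a b _ _ ha hb => rw [h.act_mul]; exact Subgroup.mul_mem _ ha hb
            | inv a _ ha => rw [h.act_inv]; exact Subgroup.inv_mem _ ha
          exact this e heP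
        have hmem1 : (y s u)⁻¹ * (y r t)⁻¹ * y s u ∈ gp y (P X.rc r s) := by
          rw [hconj]; exact Subgroup.mul_mem _ hact (Subgroup.inv_mem _ heP)
        have hmem2 : wp y (D.commWord K r s t u) * (y r t)⁻¹ ∈ gp y (P X.rc r s) :=
          Subgroup.mul_mem _ (hwp r hr s hs _ _) (Subgroup.inv_mem _ (mem_gp (P_self hr) t))
        have heq := hL.eq_of Z c hc hmem1 hmem2 (by
          rw [MonoidHom.comp_apply, MonoidHom.comp_apply]
          congr 1
          rw [map_mul, map_mul, map_mul, map_inv, map_inv, hwpi r hr s hs, hπ s hs, hπ r hr]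
          have := hΓ t u
          unfold wp
          rw [← this]; group)
        rw [heq]; group
      intro r hr s hs hsr hsn hGrs hN t u
      rcases I3 r hr s hs hsr hsn hGrs with ⟨hP, hG⟩ | ⟨hP, hG⟩ | ⟨hnil, hc⟩
      · exact caseA r hr s hs hsr hsn hG hN hP t u
      · have hsn' : r ≠ D.neg s := by
          rintro rfl
          exact hsn (H22.RCComb.neg_neg X.rc hs).symm
        have h1 := caseA s hs r hr hsr.symm hsn' hG (by rw [N_symm]; exact hN) hP u t
        obtain ⟨c, hc, hL⟩ := hloc s hs r hr hsn' hG (by rw [N_symm]; exact hN)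
        have h2 : (y s u)⁻¹ * (y r t)⁻¹ * y s u * y r t = (wp y (D.commWord K s r u t))⁻¹ := by
          rw [← h1]; group
        rw [h2]
        have hmem2 : wp y (D.commWord K r s t u) ∈ gp y (P X.rc s r) := by
          unfold wp
          apply Subgroup.list_prod_mem
          intro z hz
          rw [List.mem_map] at hz
          obtain ⟨p, hp, rfl⟩ := hz
          obtain ⟨g1, g2⟩ := hterm r hr s hs t u p hp
          exact mem_gp (P_of_In g1 (In_symm g2)) _
        refine hL.eq_of Z c hc (Subgroup.inv_mem _ (hwp s hs r hr _ _)) hmem2 ?_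
        rw [MonoidHom.comp_apply, MonoidHom.comp_apply]
        congr 1
        rw [map_inv, hwpi s hs r hr, hwpi r hr s hs]
        have g1 := comm' A r hr s hs hsr hsn t u
        have g2 := comm' A s hs r hr hsr.symm hsn' u t
        unfold wp
        rw [← g1, ← g2]; group
      · have h1 : Commute (y r t) (y s u) := by
          rw [h.commute_iff, hπ r hr, hπ s hs]; exact hc t u
        have h2 : wp y (D.commWord K r s t u) = 1 := by
          unfold wp ChevalleyDatum.commWord; rw [hnil]; rfl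
        rw [h2, mul_assoc _ (y s u), ← h1.eq]; group
  -- all pairs
  have all : ∀ r < D.nroots, ∀ s < D.nroots, s ≠ r → s ≠ D.neg r → ∀ t u,
      (y s u)⁻¹ * (y r t)⁻¹ * y s u * y r t = wp y (D.commWord K r s t u) := by
    intro r hr s hs hsr hsn t u
    by_cases hGrs : G r s
    · exact key _ r hr s hs hsr hsn hGrs rfl t u
    obtain ⟨c, hc, d, hd, N, ⟨e1, e2, e3, e4, e5, e6⟩, ⟨g1, g2, g3⟩, p1, p2, hT, hN, q1, q2, hG⟩ := I4 r hr s hs hsr hsn hGrs
    obtain ⟨c', hc1, hc2⟩ := exists_pos Z (r := ⟨c, hc⟩) (s := ⟨s, hs⟩) (fun e => e2 (congrArg Fin.val e))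
    have hpos : ∀ k, P X.rc c s k → 0 < fr X.rc c'.c k := fun k hk => fr_P hc1 hc2 hk
    have hL : Loc R X.rc (P X.rc c s) y (θ.comp π) := by
      refine ⟨fun k hk => hk.1, fun k hk => hadd k hk.1, ?_, P_closed, ?_⟩
      · intro k l hk hl hkl t u
        have h1 : l ≠ D.neg k := by
          rintro rfl
          have g1 := fr_P hc1 hc2 hk
          have g2 := fr_P hc1 hc2 hl
          rw [fr_neg X.rc _ hk.1] at g2
          omega
        exact key _ k hk.1 l hl.1 hkl h1 (hG k l hk hl hkl) rfl t u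
      · intro k hk t
        rw [MonoidHom.comp_apply, hπ k hk.1, hθ k hk.1]
    -- conjugates
    have m1 : ∀ t, (y s u)⁻¹ * (y c t)⁻¹ * y s u ∈ gp y (P X.rc c s) := by
      intro t
      have h1 := key _ c hc s hs e1 e2 g1 rfl t u
      have h2 : (y s u)⁻¹ * (y c t)⁻¹ * y s u = wp y (D.commWord K c s t u) * (y c t)⁻¹ := by rw [← h1]; group
      rw [h2]
      exact Subgroup.mul_mem _ (hwp c hc s hs _ _) (Subgroup.inv_mem _ (mem_gp (P_self hc) t))
    have m2 : ∀ t, (y s u)⁻¹ * (y d t)⁻¹ * y s u ∈ gp y (P X.rc c s) := by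
      intro t
      have h1 := key _ d hd s hs e3 e4 g2 rfl t u
      have h2 : (y s u)⁻¹ * (y d t)⁻¹ * y s u = wp y (D.commWord K d s t u) * (y d t)⁻¹ := by rw [← h1]; group
      rw [h2]
      refine Subgroup.mul_mem _ ?_ (Subgroup.inv_mem _ (mem_gp p1 t))
      unfold wp ChevalleyDatum.commWord
      apply Subgroup.list_prod_mem
      intro z hz
      rw [List.map_map, List.mem_map] at hz
      obtain ⟨p, hp, rfl⟩ := hz
      exact mem_gp (q1 p hp) _
    have hr1 : (y d ((N : K)⁻¹ * t))⁻¹ * (y c (-1))⁻¹ * y d ((N : K)⁻¹ * t) * y c (-1) = y r t := by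
      rw [key _ c hc d hd e5 e6 g3 rfl (-1) ((N : K)⁻¹ * t)]
      unfold wp ChevalleyDatum.commWord
      rw [hT]
      simp only [List.map_cons, List.map_nil, List.prod_cons, List.prod_nil, mul_one, neg_neg, pow_one]
      congr 1
      field_simp
    have m3 : (y s u)⁻¹ * (y r t)⁻¹ * y s u ∈ gp y (P X.rc c s) := by
      have h1 := m1 (-1)
      have h2 := m2 ((N : K)⁻¹ * t)
      have h3 : (y s u)⁻¹ * (y r t)⁻¹ * y s u =
          ((y s u)⁻¹ * (y c (-1))⁻¹ * y s u) * ((y s u)⁻¹ * (y d ((N : K)⁻¹ * t))⁻¹ * y s u) *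
          ((y s u)⁻¹ * (y c (-1))⁻¹ * y s u)⁻¹ * ((y s u)⁻¹ * (y d ((N : K)⁻¹ * t))⁻¹ * y s u)⁻¹ := by
        rw [← hr1]; group
      rw [h3]
      exact Subgroup.mul_mem _ (Subgroup.mul_mem _ (Subgroup.mul_mem _ h1 h2) (Subgroup.inv_mem _ h1)) (Subgroup.inv_mem _ h2)
    have m4 : (y s u)⁻¹ * (y r t)⁻¹ * y s u * y r t ∈ gp y (P X.rc c s) := Subgroup.mul_mem _ m3 (mem_gp p2 t)
    have m5 : wp y (D.commWord K r s t u) ∈ gp y (P X.rc c s) := by
      unfold wp ChevalleyDatum.commWord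
      apply Subgroup.list_prod_mem
      intro z hz
      rw [List.map_map, List.mem_map] at hz
      obtain ⟨p, hp, rfl⟩ := hz
      exact mem_gp (q2 p hp) _
    refine hL.eq_of Z c' hpos m4 m5 ?_
    rw [MonoidHom.comp_apply, MonoidHom.comp_apply]
    congr 1
    rw [map_mul, map_mul, map_mul, map_inv, map_inv, hwpi r hr s hs, hπ s hs, hπ r hr]
    have g1 := comm' A r hr s hs hsr hsn t u
    unfold wp
    rw [← g1]
  refine ⟨y, ⟨hadd, ?_⟩, hπ⟩
  intro r hr s hs hsr hsn t u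
  have := all r hr s hs hsr hsn t u
  rw [← this]; group

end H23.LiftT
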