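/-
H23: stem extensions of G2(4).
-/
import Cfsg.Agent.Lib.H23.LiftG
import Cfsg.Agent.Lib.H23.G23Mul
set_option autoImplicit false
set_option linter.unusedVariables false

namespace H23.G24

open scoped commutatorElement
open Cfsg.Lie H23.Cv H23.Lift H23.Mult H23.LiftApp H23.LiftGrp H23.LiftT H23.Lift34 H23.LiftCert H23.LiftCert34 H23.ChevCore H23.LiftI2
open H23.ChevExc (wp nn hh)
open H22.ChevRel H22.ChevStd
open H22.St
open H23.G23 (hD)

universe u v

/-- long roots -/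
def lg (r : ℕ) : Bool := Nat.beq r 0 || Nat.beq r 1 || Nat.beq r 5 || Nat.beq r 6 || Nat.beq r 10 || Nat.beq r 11

/-- not a pair of long roots with a long sum -/
def good (r s : ℕ) : Bool := !(lg r && lg s) || (chevG2.commTerms r s).isEmpty

/-- coordinates -/
def cx (r j : ℕ) : ℤ := (([[-3, -2], [-3, -1], [-2, -1], [-1, -1], [-1, 0], [0, -1], [0, 1], [1, 0], [1, 1], [2, 1], [3, 1], [3, 2]] :
  List (List ℤ)).getD r []).getD j 0

theorem cx_ok : ∀ r < 12, ∀ j < 2, H22.PoinG2.rcxG2.rc.co r j = cx r j := by decide +kernel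

/-- determinant -/
def dt (r s : ℕ) : ℤ := cx r 0 * cx s 1 - cx r 1 * cx s 0

def pcn (r s k : ℕ) : Bool := decide (0 < dt k s * dt r s) && decide (0 ≤ dt r k * dt r s)

def cone (r s : ℕ) : List ℕ := (List.range 12).filter fun k => pcn r s k

def coneok (r s : ℕ) : Bool := !(decide (dt r s = 0)) && (cone r s).all fun k => (cone r s).all fun l => good k l

def inP (r s k : ℕ) : Bool := decide (k < 12) && [1, 2, 3].any fun a : ℕ => [0, 1, 2, 3].any fun b : ℕ =>
  decide (cx k 0 = a * cx r 0 + b * cx s 0) && decide (cx k 1 = a * cx r 1 + b * cx s 1)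

def sep3 (r s : ℕ) : Bool := (List.range 12).any fun g => decide (pr chevG2 g s % 3 = 0) && !decide (pr chevG2 g r % 3 = 0)

def one1 (c d r : ℕ) : Bool := match chevG2.commTerms c d with
  | [(k, N, i, j)] => decide (k = r) && (decide (N = 1) || decide (N = -1) || decide (N = 3) || decide (N = -3)) && decide (i = 1) && decide (j = 1)
  | _ => false

def dec2 (r s : ℕ) : Bool := (List.range 12).any fun c => (List.range 12).any fun d =>
  !decide (d = c) && !decide (d = chevG2.neg c) && nilp chevG2 r c && nilp chevG2 r d && one1 c d s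

def ok1 (r s : ℕ) : Bool := decide (s = r) || decide (s = chevG2.neg r) || !good r s || (sep3 r s && coneok r s) || (sep3 s r && coneok s r) ||
  ((chevG2.commTerms r s).isEmpty && dec2 r s)

theorem ok1_all : ∀ r < 12, ∀ s < 12, ok1 r s = true := by decide +kernel

def spc (r s c d : ℕ) : Bool := !decide (s = c) && !decide (s = chevG2.neg c) && !decide (s = d) && !decide (s = chevG2.neg d) &&
  !decide (d = c) && !decide (d = chevG2.neg c) && good c s && good d s && good c d && inP c s d && inP c s r && one1 c d r &&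
  ((chevG2.commTerms d s).all fun p => inP c s p.1) && ((chevG2.commTerms r s).all fun p => inP c s p.1) && coneok c s

theorem ok2_all : ∀ r < 12, ∀ s < 12, good r s = true ∨ s = r ∨ s = chevG2.neg r ∨
    ∃ c < 12, ∃ d < 12, spc r s c d = true := by decide +kernel

theorem ok3_all : ∀ r < 12, lg r = true → ∃ c < 12, ∃ d < 12, (!decide (d = c) && !decide (d = chevG2.neg c) && nilp chevG2 r c && nilp chevG2 r d &&
    one1 c d r) = true := by decide +kernel

theorem ok4_all : ∀ r < 12, lg r = true ∨ ∃ w ∈ G23.wds, G23.fw w 7 = r := by decide +kernel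

/-! ### soundness -/

theorem inP_sound {r s k : ℕ} (hr : r < 12) (hs : s < 12) (h : inP r s k = true) : P H22.PoinG2.rcxG2.rc r s k := by
  unfold inP at h
  simp only [Bool.and_eq_true, decide_eq_true_eq, List.any_eq_true] at h
  obtain ⟨hk, a, ha, b, hb, h1, h2⟩ := h
  refine ⟨hk, a, b, ?_, ?_⟩
  · simp only [List.mem_cons, List.not_mem_nil, or_false] at ha
    omega
  · intro j hj
    have hj' : j < 2 := hj
    rw [cx_ok r hr j hj', cx_ok s hs j hj', cx_ok k hk j hj']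
    have : j = 0 ∨ j = 1 := by omega
    rcases this with rfl | rfl
    · exact h1
    · exact h2

theorem mem_cone {r s k : ℕ} (hr : r < 12) (hs : s < 12) (h0 : dt r s ≠ 0) (h : P H22.PoinG2.rcxG2.rc r s k) : k ∈ cone r s := by
  obtain ⟨hk, a, b, ha, h1⟩ := h
  have hk' : k < 12 := hk
  have e0 := h1 0 (by decide)
  have e1 := h1 1 (by decide)
  rw [cx_ok r hr 0 (by norm_num), cx_ok s hs 0 (by norm_num), cx_ok k hk' 0 (by norm_num)] at e0
  rw [cx_ok r hr 1 (by norm_num), cx_ok s hs 1 (by norm_num), cx_ok k hk' 1 (by norm_num)] at e1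
  unfold cone
  rw [List.mem_filter]
  refine ⟨List.mem_range.2 hk', ?_⟩
  unfold pcn
  have d1 : dt k s = a * dt r s := by unfold dt; rw [e0, e1]; ring
  have d2 : dt r k = b * dt r s := by unfold dt; rw [e0, e1]; ring
  rw [Bool.and_eq_true, decide_eq_true_eq, decide_eq_true_eq, d1, d2]
  have h2 : 0 < dt r s * dt r s := mul_self_pos.2 h0
  constructor
  · have : (0 : ℤ) < a := by exact_mod_cast ha
    nlinarith
  · have : (0 : ℤ) ≤ b := by positivity
    nlinarith

theorem cone_good {r s : ℕ} (hr : r < 12) (hs : s < 12) (h : coneok r s = true) : ∀ k l, P H22.PoinG2.rcxG2.rc r s k →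
    P H22.PoinG2.rcxG2.rc r s l → l ≠ k → good k l = true := by
  unfold coneok at h
  simp only [Bool.and_eq_true, Bool.not_eq_true', decide_eq_false_iff_not, List.all_eq_true] at h
  obtain ⟨h0, h1⟩ := h
  intro k l hk hl _
  exact h1 k (mem_cone hr hs h0 hk) l (mem_cone hr hs h0 hl)

theorem one1_sound {c d r : ℕ} (h : one1 c d r = true) : ∃ N : ℤ, (N = 1 ∨ N = -1 ∨ N = 3 ∨ N = -3) ∧ chevG2.commTerms c d = [(r, N, 1, 1)] := by
  unfold one1 at h
  split at h
  · rename_i k N i j hT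
    simp only [Bool.and_eq_true, Bool.or_eq_true, decide_eq_true_eq] at h
    obtain ⟨⟨⟨rfl, h2⟩, rfl⟩, rfl⟩ := h
    exact ⟨N, by tauto, hT⟩
  · cases h

section
variable {K : Type u} [Field K] {x : ℕ → K → ↥(chevG2.group K)}
  (hx : ∀ r < chevG2.nroots, ∀ t, ((x r t : GL chevG2.Idx K) : Matrix chevG2.Idx chevG2.Idx K) = chevG2.x K r t)
include hx

omit hx in
theorem N_ne (h2 : (2 : K) = 0) {N : ℤ} (hN : N = 1 ∨ N = -1 ∨ N = 3 ∨ N = -3) : (N : K) ≠ 0 := by
  have h3 : (3 : K) = 1 := by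
    have : (3 : K) = 2 + 1 := by norm_num
    rw [this, h2, zero_add]
  rcases hN with rfl | rfl | rfl | rfl <;> push_cast <;> simp [h3]

theorem pair_sep {v : K} (hv0 : v ≠ 0) (hv1 : v ≠ 1) (hv3 : v ^ 3 = 1) {r s : ℕ} (hr : r < chevG2.nroots) (hs : s < chevG2.nroots)
    (h : sep3 r s = true) : Pair x (T x) r s := by
  unfold sep3 at h
  rw [List.any_eq_true] at h
  obtain ⟨g, hg, h⟩ := h
  have hg' := List.mem_range.1 hg
  simp only [Bool.and_eq_true, decide_eq_true_eq, Bool.not_eq_true', decide_eq_false_iff_not] at h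
  refine ⟨hh chevG2 x g v, hh_mem hD hx hg' hv0, ⟨_, zpow_ne hD hx hv0 hv1 hv3 h.2, hh_acts hD hx hg' hr hv0⟩, ?_⟩
  have := hh_acts hD hx hg' hs hv0
  have e : v ^ (pr chevG2 g s) = 1 := by
    obtain ⟨k, hk⟩ := Int.dvd_of_emod_eq_zero h.1
    rw [hk, zpow_mul]
    have : v ^ (3 : ℤ) = 1 := by exact_mod_cast hv3
    rw [this, one_zpow]
  rwa [e] at this

section
variable {E : Type v} [Group E] {π : E →* ↥(chevG2.group K)} (h : CE π)

theorem c_dec (h2 : (2 : K) = 0) {r s : ℕ} (hr : r < 12) (hd : dec2 r s = true) (t u : K) : h.c (x r t) (x s u) = 1 := by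
  have A : AB chevG2 x := LiftGrp.ab hD hx
  unfold dec2 at hd
  simp only [List.any_eq_true, Bool.and_eq_true, Bool.not_eq_true', decide_eq_false_iff_not] at hd
  obtain ⟨c, hc, d, hd', ⟨⟨⟨e1, e2⟩, n1⟩, n2⟩, h3⟩ := hd
  have hc' := List.mem_range.1 hc
  have hd'' := List.mem_range.1 hd'
  obtain ⟨N, hN, hT⟩ := one1_sound h3
  have hN0 := N_ne h2 hN
  have b1 := br A hc' hd'' e1 e2 (-1) ((N : K)⁻¹ * u)
  have b2 : wp x (chevG2.commWord K c d (-1) ((N : K)⁻¹ * u)) = x s u := by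
    unfold wp ChevalleyDatum.commWord
    rw [hT]
    simp only [List.map_cons, List.map_nil, List.prod_cons, List.prod_nil, mul_one, neg_neg, pow_one]
    congr 1
    field_simp
  rw [b2] at b1
  rw [← b1]
  exact h.c_comm_right (comm_nilp A hr n2 _ _).inv_right (comm_nilp A hr n1 _ _).inv_right

/-- conjugation by words -/
theorem self_word (w : List ℕ) (hw : ∀ i ∈ w, i < 2) (h0 : ∀ t u, h.c (x 7 t) (x 7 u) = 1) :
    G23.fw w 7 < 12 ∧ ∀ t u, h.c (x (G23.fw w 7) t) (x (G23.fw w 7) u) = 1 := by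
  induction w with
  | nil => exact ⟨by decide, h0⟩
  | cons i w ih =>
    obtain ⟨h1, h2⟩ := ih fun j hj => hw j (List.mem_cons_of_mem _ hj)
    have hi := hw i List.mem_cons_self
    exact ⟨G23.refl_lt i hi _ h1, G23.orth_step hx h hi h1 h1 h2⟩

theorem i2 (h2 : (2 : K) = 0) (h0 : ∀ t u, h.c (x 7 t) (x 7 u) = 1) {r : ℕ} (hr : r < 12) (s t : K) : h.c (x r s) (x r t) = 1 := by
  rcases ok4_all r hr with hl | ⟨w, hw, rfl⟩
  · obtain ⟨c, hc, d, hd, h3⟩ := ok3_all r hr hl
    refine c_dec hx h h2 hr ?_ s t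
    unfold dec2
    rw [List.any_eq_true]
    refine ⟨c, List.mem_range.2 hc, ?_⟩
    rw [List.any_eq_true]
    exact ⟨d, List.mem_range.2 hd, h3⟩
  · exact (self_word hx h w (G23.wds_ok w hw) h0).2 s t

/-- the lifting theorem -/
theorem lift_G24 (h2 : (2 : K) = 0) {v : K} (hv0 : v ≠ 0) (hv1 : v ≠ 1) (hv3 : v ^ 3 = 1) (h0 : ∀ t u, h.c (x 7 t) (x 7 u) = 1) :
    ∃ y : ℕ → K → E, AB chevG2 y ∧ ∀ r < chevG2.nroots, ∀ t, π (y r t) = x r t := by
  have hv2 : v ^ 2 ≠ 1 := by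
    intro h2
    apply hv1
    calc v = v ^ 3 := by rw [pow_succ, h2, one_mul]
      _ = 1 := hv3
  refine exists_lift_S h H22.PoinG2.rcxG2 H22.ChevLex.lexG2 (H22.ChevAll.rel chevG2 hD K) (ab hD hx) (chevG2.group K).subtype
    (fun r hr t => x_eq_xg hD hx hr t) (T x) (T_comm hD hx) ?_ (fun r hr => LiftBig.i1_gen hD hx hr hv0 hv2)
    (fun r hr => i2 hx h h2 h0 hr) (fun r s => good r s = true) ?_ ?_
  · intro τ hτ r hr
    obtain ⟨χ, _, b⟩ := hτ r hr
    exact ⟨χ, b⟩
  · intro r hr s hs h3 h4 hg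
    have h5 := ok1_all r hr s hs
    unfold ok1 at h5
    simp only [Bool.or_eq_true, Bool.and_eq_true, Bool.not_eq_true', decide_eq_true_eq, h3, h4, hg, false_or, Bool.true_eq_false,
      List.isEmpty_iff] at h5
    rcases h5 with (⟨h5, h6⟩ | ⟨h5, h6⟩) | ⟨h5, h6⟩
    · exact Or.inl ⟨pair_sep hx hv0 hv1 hv3 hr hs h5, cone_good hr hs h6⟩
    · exact Or.inr (Or.inl ⟨pair_sep hx hv0 hv1 hv3 hs hr h5, cone_good hs hr h6⟩)
    · exact Or.inr (Or.inr ⟨h5, fun t u => c_dec hx h h2 hr h6 t u⟩)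
  · intro r hr s hs h3 h4 hg
    have h5 := ok2_all r hr s hs
    rcases h5 with h5 | h5 | h5 | ⟨c, hc, d, hd, h5⟩
    · exact absurd h5 hg
    · exact absurd h5 h3
    · exact absurd h5 h4
    unfold spc at h5
    simp only [Bool.and_eq_true, Bool.not_eq_true', decide_eq_false_iff_not, List.all_eq_true] at h5
    obtain ⟨⟨⟨⟨⟨⟨⟨⟨⟨⟨⟨⟨⟨⟨a1, a2⟩, a3⟩, a4⟩, a5⟩, a6⟩, a7⟩, a8⟩, a9⟩, a10⟩, a11⟩, a12⟩, a13⟩, a14⟩, a15⟩ := h5
    obtain ⟨N, hN, hT⟩ := one1_sound a12
    exact ⟨c, hc, d, hd, N, ⟨a1, a2, a3, a4, a5, a6⟩, ⟨a7, a8, a9⟩, inP_sound hc hs a10, inP_sound hc hs a11, hT, N_ne h2 hN,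
      fun p hp => inP_sound hc hs (a13 p hp), fun p hp => inP_sound hc hs (a14 p hp), cone_good hc hs a15⟩

end

end

end H23.G24
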