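/-
H23: the Schur multiplier of G2(4) has order at most two.
-/
import Cfsg.Agent.Lib.H23.G24Up
set_option autoImplicit false
set_option linter.unusedVariables false

namespace H23.G24

open scoped commutatorElement
open Cfsg.Lie H23.Cv H23.Lift H23.Mult H23.LiftApp
open H23.ChevExc (wp nn hh)
open H22.St
open H23.G23 (hD)

universe u v

theorem cases4 {K : Type u} [Field K] [Fintype K] (hK : Fintype.card K = 4) (h2 : (2 : K) = 0) {v : K} (hv1 : v ≠ 1) (hv3 : v ^ 3 = 1) (t : K) :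
    t = 0 ∨ t = 1 ∨ t = v ∨ t = v + 1 := by
  have h1 : t ^ 4 = t := by rw [← hK]; exact FiniteField.pow_card t
  have h3 : v ^ 2 + v + 1 = 0 := by
    have : (v - 1) * (v ^ 2 + v + 1) = 0 := by linear_combination hv3
    rcases mul_eq_zero.1 this with h | h
    · exact absurd (sub_eq_zero.1 h) hv1
    · exact h
  have h4 : t * ((t - 1) * ((t - v) * (t - (v + 1)))) = 0 := by
    linear_combination h1 + t * (t - 1) * h3 - t ^ 2 * (t - 1) * (v + 1) * h2 + (t - t ^ 2) * h2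
  rcases mul_eq_zero.1 h4 with h | h
  · exact Or.inl h
  rcases mul_eq_zero.1 h with h | h
  · exact Or.inr (Or.inl (sub_eq_zero.1 h))
  rcases mul_eq_zero.1 h with h | h
  · exact Or.inr (Or.inr (Or.inl (sub_eq_zero.1 h)))
  · exact Or.inr (Or.inr (Or.inr (sub_eq_zero.1 h)))

/-- vanishing of the commutator on a group of order four -/
theorem c_all {K : Type u} [Field K] [Fintype K] (hK : Fintype.card K = 4) (h2 : (2 : K) = 0) {v : K} (hv1 : v ≠ 1) (hv3 : v ^ 3 = 1)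
    {G E : Type*} [Group G] [Group E] {π : E →* G} (h : CE π)
    {a : K → G} (a0 : a 0 = 1) (add : ∀ t u, a t * a u = a (t + u)) (h0 : h.c (a 1) (a v) = 1) : ∀ t u, h.c (a t) (a u) = 1 := by
  have hc : ∀ t u, Commute (a t) (a u) := by
    intro t u
    show a t * a u = a u * a t
    rw [add, add, add_comm]
  have left : ∀ t t' u, h.c (a t) (a u) = 1 → h.c (a t') (a u) = 1 → h.c (a (t + t')) (a u) = 1 := by
    intro t t' u e1 e2
    rw [← add, h.c_mul_left_of_comm (hc _ _), e1, e2, one_mul]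
  have right : ∀ t u u', h.c (a t) (a u) = 1 → h.c (a t) (a u') = 1 → h.c (a t) (a (u + u')) = 1 := by
    intro t u u' e1 e2
    rw [h.c_comm_iff] at e1 e2 ⊢
    exact left u u' t e1 e2
  have h0' : h.c (a v) (a 1) = 1 := by rw [h.c_comm_iff]; exact h0
  have hs : ∀ t, h.c (a t) (a t) = 1 := fun t => h.c_self _
  have z1 : ∀ t, h.c (a 0) (a t) = 1 := by intro t; rw [a0, h.c_one_left]
  have z2 : ∀ t, h.c (a t) (a 0) = 1 := by intro t; rw [a0, h.c_one_right]
  intro t u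
  rcases cases4 hK h2 hv1 hv3 t with rfl | rfl | rfl | rfl <;> rcases cases4 hK h2 hv1 hv3 u with rfl | rfl | rfl | rfl <;>
    first
      | exact z1 _
      | exact z2 _
      | exact hs _
      | exact h0
      | exact h0'
      | exact right _ _ _ h0 (hs _)
      | exact right _ _ _ (hs _) h0'
      | exact left _ _ _ h0' (hs _)
      | exact left _ _ _ (hs _) h0

/-- the upper bound -/
theorem upper {K : Type u} [Field K] [Fintype K] (hK : Fintype.card K = 4) {Γ : Type v} [Group Γ] [Finite Γ]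
    {σ : Γ →* ↥(chevG2.group K)} (hσ : Cfsg.IsStemExtension σ) : ∃ π : Multiplicative (ZMod 2) →* σ.ker, Function.Surjective π := by
  classical
  obtain ⟨θ, hs, hker, hθ⟩ := H22.St.s1077 (K := K) chevG2 hD
  rw [H22.St.s1078 (K := K) chevG2 (by simp)] at hker
  let x : ℕ → K → ↥(chevG2.group K) := fun r t => θ (chevG2.stGen K r t)
  have hx : ∀ r < chevG2.nroots, ∀ t, ((x r t : GL chevG2.Idx K) : Matrix chevG2.Idx chevG2.Idx K) = chevG2.x K r t :=
    fun r hr t => hθ r t hr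
  have A : AB chevG2 x := LiftGrp.ab hD hx
  have h : CE σ := ⟨hσ.1, hσ.2.1⟩
  obtain ⟨v, hv0, hv1, hv3⟩ := F4Mult.cube hK
  have h20 : (2 : K) = 0 := by
    have h1 : ((4 : ℕ) : K) = 0 := by rw [← hK]; exact Nat.cast_card_eq_zero K
    have h2 : (2 : K) * 2 = 0 := by
      rw [← h1]; norm_num
    exact mul_self_eq_zero.1 h2
  have z7 : x 7 0 = 1 := A.zero (by decide)
  have hcm : Commute (x 7 1) (x 7 v) := LiftI2.comm_self A (by decide) 1 v
  set d := h.c (x 7 1) (x 7 v) with hd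
  have hdc : d ∈ Subgroup.center Γ := h.c_mem_center hcm
  have hdk : d ∈ σ.ker := by
    rw [MonoidHom.mem_ker, hd, h.π_c, commutatorElement_eq_one_iff_commute]; exact hcm
  have hd2 : d ^ 2 = 1 := by
    have e1 : x 7 1 * x 7 1 = 1 := by
      rw [A.add 7 (by decide), one_add_one_eq_two, h20, z7]
    have e2 : h.c (x 7 1 * x 7 1) (x 7 v) = d * d := by
      rw [h.c_mul_left_of_comm hcm, ← hd]
    rw [e1, h.c_one_left] at e2
    rw [pow_two]; exact e2.symm
  let W : Subgroup Γ := Subgroup.zpowers d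
  have hWk : W ≤ σ.ker := (Subgroup.zpowers_le).2 hdk
  haveI hWn : W.Normal := ⟨fun w hw g => by
    have := Subgroup.mem_center_iff.mp (hσ.2.1 (hWk hw)) g
    rw [this, mul_inv_cancel_right]; exact hw⟩
  let σ' : Γ ⧸ W →* ↥(chevG2.group K) := QuotientGroup.lift W σ (fun x hx => MonoidHom.mem_ker.1 (hWk hx))
  have hσ' : Cfsg.IsStemExtension σ' := by
    refine ⟨?_, ?_, ?_⟩
    · intro g
      obtain ⟨x, rfl⟩ := hσ.1 g
      exact ⟨x, rfl⟩
    · intro y hy
      obtain ⟨x, rfl⟩ := QuotientGroup.mk_surjective y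
      have h1 : x ∈ σ.ker := hy
      rw [Subgroup.mem_center_iff]
      intro z
      obtain ⟨w, rfl⟩ := QuotientGroup.mk_surjective z
      have h2 := Subgroup.mem_center_iff.mp (hσ.2.1 h1) w
      rw [← QuotientGroup.mk_mul, ← QuotientGroup.mk_mul, h2]
    · intro y hy
      obtain ⟨x, rfl⟩ := QuotientGroup.mk_surjective y
      have h1 : x ∈ σ.ker := hy
      have h2 := hσ.2.2 h1
      have h3 : (commutator Γ).map (QuotientGroup.mk' W) ≤ commutator (Γ ⧸ W) := by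
        rw [map_commutator_eq]
        exact Subgroup.commutator_mono le_top le_top
      exact h3 ⟨x, h2, rfl⟩
  have h' : CE σ' := ⟨hσ'.1, hσ'.2.1⟩
  have hc' : h'.c (x 7 1) (x 7 v) = 1 := by
    obtain ⟨a, ha⟩ := hσ.1 (x 7 1)
    obtain ⟨b, hb⟩ := hσ.1 (x 7 v)
    have e1 : h'.c (x 7 1) (x 7 v) = ⁅(a : Γ ⧸ W), (b : Γ ⧸ W)⁆ := by
      rw [h'.c_eq]
      show _ = h'.c (σ a) (σ b)
      rw [ha, hb]
    have e2 : ⁅(a : Γ ⧸ W), (b : Γ ⧸ W)⁆ = ((⁅a, b⁆ : Γ) : Γ ⧸ W) := rfl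
    rw [e1, e2, QuotientGroup.eq_one_iff, h.c_eq, ha, hb]
    exact Subgroup.mem_zpowers d
  have h0 : ∀ t u, h'.c (x 7 t) (x 7 u) = 1 := c_all hK h20 hv1 hv3 h' z7 (A.add 7 (by decide)) hc'
  obtain ⟨y, hy, hy'⟩ := lift_G24 hx h' h20 hv0 hv1 hv3 h0
  obtain ⟨π, hπ⟩ := G23.stem_of_lift hD θ hs σ' hσ' hy hy'
  have hkt : ∀ k ∈ σ'.ker, k = 1 := by
    intro k hk
    obtain ⟨⟨a, ha⟩, e⟩ := hπ ⟨k, hk⟩
    have ha1 : a = 1 := by rwa [hker, Subgroup.mem_bot] at ha
    have e1 : (⟨a, ha⟩ : θ.ker) = 1 := Subtype.ext ha1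
    rw [e1, map_one] at e
    exact (congrArg Subtype.val e).symm
  have hkW : ∀ k ∈ σ.ker, k ∈ W := by
    intro k hk
    exact (QuotientGroup.eq_one_iff k).1 (hkt (k : Γ ⧸ W) hk)
  have hcyc : IsCyclic σ.ker := by
    refine ⟨⟨⟨d, hdk⟩, ?_⟩⟩
    rintro ⟨k, hk⟩
    obtain ⟨n, hn⟩ := hkW k hk
    exact ⟨n, Subtype.ext hn⟩
  have hcard : Nat.card σ.ker ∣ 2 := by
    have h1 : Nat.card σ.ker ∣ Nat.card W := Subgroup.card_dvd_of_le hkW
    refine h1.trans ?_
    rw [Nat.card_zpowers]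
    exact orderOf_dvd_of_pow_eq_one hd2
  exact H40.StemFinish.exists_surj_of_isCyclic hcard

end H23.G24
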