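/-
H23: the double cover of G2(4): the homomorphism from G2(4).
-/
import Cfsg.Agent.Lib.H23.G24Cov
import Cfsg.Agent.Lib.H23.G24Mul
import Cfsg.Agent.Lib.H22.ChevField
set_option autoImplicit false
set_option linter.unusedVariables false
set_option maxRecDepth 10000

namespace H23.G24

open H35.TC H35.Net

/-- letters -/
def i2' : H35.TCSuzC.Lt → LB
  | .a => .a
  | .b => .b
  | .c => .c
  | .d => .d
  | .e => .e

def i3' : H35.TCSuzD.Lt → LB
  | .a => .a
  | .b => .b
  | .c => .c
  | .d => .d

def i4' : H35.TCDih5.Lt → LB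
  | .a => .a
  | .b => .b

section
variable {G : Type} [Group G] {g : LB → G} (hinv : ∀ x, g (H35.TCSuzB.inv x) = (g x)⁻¹)
  (hp : ∀ x y, (g x * g y) ^ H35.TCSuzB.mm x y = 1) (he : ∀ p ∈ H35.TCSuzB.extra, ((p.1.map g).prod) ^ p.2 = 1)
include hinv hp he

/-- the order of a group with this presentation -/
theorem card_le : Nat.card (Subgroup.closure (Set.range g)) ≤ 251596800 ∧ Nat.card (Subgroup.closure (Set.range g)) ≠ 0 := by
  have idx1 : (Subgroup.closure (Set.range fun x => g (i2' x))).relIndex (Subgroup.closure (Set.range g)) ≤ 416 ∧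
      (Subgroup.closure (Set.range fun x => g (i2' x))).relIndex (Subgroup.closure (Set.range g)) ≠ 0 := by
    refine H35.TCSuzB.main hinv hp he ?_
    intro r hr
    simp only [H35.TCSuzB.subs, List.mem_cons, List.not_mem_nil, or_false] at hr
    rcases hr with rfl | rfl | rfl | rfl | rfl
    · simp only [List.map_cons, List.map_nil, List.prod_cons, List.prod_nil, mul_one]
      exact Subgroup.subset_closure ⟨.a, rfl⟩
    · simp only [List.map_cons, List.map_nil, List.prod_cons, List.prod_nil, mul_one]
      exact Subgroup.subset_closure ⟨.b, rfl⟩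
    · simp only [List.map_cons, List.map_nil, List.prod_cons, List.prod_nil, mul_one]
      exact Subgroup.subset_closure ⟨.c, rfl⟩
    · simp only [List.map_cons, List.map_nil, List.prod_cons, List.prod_nil, mul_one]
      exact Subgroup.subset_closure ⟨.d, rfl⟩
    · simp only [List.map_cons, List.map_nil, List.prod_cons, List.prod_nil, mul_one]
      exact Subgroup.subset_closure ⟨.e, rfl⟩
  have idx2 : (Subgroup.closure (Set.range fun x => g (i3' x))).relIndex (Subgroup.closure (Set.range fun x => g (i2' x))) ≤ 280 ∧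
      (Subgroup.closure (Set.range fun x => g (i3' x))).relIndex (Subgroup.closure (Set.range fun x => g (i2' x))) ≠ 0 := by
    refine H35.TCSuzC.main (g := fun x => g (i2' x)) (by intro x; have h := hinv (i2' x); cases x <;> exact h)
      (transfer_hp hp i2' (by intro x y; cases x <;> cases y <;> decide)) (transfer_he he i2' (by decide)) ?_
    intro r hr
    simp only [H35.TCSuzC.subs, List.mem_cons, List.not_mem_nil, or_false] at hr
    rcases hr with rfl | rfl | rfl | rfl
    · simp only [List.map_cons, List.map_nil, List.prod_cons, List.prod_nil, mul_one]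
      exact Subgroup.subset_closure ⟨.a, rfl⟩
    · simp only [List.map_cons, List.map_nil, List.prod_cons, List.prod_nil, mul_one]
      exact Subgroup.subset_closure ⟨.b, rfl⟩
    · simp only [List.map_cons, List.map_nil, List.prod_cons, List.prod_nil, mul_one]
      exact Subgroup.subset_closure ⟨.c, rfl⟩
    · simp only [List.map_cons, List.map_nil, List.prod_cons, List.prod_nil, mul_one]
      exact Subgroup.subset_closure ⟨.d, rfl⟩
  have idx3 : (Subgroup.closure (Set.range fun x => g (i4' x))).relIndex (Subgroup.closure (Set.range fun x => g (i3' x))) ≤ 216 ∧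
      (Subgroup.closure (Set.range fun x => g (i4' x))).relIndex (Subgroup.closure (Set.range fun x => g (i3' x))) ≠ 0 := by
    refine H35.TCSuzD.main (g := fun x => g (i3' x)) (by intro x; have h := hinv (i3' x); cases x <;> exact h)
      (transfer_hp hp i3' (by intro x y; cases x <;> cases y <;> decide)) (transfer_he he i3' (by decide)) ?_
    intro r hr
    simp only [H35.TCSuzD.subs, List.mem_cons, List.not_mem_nil, or_false] at hr
    rcases hr with rfl | rfl
    · simp only [List.map_cons, List.map_nil, List.prod_cons, List.prod_nil, mul_one]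
      exact Subgroup.subset_closure ⟨.a, rfl⟩
    · simp only [List.map_cons, List.map_nil, List.prod_cons, List.prod_nil, mul_one]
      exact Subgroup.subset_closure ⟨.b, rfl⟩
  have idx4 : (⊥ : Subgroup G).relIndex (Subgroup.closure (Set.range fun x => g (i4' x))) ≤ 10 ∧
      (⊥ : Subgroup G).relIndex (Subgroup.closure (Set.range fun x => g (i4' x))) ≠ 0 := by
    refine H35.TCDih5.main (g := fun x => g (i4' x)) (by intro x; have h := hinv (i4' x); cases x <;> exact h)
      (transfer_hp hp i4' (by intro x y; cases x <;> cases y <;> decide)) (transfer_he he i4' (by decide)) ?_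
    intro r hr
    simp [H35.TCDih5.subs] at hr
  have h4 := card_le_bot idx4
  have h3 := card_le_step (closure_letters_le (g := g) (ι := i4') (κ := i3') (fun x => by
    cases x <;> [exact ⟨.a, rfl⟩; exact ⟨.b, rfl⟩])) idx3 h4
  have h2 := card_le_step (closure_letters_le (g := g) (ι := i3') (κ := i2') (fun x => by
    cases x <;> [exact ⟨.a, rfl⟩; exact ⟨.b, rfl⟩; exact ⟨.c, rfl⟩; exact ⟨.d, rfl⟩])) idx2 h3
  have h1 := card_le_step (closure_letters_le (g := g) (ι := i2') (κ := id) (fun x => ⟨i2' x, rfl⟩)) idx1 h2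
  exact ⟨h1.1.trans (by norm_num), h1.2⟩

end

open H35.SuzMain (gP i1 H1 hinvP hpP heP)

/-- the pairs -/
noncomputable def gg (x : LB) : Cfsg.Spor.Suz × (↥MM ⧸ ZZ) := (gP (i1 x), qq x)

theorem gg_prod (l : List LB) : (l.map gg).prod = ((l.map fun x => gP (i1 x)).prod, (l.map qq).prod) := by
  induction l with
  | nil => rfl
  | cons x l ih => rw [List.map_cons, List.prod_cons, ih]; rfl

theorem card_gg : Nat.card (Subgroup.closure (Set.range gg)) ≤ 251596800 ∧ Nat.card (Subgroup.closure (Set.range gg)) ≠ 0 := by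
  refine card_le ?_ ?_ ?_
  · intro x
    refine Prod.ext ?_ (hinvQ x)
    have h := hinvP (i1 x)
    cases x <;> exact h
  · intro x y
    refine Prod.ext ?_ (hpQ x y)
    exact transfer_hp (mm' := H35.TCSuzB.mm) hpP i1 (by intro x y; cases x <;> cases y <;> decide) x y
  · intro p hp
    rw [gg_prod]
    refine Prod.ext ?_ (heQ p hp)
    exact transfer_he heP i1 (by decide) p hp

/-- the homomorphism from the subgroup of Suz -/
theorem exists_hom : ∃ ψ : ↥H1 →* ↥MM ⧸ ZZ, ∀ x, ψ ⟨gP (i1 x), Subgroup.subset_closure ⟨x, rfl⟩⟩ = qq x := by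
  set P := Subgroup.closure (Set.range gg) with hP
  have hfin : Finite P := Nat.finite_of_card_ne_zero card_gg.2
  let f : ↥P →* Cfsg.Spor.Suz := (MonoidHom.fst _ _).comp P.subtype
  have hr : f.range = H1 := by
    have : f.range = P.map (MonoidHom.fst _ _) := by
      rw [MonoidHom.range_eq_map, ← Subgroup.map_map, ← MonoidHom.range_eq_map, Subgroup.range_subtype]
    rw [this, hP, MonoidHom.map_closure, ← Set.range_comp]
    rfl
  have hb : Function.Bijective f.rangeRestrict := by
    refine Function.Surjective.bijective_of_nat_card_le f.rangeRestrict_surjective ?_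
    have h1 : 251596800 ≤ Nat.card f.range := by rw [hr]; exact H34.G24.card_H1
    exact card_gg.1.trans h1
  let e : ↥P ≃* ↥f.range := MulEquiv.ofBijective _ hb
  let ψ : ↥H1 →* ↥MM ⧸ ZZ := (((MonoidHom.snd _ _).comp P.subtype).comp e.symm.toMonoidHom).comp
    (MulEquiv.subgroupCongr hr).symm.toMonoidHom
  refine ⟨ψ, fun x => ?_⟩
  let w : ↥P := ⟨gg x, Subgroup.subset_closure ⟨x, rfl⟩⟩
  have h1 : e w = (MulEquiv.subgroupCongr hr).symm ⟨gP (i1 x), Subgroup.subset_closure ⟨x, rfl⟩⟩ := Subtype.ext rfl
  show ((e.symm ((MulEquiv.subgroupCongr hr).symm ⟨gP (i1 x), _⟩)) : Cfsg.Spor.Suz × (↥MM ⧸ ZZ)).2 = qq x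
  rw [← h1, MulEquiv.symm_apply_apply]
  rfl

end H23.G24
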