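/-
H23: the Schur multiplier of G2(4) is cyclic of order two.
-/
import Cfsg.Agent.Lib.H23.G24Hom
set_option autoImplicit false
set_option linter.unusedVariables false

namespace H23.G24

open scoped commutatorElement
open Cfsg.Lie H23.Cv H23.Lift H23.Mult H23.LiftApp H23.Cores
open H22.St
open H23.G23 (hD)
open H35.SuzMain (gP i1 H1 hinvP hpP heP)

universe u

variable {K : Type u} [Field K] [Fintype K] (hK : Fintype.card K = 4)

include hK in
theorem perf_G : commutator ↥(chevG2.group K) = ⊤ := by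
  obtain ⟨θ, hs, hker, hθ⟩ := H22.St.s1077 (K := K) chevG2 hD
  have hp := perfect_st (K := K) hD (fun _ => by
    obtain ⟨v, hv0, hv1, hv3⟩ := F4Mult.cube hK
    exact ⟨v, hv0, hv1⟩)
  rw [eq_top_iff]
  have h1 : Subgroup.map θ (commutator (chevG2.SteinbergGroup K)) ≤ commutator ↥(chevG2.group K) := by
    rw [map_commutator_eq]
    exact Subgroup.commutator_mono le_top le_top
  refine le_trans ?_ h1
  rw [hp, ← MonoidHom.range_eq_map, MonoidHom.range_eq_top.2 hs]

include hK in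
/-- the homomorphism and the element of order two -/
theorem exists_psi : ∃ (ψ : ↥(chevG2.group K) →* ↥MM ⧸ ZZ) (g : ↥(chevG2.group K)), g * g = 1 ∧ ψ g = qq .d := by
  obtain ⟨ψ, hψ⟩ := exists_hom
  obtain ⟨e⟩ := H34.G24.main
  have hc : Fintype.card K = Fintype.card H17.F4 := by rw [hK]; rfl
  let σ : K ≃+* H17.F4 := FiniteField.ringEquivOfCardEq hc
  let β : ↥(chevG2.group K) ≃* ↥(chevG2.group H17.F4) := H22.ChevField.fieldEquiv chevG2 σ
  let γ : ↥(chevG2.group K) ≃* ↥H1 := β.trans e.symm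
  let w : ↥H1 := ⟨gP (i1 .d), Subgroup.subset_closure ⟨.d, rfl⟩⟩
  have hw : w * w = 1 := by
    apply Subtype.ext
    have h := hpP .d .d
    rw [show H35.TCSuzA.mm .d .d = 1 from rfl, pow_one] at h
    exact h
  refine ⟨ψ.comp γ.toMonoidHom, γ.symm w, ?_, ?_⟩
  · rw [← map_mul, hw, map_one]
  · show ψ (γ (γ.symm w)) = _
    rw [MulEquiv.apply_symm_apply]
    exact hψ .d

include hK in
/-- the cover -/
theorem lower : ∃ (Γ : Type u) (_ : Group Γ) (_ : Finite Γ) (σ : Γ →* ↥(chevG2.group K)), Cfsg.IsStemExtension σ ∧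
    Nonempty (σ.ker ≃* Multiplicative (ZMod 2)) := by
  classical
  obtain ⟨ψ, g0, hg0, hψ0⟩ := exists_psi hK
  let P := pb (QuotientGroup.mk' ZZ) ψ
  have hce : CE (QuotientGroup.mk' ZZ) := ⟨QuotientGroup.mk'_surjective _, by
    rw [QuotientGroup.ker_mk', Subgroup.zpowers_le]; exact zm_central⟩
  have hP := ce_pb (QuotientGroup.mk' ZZ) ψ hce
  set pr : ↥P →* ↥(chevG2.group K) := (MonoidHom.snd ↥MM ↥(chevG2.group K)).comp P.subtype with hpr
  have hperf := perf_G hK
  let D : Subgroup ↥P := commutator ↥P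
  have hDD : D ≤ ⁅D, D⁆ := comm_le hP.surj hP.central hperf
  have hDp : commutator ↥D = ⊤ := StemGen.perfect_sub hDD
  let σ : ↥D →* ↥(chevG2.group K) := pr.comp D.subtype
  have hσ : Cfsg.IsStemExtension σ := by
    refine ⟨?_, ?_, ?_⟩
    · intro g
      have h1 : Subgroup.map pr (commutator ↥P) = ⊤ := map_comm_top hP.surj hperf
      have h2 : g ∈ Subgroup.map pr (commutator ↥P) := by rw [h1]; exact Subgroup.mem_top _
      obtain ⟨y, hy, e⟩ := h2
      exact ⟨⟨y, hy⟩, e⟩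
    · intro x hx
      have h1 : (x : ↥P) ∈ pr.ker := hx
      have h2 := Subgroup.mem_center_iff.1 (hP.central h1)
      rw [Subgroup.mem_center_iff]
      intro y
      exact Subtype.ext (h2 y)
    · rw [hDp]; exact le_top
  haveI : Finite ↥(chevG2.group K) := inferInstance
  haveI : Finite ↥P := inferInstance
  haveI : Finite ↥D := inferInstance
  refine ⟨↥D, inferInstance, inferInstance, σ, hσ, ?_⟩
  -- the kernel
  have hker1 : ∀ x : σ.ker, (((x : ↥D) : ↥P) : ↥MM × ↥(chevG2.group K)).2 = 1 := fun x => x.2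
  have hker2 : ∀ x : σ.ker, (((x : ↥D) : ↥P) : ↥MM × ↥(chevG2.group K)).1 ∈ ZZ := by
    intro x
    have h1 : QuotientGroup.mk' ZZ (((x : ↥D) : ↥P) : ↥MM × ↥(chevG2.group K)).1 = ψ (((x : ↥D) : ↥P) : ↥MM × ↥(chevG2.group K)).2 :=
      ((x : ↥D) : ↥P).2
    rw [hker1, map_one] at h1
    exact (QuotientGroup.eq_one_iff _).1 h1
  -- the map to the scalars
  let f : σ.ker →* ↥ZZ := ((((MonoidHom.fst ↥MM ↥(chevG2.group K)).comp P.subtype).comp D.subtype).comp σ.ker.subtype).codRestrict ZZ hker2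
  have hf1 : Function.Injective f := by
    rw [injective_iff_map_eq_one]
    intro x hx
    have h1 : (((x : ↥D) : ↥P) : ↥MM × ↥(chevG2.group K)).1 = 1 := congrArg Subtype.val hx
    apply Subtype.ext; apply Subtype.ext; apply Subtype.ext
    exact Prod.ext h1 (hker1 x)
  have hf2 : Function.Surjective f := by
    obtain ⟨y, hy⟩ := hσ.1 g0
    set m : ↥MM := ((y : ↥P) : ↥MM × ↥(chevG2.group K)).1 with hm
    have hy2 : ((y : ↥P) : ↥MM × ↥(chevG2.group K)).2 = g0 := hy
    have h1 : QuotientGroup.mk' ZZ m = ψ ((y : ↥P) : ↥MM × ↥(chevG2.group K)).2 := (y : ↥P).2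
    rw [hy2, hψ0] at h1
    have h2 : (my Y.d)⁻¹ * m ∈ ZZ := by
      have h3 : ((my Y.d : ↥MM) : ↥MM ⧸ ZZ) = (m : ↥MM ⧸ ZZ) := h1.symm
      exact QuotientGroup.eq.1 h3
    obtain ⟨k, hk⟩ := h2
    have hk' : m = my Y.d * zm ^ k := by
      have : zm ^ k = (my Y.d)⁻¹ * m := hk
      rw [this]; group
    have hc : zm ^ k * my Y.d = my Y.d * zm ^ k :=
      (Subgroup.mem_center_iff.1 ((Subgroup.center ↥MM).zpow_mem zm_central k) (my Y.d)).symm
    have hz : zm ^ k * zm ^ k = 1 := by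
      rw [← zpow_add, ← two_mul, zpow_mul]
      have : zm ^ (2 : ℤ) = 1 := by rw [zpow_two]; exact zm_two
      rw [this, one_zpow]
    have hm2 : m * m = zm := by
      have e1 : my Y.d * my Y.d * zm = 1 := by
        have := evY (w := [(Y.d, true), (Y.d, true), (Y.z, true)]) s_d
        rw [H35.Stem.ev_cons, H35.Stem.ev_cons, H35.Stem.ev_cons, H35.Stem.ev_nil, mul_one, ← mul_assoc] at this
        exact Subtype.ext this
      have e2 : my Y.d * my Y.d = zm := by
        have e3 := eq_inv_of_mul_eq_one_left e1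
        rw [e3, inv_eq_of_mul_eq_one_left zm_two]
      rw [hk', mul_assoc, ← mul_assoc (zm ^ k), hc, mul_assoc, hz, mul_one, e2]
    let w : σ.ker := ⟨y * y, by
      show σ (y * y) = 1
      rw [map_mul, hy, hg0]⟩
    have hw : f w = ⟨zm, Subgroup.mem_zpowers _⟩ := by
      apply Subtype.ext
      exact hm2
    rintro ⟨z, k, rfl⟩
    refine ⟨w ^ k, ?_⟩
    rw [map_zpow, hw]
    apply Subtype.ext
    rw [Subgroup.coe_zpow]
  have hcard : Nat.card ↥ZZ = 2 := by
    haveI : Fact (Nat.Prime 2) := ⟨Nat.prime_two⟩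
    rw [Nat.card_zpowers]
    exact orderOf_eq_prime (by rw [pow_two]; exact zm_two) zm_ne
  have g : σ.ker ≃* ↥ZZ := MulEquiv.ofBijective f ⟨hf1, hf2⟩
  haveI : IsCyclic ↥ZZ := inferInstance
  have hcz : Nat.card (Multiplicative (ZMod 2)) = 2 := by
    rw [Nat.card_congr Multiplicative.toAdd, Nat.card_zmod]
  exact ⟨g.trans (mulEquivOfCyclicCardEq (by rw [hcard, hcz]))⟩

theorem s2102 {F : Type u} [Field F] [Fintype F] (hF : Fintype.card F = 4) :
    Cfsg.HasCyclicSchurMultiplier ↥(chevG2.group F) 2 :=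
  ⟨lower hF, fun Γ _ _ σ hσ => upper hF hσ⟩

end H23.G24
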