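/-
H23: the lifting theorem for B2 over fields with three and four elements.
-/
import Cfsg.Agent.Lib.H23.Lift34
import Cfsg.Agent.Lib.H23.LiftT2
set_option autoImplicit false
set_option linter.unusedVariables false

namespace H23.LiftB2

open scoped commutatorElement
open H23.Lift H23.Cv H23.LiftT H23.LiftGrp H23.ChevCore H23.LiftCert H23.LiftI2 H23.LiftCert34 H23.LiftR3 H23.LiftBig
open H23.Lift34
open H23.ChevExc (wp nn hh)
open Cfsg.Lie (ChevalleyDatum chevB2)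

/-! ### tables -/

theorem nr : chevB2.nroots = 8 := rfl

/-- check a value of the table of commutator formulas -/
def tc (r s : ℕ) (L : List (ℕ × ℤ × ℕ × ℕ)) : Bool := chevB2.commTerms r s == L

theorem tc_sound {r s : ℕ} {L : List (ℕ × ℤ × ℕ × ℕ)} (h : tc r s L = true) : chevB2.commTerms r s = L := by
  unfold tc at h; exact eq_of_beq h

/-- source of a long root: two short roots and the coefficient -/
def src : ℕ → ℕ × ℕ × ℤ
  | 0 => (1, 2, 2)
  | 3 => (1, 5, -2)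
  | 4 => (2, 6, -2)
  | _ => (5, 6, 2)

def lng (r : ℕ) : Bool := Nat.beq r 0 || Nat.beq r 3 || Nat.beq r 4 || Nat.beq r 7

def chk1 : Bool := (List.range 8).all fun L => !(lng L) || (
  match src L with
  | (r, s, N) => Nat.blt r 8 && Nat.blt s 8 && !(lng r) && !(lng s) && !(Nat.beq s r) && !(Nat.beq s (chevB2.neg r)) &&
     !(Nat.beq r (chevB2.neg s)) && tc r s [(L, N, 1, 1)] && tc s r [(L, -N, 1, 1)] && (N == 2 || N == -2) && nilp chevB2 r L && nilp chevB2 s L)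

/-- short roots: certificates in characteristic two -/
def chk2 (r c d m k : ℕ) : Bool := Nat.blt r 8 && Nat.blt c 8 && Nat.blt d 8 && Nat.blt k 8 && !(Nat.beq d c) && !(Nat.beq d (chevB2.neg c)) &&
  !(Nat.beq c r) && !(Nat.beq c (chevB2.neg r)) && nilp chevB2 r d && nilp chevB2 r m &&
  (match chevB2.commTerms r c with
   | [(k', N, i, j)] => Nat.beq k' k && (N == 2 || N == -2) && Nat.beq i 1 && Nat.beq j 1
   | _ => false) &&
  (match chevB2.commTerms c d with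
   | [(k', N, i, j), (k'', N', i', j')] => Nat.beq k' r && (N == 1 || N == -1) && Nat.beq i 1 && Nat.beq j 1 && Nat.beq k'' m && Nat.beq i' 2 && Nat.beq j' 1
   | _ => false)

theorem chk2_all : (chk2 1 2 3 0 0 && chk2 2 1 4 0 0 && chk2 5 1 7 3 3 && chk2 6 2 7 4 4) = true := by decide +kernel

theorem chk1_all : chk1 = true := by decide +kernel

/-- orthogonal long roots -/
def chk3 (L1 L2 d s : ℕ) : Bool := Nat.blt d 8 && Nat.blt s 8 && Nat.blt L1 8 && Nat.blt L2 8 && !(Nat.beq s d) && !(Nat.beq s (chevB2.neg d)) &&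
  !(Nat.beq L2 d) && !(Nat.beq L2 (chevB2.neg d)) &&
  nilp chevB2 s L2 && nilp chevB2 s L1 && nilp chevB2 L1 L2 && nilp chevB2 L2 L1 && lng L1 && lng L2 && !(lng s) &&
  (match chevB2.commTerms d s with
   | [(k', N, i, j)] => Nat.beq k' L1 && (N == 2 || N == -2) && Nat.beq i 1 && Nat.beq j 1
   | _ => false) &&
  (match chevB2.commTerms d L2 with
   | [(k', N, i, j), (k'', N', i', j')] => Nat.beq k' s && Nat.beq i 1 && Nat.beq j 1 && Nat.beq k'' L1 && Nat.beq i' 2 && Nat.beq j' 1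
   | _ => false)

theorem chk3_all : (chk3 7 4 5 6 && chk3 7 3 6 5 && chk3 0 4 1 2 && chk3 0 3 2 1) = true := by decide +kernel

/-- parities -/
theorem par_all : ((List.range 8).all fun r => (pr chevB2 7 r % 2 == 0) == lng r) = true := by decide +kernel

/-! ### four elements -/

section four
variable {K : Type*} [Field K] (hD : chevB2 ∈ L7) {x : ℕ → K → ↥(chevB2.group K)}
  (hx : ∀ r < chevB2.nroots, ∀ t, ((x r t : GL chevB2.Idx K) : Matrix _ _ K) = chevB2.x K r t)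
include hD hx

variable {E : Type*} [Group E] {π : E →* ↥(chevB2.group K)} (h : CE π)
include h

theorem i2_short4 (h20 : (2 : K) = 0) {v : K} (hv0 : v ≠ 0) (hv1 : v ≠ 1) (hv3 : v ^ 3 = 1) {r c d m k : ℕ} (hc : chk2 r c d m k = true)
    (s t : K) : h.c (x r s) (x r t) = 1 := by
  have A := LiftGrp.ab hD hx
  unfold chk2 at hc
  simp only [Bool.and_eq_true, Nat.blt_eq, Bool.not_eq_true'] at hc
  obtain ⟨⟨⟨⟨⟨⟨⟨⟨⟨⟨⟨h1, h2⟩, h3⟩, h4⟩, h5⟩, h6⟩, h7⟩, h8⟩, h9⟩, h10⟩, h11⟩, h12⟩ := hc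
  split at h11
  · rename_i k' N i j hT
    simp only [Bool.and_eq_true, Bool.or_eq_true, beq_iff_eq, Nat.beq_eq] at h11
    obtain ⟨⟨⟨rfl, h11⟩, rfl⟩, rfl⟩ := h11
    split at h12
    · rename_i a1 N1 i1 j1 a2 N2 i2 j2 hT2
      simp only [Bool.and_eq_true, Bool.or_eq_true, beq_iff_eq, Nat.beq_eq] at h12
      obtain ⟨⟨⟨⟨⟨⟨rfl, h12⟩, rfl⟩, rfl⟩, rfl⟩, rfl⟩, rfl⟩ := h12
      have hN : ∃ N'' : ℤ, N = 2 * N'' := by
        rcases h11 with rfl | rfl
        · exact ⟨1, rfl⟩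
        · exact ⟨-1, rfl⟩
      obtain ⟨N'', rfl⟩ := hN
      have hm := h10
      unfold nilp at hm
      simp only [Bool.and_eq_true, Nat.blt_eq, Bool.not_eq_true'] at hm
      obtain ⟨⟨⟨m1, m2⟩, m3⟩, m4⟩ := hm
      have hP := pair4' hD hx a4B2 hv0 hv1 hv3 h1 m1 (fun e => by rw [e] at m3; simp at m3) (fun e => by rw [e] at m2; simp at m2)
      refine i2_two A h h20 h1 h2 h3 (fun e => by rw [e] at h5; simp at h5) (fun e => by rw [e] at h6; simp at h6)
        (fun e => by rw [e] at h7; simp at h7) (fun e => by rw [e] at h8; simp at h8) hT h4 h9 (N := N1) (N' := N2) ?_ hT2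
        (fun s t => pair_symm_lc A h h1 m1 (comm_nilp A h1 h10) hP s t) s t
      rcases h12 with rfl | rfl <;> simp
    · cases h12
  · cases h11

theorem i2_4 (h20 : (2 : K) = 0) {v : K} (hv0 : v ≠ 0) (hv1 : v ≠ 1) (hv3 : v ^ 3 = 1) {r : ℕ} (hr : r < chevB2.nroots)
    (s t : K) : h.c (x r s) (x r t) = 1 := by
  have A := LiftGrp.ab hD hx
  have hc := chk2_all
  simp only [Bool.and_eq_true] at hc
  obtain ⟨⟨⟨k1, k2⟩, k5⟩, k6⟩ := hc
  by_cases e1 : r = 1
  · subst e1; exact i2_short4 hD hx h h20 hv0 hv1 hv3 k1 s t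
  by_cases e2 : r = 2
  · subst e2; exact i2_short4 hD hx h h20 hv0 hv1 hv3 k2 s t
  by_cases e5 : r = 5
  · subst e5; exact i2_short4 hD hx h h20 hv0 hv1 hv3 k5 s t
  by_cases e6 : r = 6
  · subst e6; exact i2_short4 hD hx h h20 hv0 hv1 hv3 k6 s t
  have hl : (l2B2[r]'(by rw [nr] at hr; exact hr)).1 = 1 := by
    rw [nr] at hr
    interval_cases r <;> first | rfl | omega
  have f := ok2l_sound chevB2 l2B2 0 c2B2 r (by rw [nr] at hr; exact hr)
  rw [zero_add] at f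
  generalize l2B2[r]'(by rw [nr] at hr; exact hr) = p at f hl
  obtain ⟨kd, c, d, m⟩ := p
  simp only at hl
  subst hl
  unfold ok2 at f
  simp only [Bool.and_eq_true, Nat.blt_eq, Bool.not_eq_true', beq_iff_eq] at f
  obtain ⟨⟨⟨⟨⟨⟨⟨⟨h1, h2⟩, h3'⟩, h4⟩, h5⟩, h6⟩, h6'⟩, h6''⟩, h7⟩ := f
  split at h7
  · rename_i k N i j k' N' i' j' hT
    simp only [Bool.and_eq_true, Bool.or_eq_true, beq_iff_eq, Nat.beq_eq] at h7
    obtain ⟨⟨⟨⟨⟨⟨⟨rfl, h8⟩, rfl⟩, rfl⟩, rfl⟩, h8'⟩, rfl⟩, rfl⟩ := h7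
    have hm := h6'
    unfold nilp at hm
    simp only [Bool.and_eq_true, Nat.blt_eq, Bool.not_eq_true'] at hm
    obtain ⟨⟨⟨m1, m2⟩, m3⟩, m4⟩ := hm
    have hP := pair4' hD hx a4B2 hv0 hv1 hv3 hr m1 (fun e => by rw [e] at m3; simp at m3) (fun e => by rw [e] at m2; simp at m2)
    refine i2_long A h hr h1 h2 (fun e => by rw [e] at h3'; simp at h3') (fun e => by rw [e] at h4; simp at h4) h5 h6 h6'
        (N' := N') ?_ hT (fun s t => pair_symm_lc A h hr m1 (comm_nilp A hr h6') hP s t) s t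
    rcases h8' with rfl | rfl <;> simp
  · cases h7

theorem lift_B2_4 (h20 : (2 : K) = 0) {v : K} (hv0 : v ≠ 0) (hv1 : v ≠ 1) (hv3 : v ^ 3 = 1) :
    ∃ y : ℕ → K → E, AB chevB2 y ∧ ∀ r < chevB2.nroots, ∀ t, π (y r t) = x r t :=
  lift_4 hD hx a4B2 hv0 hv1 hv3 h (fun r hr s t => i2_4 hD hx h h20 hv0 hv1 hv3 hr s t)

end four

end H23.LiftB2
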