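/-
H23: the lifting theorem for B2 over the field with three elements.
-/
import Cfsg.Agent.Lib.H23.LiftB2
set_option autoImplicit false
set_option linter.unusedVariables false

namespace H23.LiftB23

open scoped commutatorElement
open H22.RGD H22.Coord H22.RCCheck H22.RCComb H22.ChevTri H22.ChevRel H22.ChevSys H22.ChevMain
open H22.ChevStd H22.ChevSolv H22.ChevUni H22.St
open H23.Lift H23.Cv H23.LiftT H23.LiftGrp H23.ChevCore H23.LiftCert H23.LiftI2 H23.LiftCert34 H23.LiftR3 H23.LiftBig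
open H23.Lift34 H23.LiftB2
open H23.ChevExc (wp nn hh)
open Cfsg.Lie (ChevalleyDatum chevB2)

variable {K : Type*} [Field K] (hK : ∀ t : K, t = 0 ∨ t = 1 ∨ t = -1) (h20 : (2 : K) ≠ 0)

/-- a cyclic root group -/
theorem i2_cyc (hK : ∀ t : K, t = 0 ∨ t = 1 ∨ t = -1) {D : ChevalleyDatum} {Γ : Type*} [Group Γ] {x : ℕ → K → Γ} (A : AB D x)
    {E : Type*} [Group E] {π : E →* Γ} (h : CE π) {r : ℕ} (hr : r < D.nroots) (s t : K) : h.c (x r s) (x r t) = 1 := by
  have hcc : ∀ s t, Commute (x r s) (x r t) := comm_self A hr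
  have c1 : ∀ s, h.c (x r s) (x r 1) = 1 := by
    intro s
    rcases hK s with rfl | rfl | rfl
    · rw [A.zero hr, h.c_one_left]
    · exact h.c_self _
    · have := h.c_mul_left_of_comm (g := x r 1) (g' := x r (-1)) (k := x r 1) (hcc _ _)
      rw [A.add r hr, add_neg_cancel, A.zero hr, h.c_one_left, h.c_self, mul_one] at this
      exact this.symm
  rcases hK t with rfl | rfl | rfl
  · rw [A.zero hr, h.c_one_right]
  · exact c1 s
  · have := h.c_mul_right_of_comm (g := x r s) (k := x r 1) (k' := x r (-1)) (hcc _ _)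
    rw [A.add r hr, add_neg_cancel, A.zero hr, h.c_one_right, c1, one_mul] at this
    exact this.symm

section B
variable (hD : chevB2 ∈ L7) {x : ℕ → K → ↥(chevB2.group K)}
  (hx : ∀ r < chevB2.nroots, ∀ t, ((x r t : GL chevB2.Idx K) : Matrix _ _ K) = chevB2.x K r t)

theorem lng_par {r : ℕ} (hr : r < 8) : pr chevB2 7 r % 2 = 0 ↔ lng r = true := by
  have := par_all
  rw [List.all_eq_true] at this
  have h1 := this r (List.mem_range.2 hr)
  rw [beq_iff_eq] at h1
  rw [← h1, beq_iff_eq]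

/-- the involution of the torus -/
def tau (x : ℕ → K → ↥(chevB2.group K)) : ↥(chevB2.group K) := hh chevB2 x 7 (-1)

include hD hx

theorem tau_long {r : ℕ} (hr : r < 8) (h : lng r = true) : Acts x (tau x) r 1 := by
  have := hh_acts hD hx (a := 7) (r := r) (by rw [nr]; norm_num) (by rw [nr]; exact hr) (c := -1) (by simp)
  rw [neg_zpow_even hD hx ((lng_par hr).2 h)] at this
  exact this

theorem tau_short {r : ℕ} (hr : r < 8) (h : lng r = false) : Acts x (tau x) r (-1) := by
  have := hh_acts hD hx (a := 7) (r := r) (by rw [nr]; norm_num) (by rw [nr]; exact hr) (c := -1) (by simp)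
  rw [neg_zpow_odd hD hx (fun e => by rw [(lng_par hr).1 e] at h; cases h)] at this
  exact this

variable {E : Type*} [Group E] {π : E →* ↥(chevB2.group K)} (h : CE π)
include h h20

/-- a short and a long root -/
theorem lc_sl {r s : ℕ} (hr : r < 8) (hs : s < 8) (lr : lng r = false) (ls : lng s = true) (hc : nilp chevB2 r s = true) (t u : K) :
    h.c (x r t) (x s u) = 1 := by
  have A := LiftGrp.ab hD hx
  exact lc_torus h A.add (by rw [nr]; exact hr) (neg_one_ne hD hx h20) (tau_short hD hx hr lr) (tau_long hD hx hs ls)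
    (comm_nilp A (by rw [nr]; exact hr) hc) t u

theorem lc_ls {r s : ℕ} (hr : r < 8) (hs : s < 8) (lr : lng r = true) (ls : lng s = false) (hc : nilp chevB2 s r = true) (t u : K) :
    h.c (x r t) (x s u) = 1 := by
  rw [h.c_comm_iff]; exact lc_sl h20 hD hx h hs hr ls lr hc u t

include hK

/-- two orthogonal long roots -/
theorem lc_ll {L1 L2 d m : ℕ} (hc : chk3 L1 L2 d m = true) (s t : K) : h.c (x L1 s) (x L2 t) = 1 := by
  have A := LiftGrp.ab hD hx
  unfold chk3 at hc
  simp only [Bool.and_eq_true, Nat.blt_eq, Bool.not_eq_true'] at hc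
  obtain ⟨⟨⟨⟨⟨⟨⟨⟨⟨⟨⟨⟨⟨⟨⟨⟨h1, h2⟩, h3⟩, h4⟩, h5⟩, h6⟩, h7⟩, h8⟩, n1⟩, n2⟩, n3⟩, n4⟩, l1⟩, l2⟩, l3⟩, e1⟩, e2⟩ := hc
  have h5' : m ≠ d := fun e => by rw [e] at h5; simp at h5
  have h6' : m ≠ chevB2.neg d := fun e => by rw [e] at h6; simp at h6
  have h7' : L2 ≠ d := fun e => by rw [e] at h7; simp at h7
  have h8' : L2 ≠ chevB2.neg d := fun e => by rw [e] at h8; simp at h8
  split at e1
  · rename_i k' N i j hT
    simp only [Bool.and_eq_true, Bool.or_eq_true, beq_iff_eq, Nat.beq_eq] at e1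
    obtain ⟨⟨⟨rfl, hN⟩, rfl⟩, rfl⟩ := e1
    split at e2
    · rename_i a1 N1 i1 j1 a2 N2 i2 j2 hT2
      simp only [Bool.and_eq_true, Bool.or_eq_true, beq_iff_eq, Nat.beq_eq] at e2
      obtain ⟨⟨⟨⟨⟨rfl, rfl⟩, rfl⟩, rfl⟩, rfl⟩, rfl⟩ := e2
      have hN' : (N : K) ≠ 0 := by
        rcases hN with rfl | rfl
        · exact_mod_cast h20
        · push_cast; exact neg_ne_zero.2 h20
      have lt : ∀ {r : ℕ}, r < 8 → r < chevB2.nroots := fun hr => by rw [nr]; exact hr
      -- conjugation of the short root element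
      have c1 : ∀ w u, x d w * x a1 u * (x d w)⁻¹ = x a1 u * x a2 (N * w * u) := by
        intro w u
        have g1 := A.comm d (lt h1) a1 (lt h2) h5' h6' (-w) u
        unfold wp ChevalleyDatum.commWord at g1
        rw [hT] at g1
        simp only [List.map_cons, List.map_nil, List.prod_cons, List.prod_nil, mul_one, neg_neg, pow_one] at g1
        rw [A.neg (lt h1)] at g1
        rw [mul_assoc, g1]; group
      have c2 : ∀ u, ∃ v v', x d 1 * x L2 u * (x d 1)⁻¹ = x L2 u * (x a1 v * x a2 v') := by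
        intro u
        have g1 := A.comm d (lt h1) L2 (lt h4) h7' h8' (-1) u
        unfold wp ChevalleyDatum.commWord at g1
        rw [hT2] at g1
        simp only [List.map_cons, List.map_nil, List.prod_cons, List.prod_nil, mul_one] at g1
        have g2 : ∃ v v', x L2 u * x d (-1) = x d (-1) * x L2 u * (x a1 v * x a2 v') := ⟨_, _, g1⟩
        obtain ⟨v, v', g2⟩ := g2
        rw [A.neg (lt h1)] at g2
        refine ⟨v, v', ?_⟩
        rw [mul_assoc, g2]; group
      have k1 := comm_nilp A (lt h2) n1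
      have k2 := comm_nilp A (lt h2) n2
      have k3 := comm_nilp A (lt h3) n3
      have base : ∀ a u, h.c (x a1 a) (x L2 u) = 1 := lc_sl h20 hD hx h h2 h4 l3 l2 n1
      have b1 : ∀ a u, h.c (x a1 a) (x a2 u) = 1 := lc_sl h20 hD hx h h2 h3 l3 l1 n2
      have b2 : ∀ a u, h.c (x a2 a) (x a1 u) = 1 := fun a u => (h.c_comm_iff).1 (b1 u a)
      have z1 : ∀ a u, h.c (x a1 a) (x a1 u) = 1 := i2_cyc hK A h (lt h2)
      have z2 : ∀ a u, h.c (x a2 a) (x a2 u) = 1 := i2_cyc hK A h (lt h3)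
      set a := (N : K)⁻¹ * s with ha
      obtain ⟨v, v', e3⟩ := c2 t
      have e4 := h.act_c (x d 1) (x a1 a) (x L2 t)
      have act1 : ∀ g, h.act g 1 = 1 := fun g => by unfold CE.act; simp
      have e5 : (N : K) * 1 * a = s := by rw [ha]; field_simp
      rw [base, act1, c1, e3, e5] at e4
      -- expand
      have q1 : ∀ {g : ↥(chevB2.group K)}, Commute g (x L2 t) → Commute g (x a1 v) → Commute g (x a2 v') →
          h.c g (x L2 t * (x a1 v * x a2 v')) = h.c g (x L2 t) * (h.c g (x a1 v) * h.c g (x a2 v')) := by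
        intro g g1 g2 g3
        rw [h.c_mul_right_of_comm (g2.mul_right g3), h.c_mul_right_of_comm g3]
      have ca1 : Commute (x a1 a) (x L2 t * (x a1 v * x a2 v')) :=
        (k1 _ _).mul_right ((comm_self A (lt h2) _ _).mul_right (k2 _ _))
      have ca2 : Commute (x a2 s) (x L2 t * (x a1 v * x a2 v')) :=
        (k3 _ _).mul_right (((k2 _ _).symm).mul_right (comm_self A (lt h3) _ _))
      rw [h.c_mul_left_of_comm ca2, q1 (k3 _ _) (k2 _ _).symm (comm_self A (lt h3) _ _),
        q1 (k1 _ _) (comm_self A (lt h2) _ _) (k2 _ _), b2, z2, base, z1, b1] at e4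
      simpa using e4.symm
    · cases e2
  · cases e1

theorem lc_ll' {L1 L2 : ℕ} (h1 : L1 < 8) (h2 : L2 < 8) (l1 : lng L1 = true) (l2 : lng L2 = true) (hne : L2 ≠ L1)
    (hn : L2 ≠ chevB2.neg L1) (s t : K) : h.c (x L1 s) (x L2 t) = 1 := by
  have hc := chk3_all
  simp only [Bool.and_eq_true] at hc
  obtain ⟨⟨⟨k1, k2⟩, k3⟩, k4⟩ := hc
  have g1 := lc_ll hK h20 hD hx h k1
  have g2 := lc_ll hK h20 hD hx h k2
  have g3 := lc_ll hK h20 hD hx h k3
  have g4 := lc_ll hK h20 hD hx h k4
  have n0 : chevB2.neg 0 = 7 := rfl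
  have n3 : chevB2.neg 3 = 4 := rfl
  have n4 : chevB2.neg 4 = 3 := rfl
  have n7 : chevB2.neg 7 = 0 := rfl
  unfold lng at l1 l2
  simp only [Bool.or_eq_true, Nat.beq_eq] at l1 l2
  rcases l1 with ((rfl | rfl) | rfl) | rfl <;> rcases l2 with ((rfl | rfl) | rfl) | rfl <;>
    first
    | exact absurd rfl hne
    | exact absurd n0.symm hn
    | exact absurd n3.symm hn
    | exact absurd n4.symm hn
    | exact absurd n7.symm hn
    | exact g1 s t
    | exact g2 s t
    | exact g3 s t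
    | exact g4 s t
    | exact (h.c_comm_iff).1 (g1 t s)
    | exact (h.c_comm_iff).1 (g2 t s)
    | exact (h.c_comm_iff).1 (g3 t s)
    | exact (h.c_comm_iff).1 (g4 t s)

end B

end H23.LiftB23
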