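/-
H23: the lifting theorem for B2 over the field with three elements, construction.
-/
import Cfsg.Agent.Lib.H23.LiftB23
set_option autoImplicit false
set_option linter.unusedVariables false

namespace H23.LiftB23

open scoped commutatorElement
open H22.RGD H22.Coord H22.RCCheck H22.RCComb H22.ChevTri H22.ChevRel H22.ChevSys H22.ChevMain
open H22.ChevStd H22.ChevSolv H22.ChevUni H22.St
open H23.Lift H23.Cv H23.LiftT H23.LiftGrp H23.ChevCore H23.LiftCert H23.LiftI2 H23.LiftCert34 H23.LiftR3 H23.LiftBig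
open H23.Lift34 H23.LiftB2
open H23.ChevExc (wp nn hh)
open Cfsg.Lie (ChevalleyDatum chevB2)

/-- the combinatorics of a long root -/
structure Src (L r s : ℕ) (N : ℤ) : Prop where
  r_lt : r < 8
  s_lt : s < 8
  r_s : lng r = false
  s_s : lng s = false
  ne : s ≠ r
  nn : s ≠ chevB2.neg r
  nn' : r ≠ chevB2.neg s
  c1 : chevB2.commTerms r s = [(L, N, 1, 1)]
  c2 : chevB2.commTerms s r = [(L, -N, 1, 1)]
  hN : N = 2 ∨ N = -2
  nr : nilp chevB2 r L = true
  ns : nilp chevB2 s L = true

theorem src_ok {L : ℕ} (hL : L < 8) (h : lng L = true) : Src L (src L).1 (src L).2.1 (src L).2.2 := by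
  have := chk1_all
  unfold chk1 at this
  rw [List.all_eq_true] at this
  have h1 := this L (List.mem_range.2 hL)
  rw [h] at h1
  simp only [Bool.not_true, Bool.false_or] at h1
  generalize src L = p at h1
  obtain ⟨r, s, N⟩ := p
  simp only [Bool.and_eq_true, Nat.blt_eq, Bool.not_eq_true'] at h1
  obtain ⟨⟨⟨⟨⟨⟨⟨⟨⟨⟨⟨a1, a2⟩, a3⟩, a4⟩, a5⟩, a6⟩, a7⟩, a8⟩, a9⟩, a10⟩, a11⟩, a12⟩ := h1
  have nb : ∀ a b : ℕ, Nat.beq a b = false → a ≠ b := by
    intro a b h e
    rw [e, Nat.beq_refl] at h; cases h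
  exact ⟨a1, a2, a3, a4, nb _ _ a5, nb _ _ a6, nb _ _ a7, tc_sound a8, tc_sound a9, by simpa using a10, a11, a12⟩

/-- short orthogonal pairs come from long roots; long orthogonal pairs commute -/
theorem chk5 : ((List.range 8).all fun r => (List.range 8).all fun s => Nat.beq s r || Nat.beq s (chevB2.neg r) ||
    (lng r && !(lng s)) || (!(lng r) && lng s) || (lng r && lng s && (chevB2.commTerms r s).isEmpty) ||
    (!(lng r) && !(lng s) && (List.range 8).any fun L => lng L && ((Nat.beq (src L).1 r && Nat.beq (src L).2.1 s) ||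
      (Nat.beq (src L).1 s && Nat.beq (src L).2.1 r)))) = true := by decide +kernel

section
variable {K : Type*} [Field K] (hK : ∀ t : K, t = 0 ∨ t = 1 ∨ t = -1) (h20 : (2 : K) ≠ 0)
variable (hD : chevB2 ∈ L7) {x : ℕ → K → ↥(chevB2.group K)}
  (hx : ∀ r < chevB2.nroots, ∀ t, ((x r t : GL chevB2.Idx K) : Matrix _ _ K) = chevB2.x K r t)
variable {E : Type*} [Group E] {π : E →* ↥(chevB2.group K)} (h : CE π)

/-- the lifts -/
noncomputable def Y (h : CE π) (x : ℕ → K → ↥(chevB2.group K)) (r : ℕ) (t : K) : E :=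
  if lng r = true then h.c (x (src r).2.1 (-t / ((src r).2.2 : K))) (x (src r).1 1) else h.c (tau x) (x r (t / (-1 - 1)))

theorem Y_long {r : ℕ} (hr : lng r = true) (t : K) :
    Y h x r t = h.c (x (src r).2.1 (-t / ((src r).2.2 : K))) (x (src r).1 1) := by unfold Y; rw [if_pos hr]

theorem Y_short {r : ℕ} (hr : lng r = false) (t : K) : Y h x r t = h.c (tau x) (x r (t / (-1 - 1))) := by
  unfold Y; rw [if_neg (by rw [hr]; simp)]

include hD hx h20

omit h20 in
theorem br_src {L r s : ℕ} {N : ℤ} (o : Src L r s N) (t u : K) : ⁅x s u, x r t⁆ = x L (-(N * t * u)) := by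
  have A := LiftGrp.ab hD hx
  have lt : ∀ {r : ℕ}, r < 8 → r < chevB2.nroots := fun hr => by rw [LiftB2.nr]; exact hr
  have h1 := br A (lt o.r_lt) (lt o.s_lt) o.ne o.nn (-t) (-u)
  rw [A.neg (lt o.r_lt), A.neg (lt o.s_lt), inv_inv, inv_inv] at h1
  rw [h1]
  unfold wp ChevalleyDatum.commWord
  rw [o.c1]
  simp only [List.map_cons, List.map_nil, List.prod_cons, List.prod_nil, mul_one, neg_neg, pow_one]
  congr 1; ring

theorem B_add_left {L r s : ℕ} {N : ℤ} (hL : L < 8) (lL : lng L = true) (o : Src L r s N) (u u' t : K) :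
    h.c (x s (u + u')) (x r t) = h.c (x s u') (x r t) * h.c (x s u) (x r t) := by
  have A := LiftGrp.ab hD hx
  have lt : ∀ {r : ℕ}, r < 8 → r < chevB2.nroots := fun hr => by rw [LiftB2.nr]; exact hr
  rw [← A.add _ (lt o.s_lt), h.c_mul_left']
  rw [br_src hD hx o]
  exact lc_sl h20 hD hx h o.s_lt hL o.s_s lL o.ns _ _

theorem B_add_right {L r s : ℕ} {N : ℤ} (hL : L < 8) (lL : lng L = true) (o : Src L r s N) (u t t' : K) :
    h.c (x s u) (x r (t + t')) = h.c (x s u) (x r t) * h.c (x s u) (x r t') := by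
  have A := LiftGrp.ab hD hx
  have lt : ∀ {r : ℕ}, r < 8 → r < chevB2.nroots := fun hr => by rw [LiftB2.nr]; exact hr
  rw [← A.add _ (lt o.r_lt), h.c_mul_right']
  rw [br_src hD hx o]
  exact lc_sl h20 hD hx h o.r_lt hL o.r_s lL o.nr _ _

theorem B_neg_left {L r s : ℕ} {N : ℤ} (hL : L < 8) (lL : lng L = true) (o : Src L r s N) (u t : K) :
    h.c (x s (-u)) (x r t) = (h.c (x s u) (x r t))⁻¹ := by
  have A := LiftGrp.ab hD hx
  have lt : ∀ {r : ℕ}, r < 8 → r < chevB2.nroots := fun hr => by rw [LiftB2.nr]; exact hr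
  have := B_add_left h20 hD hx h hL lL o u (-u) t
  rw [add_neg_cancel, A.zero (lt o.s_lt), h.c_one_left] at this
  exact (inv_eq_of_mul_eq_one_left this.symm).symm

theorem B_neg_right {L r s : ℕ} {N : ℤ} (hL : L < 8) (lL : lng L = true) (o : Src L r s N) (u t : K) :
    h.c (x s u) (x r (-t)) = (h.c (x s u) (x r t))⁻¹ := by
  have A := LiftGrp.ab hD hx
  have lt : ∀ {r : ℕ}, r < 8 → r < chevB2.nroots := fun hr => by rw [LiftB2.nr]; exact hr
  have := B_add_right h20 hD hx h hL lL o u t (-t)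
  rw [add_neg_cancel, A.zero (lt o.r_lt), h.c_one_right] at this
  exact (inv_eq_of_mul_eq_one_right this.symm).symm

include hK in
theorem B_mul {L r s : ℕ} {N : ℤ} (hL : L < 8) (lL : lng L = true) (o : Src L r s N) (u t : K) :
    h.c (x s u) (x r t) = h.c (x s (t * u)) (x r 1) := by
  have A := LiftGrp.ab hD hx
  have lt : ∀ {r : ℕ}, r < 8 → r < chevB2.nroots := fun hr => by rw [LiftB2.nr]; exact hr
  rcases hK t with rfl | rfl | rfl
  · rw [zero_mul, A.zero (lt o.s_lt), A.zero (lt o.r_lt), h.c_one_left, h.c_one_right]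
  · rw [one_mul]
  · rw [B_neg_right h20 hD hx h hL lL o, neg_one_mul, B_neg_left h20 hD hx h hL lL o]

include hK h in
theorem lift_B2_3 : ∃ y : ℕ → K → E, AB chevB2 y ∧ ∀ r < chevB2.nroots, ∀ t, π (y r t) = x r t := by
  have A := LiftGrp.ab hD hx
  have lt : ∀ {r : ℕ}, r < 8 → r < chevB2.nroots := fun hr => by rw [LiftB2.nr]; exact hr
  have hinj : ∀ r < chevB2.nroots, ∀ s t, x r s = x r t → s = t := H23.Mult.inj_of_theta hD (MonoidHom.id _) (fun r t hr => hx r hr t)
  have n2 : (-1 - 1 : K) ≠ 0 := by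
    intro e; apply h20
    have : (2 : K) = -(-1 - 1) := by norm_num
    rw [this, e, neg_zero]
  have hN0 : ∀ N : ℤ, N = 2 ∨ N = -2 → (N : K) ≠ 0 := by
    rintro N (rfl | rfl)
    · exact_mod_cast h20
    · push_cast; exact neg_ne_zero.2 h20
  have hπ : ∀ r < chevB2.nroots, ∀ t, π (Y h x r t) = x r t := by
    intro r hr t
    rw [LiftB2.nr] at hr
    by_cases lr : lng r = true
    · have o := src_ok hr lr
      rw [Y_long h lr, h.π_c, br_src hD hx o]
      congr 1
      have := hN0 _ o.hN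
      field_simp
    · rw [Bool.not_eq_true] at lr
      have e := tau_short hD hx hr lr (t / (-1 - 1))
      rw [Y_short h lr, h.π_c, commutatorElement_def, e, ← A.neg (lt hr), A.add r (lt hr)]
      congr 1
      field_simp
      ring
  have hadd : ∀ r < chevB2.nroots, ∀ t u, Y h x r t * Y h x r u = Y h x r (t + u) := by
    intro r hr t u
    rw [LiftB2.nr] at hr
    by_cases lr : lng r = true
    · have o := src_ok hr lr
      rw [Y_long h lr, Y_long h lr, Y_long h lr]
      rw [show -(t + u) / ((src r).2.2 : K) = -u / ((src r).2.2 : K) + -t / ((src r).2.2 : K) by ring]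
      rw [B_add_left h20 hD hx h hr lr o]
    · rw [Bool.not_eq_true] at lr
      rw [Y_short h lr, Y_short h lr, Y_short h lr, add_div, ← A.add r (lt hr), h.c_mul_right']
      have e := tau_short hD hx hr lr (u / (-1 - 1))
      rw [commutatorElement_def, e, ← A.neg (lt hr), A.add r (lt hr)]
      exact i2_cyc hK A h (lt hr) _ _
  obtain ⟨X, ⟨Z⟩, W⟩ := H22.StTab.exists_all hD
  refine ⟨Y h x, ?_, hπ⟩
  refine ab_of_equiv h X Z (H22.ChevAll.rel _ hD K) A (chevB2.group K).subtype (fun r hr t => x_eq_xg hD hx hr t) {tau x} ?_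
    (Y h x) hπ hadd ?_ ?_
  · rintro _ rfl r hr
    rw [LiftB2.nr] at hr
    by_cases lr : lng r = true
    · exact ⟨_, tau_long hD hx hr lr⟩
    · rw [Bool.not_eq_true] at lr
      exact ⟨_, tau_short hD hx hr lr⟩
  · rintro _ rfl r hr ψ hψ t
    have hr8 : r < 8 := by rwa [LiftB2.nr] at hr
    by_cases lr : lng r = true
    · have o := src_ok hr8 lr
      have e1 : ψ = 1 := by
        have e2 := hψ 1
        rw [tau_long hD hx hr8 lr 1, mul_one, mul_one] at e2
        exact (hinj r hr _ _ e2).symm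
      rw [e1, one_mul, Y_long h lr, h.act_c, tau_short hD hx o.s_lt o.s_s, tau_short hD hx o.r_lt o.r_s,
        neg_one_mul, neg_one_mul, B_neg_left h20 hD hx h hr8 lr o, B_neg_right h20 hD hx h hr8 lr o, inv_inv]
    · rw [Bool.not_eq_true] at lr
      have e1 : ψ = -1 := by
        have e2 := hψ 1
        rw [tau_short hD hx hr8 lr 1, mul_one, mul_one] at e2
        exact (hinj r hr _ _ e2).symm
      rw [e1, Y_short h lr, Y_short h lr, h.act_c, tau_short hD hx hr8 lr, mul_inv_cancel_right, mul_div_assoc]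
  · intro r hr s hs h1 h2
    rw [LiftB2.nr] at hr hs
    have hc := chk5
    rw [List.all_eq_true] at hc
    have hc1 := hc r (List.mem_range.2 hr)
    rw [List.all_eq_true] at hc1
    have hc2 := hc1 s (List.mem_range.2 hs)
    have b1 : Nat.beq s r = false := by
      rw [← Bool.not_eq_true, Nat.beq_eq]; exact h1
    have b2 : Nat.beq s (chevB2.neg r) = false := by
      rw [← Bool.not_eq_true, Nat.beq_eq]; exact h2
    rw [b1, b2] at hc2
    -- relation for a short pair
    have rel1 : ∀ {L r s : ℕ} {N : ℤ}, L < 8 → lng L = true → Src L r s N → (L = L → N = (src L).2.2) → (s = (src L).2.1) → (r = (src L).1) →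
        ∀ t u, (Y h x s u)⁻¹ * (Y h x r t)⁻¹ * Y h x s u * Y h x r t = wp (Y h x) (chevB2.commWord K r s t u) := by
      intro L r s N hL lL o e1 e2 e3 t u
      have a1 : (Y h x s u)⁻¹ * (Y h x r t)⁻¹ * Y h x s u * Y h x r t = ⁅(Y h x s u)⁻¹, (Y h x r t)⁻¹⁆ := by
        rw [commutatorElement_def]; group
      rw [a1, h.c_eq, map_inv, map_inv, hπ s (lt o.s_lt), hπ r (lt o.r_lt), ← A.neg (lt o.s_lt), ← A.neg (lt o.r_lt),
        B_neg_left h20 hD hx h hL lL o, B_neg_right h20 hD hx h hL lL o, inv_inv, B_mul hK h20 hD hx h hL lL o]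
      unfold wp ChevalleyDatum.commWord
      rw [o.c1]
      simp only [List.map_cons, List.map_nil, List.prod_cons, List.prod_nil, mul_one, pow_one]
      rw [Y_long h lL, ← e1 rfl, ← e2, ← e3]
      congr 2
      have := hN0 _ o.hN
      field_simp
    have rel2 : ∀ {L r s : ℕ} {N : ℤ}, L < 8 → lng L = true → Src L r s N → (L = L → N = (src L).2.2) → (s = (src L).2.1) → (r = (src L).1) →
        ∀ t u, (Y h x r u)⁻¹ * (Y h x s t)⁻¹ * Y h x r u * Y h x s t = wp (Y h x) (chevB2.commWord K s r t u) := by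
      intro L r s N hL lL o e1 e2 e3 t u
      have a1 : (Y h x r u)⁻¹ * (Y h x s t)⁻¹ * Y h x r u * Y h x s t = ⁅(Y h x s t)⁻¹, (Y h x r u)⁻¹⁆⁻¹ := by
        rw [commutatorElement_def]; group
      rw [a1, h.c_eq, map_inv, map_inv, hπ s (lt o.s_lt), hπ r (lt o.r_lt), ← A.neg (lt o.s_lt), ← A.neg (lt o.r_lt),
        B_neg_left h20 hD hx h hL lL o, B_neg_right h20 hD hx h hL lL o, inv_inv, B_mul hK h20 hD hx h hL lL o,
        ← B_neg_left h20 hD hx h hL lL o]
      unfold wp ChevalleyDatum.commWord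
      rw [o.c2]
      simp only [List.map_cons, List.map_nil, List.prod_cons, List.prod_nil, mul_one, pow_one]
      rw [Y_long h lL, ← e1 rfl, ← e2, ← e3]
      congr 2
      have := hN0 _ o.hN
      push_cast
      field_simp
    by_cases lr : lng r = true
    · by_cases ls : lng s = true
      · right; right
        intro t u
        rw [lr, ls] at hc2
        simp at hc2
        have hcm : Commute (Y h x r t) (Y h x s u) := by
          rw [h.commute_iff, hπ r (lt hr), hπ s (lt hs)]
          exact lc_ll' hK h20 hD hx h hr hs lr ls h1 h2 t u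
        have hw : wp (Y h x) (chevB2.commWord K r s t u) = 1 := by
          unfold wp ChevalleyDatum.commWord
          rw [hc2]; rfl
        rw [hw, mul_assoc _ (Y h x s u), ← hcm.eq]; group
      · rw [Bool.not_eq_true] at ls
        right; left
        exact ⟨tau x, rfl, ⟨-1, neg_one_ne hD hx h20, tau_short hD hx hs ls⟩, tau_long hD hx hr lr⟩
    · rw [Bool.not_eq_true] at lr
      by_cases ls : lng s = true
      · left
        exact ⟨tau x, rfl, ⟨-1, neg_one_ne hD hx h20, tau_short hD hx hr lr⟩, tau_long hD hx hs ls⟩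
      · rw [Bool.not_eq_true] at ls
        right; right
        rw [lr, ls] at hc2
        simp only [Bool.false_or, Bool.not_false, Bool.true_and, Bool.and_false, Bool.false_and, Bool.or_false] at hc2
        rw [List.any_eq_true] at hc2
        obtain ⟨L, hL, hc3⟩ := hc2
        have hL8 := List.mem_range.1 hL
        simp only [Bool.and_eq_true, Bool.or_eq_true, Nat.beq_eq] at hc3
        obtain ⟨lL, ⟨e1, e2⟩ | ⟨e1, e2⟩⟩ := hc3
        · have o := src_ok hL8 lL
          rw [e1, e2] at o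
          exact rel1 hL8 lL o (fun _ => rfl) e2.symm e1.symm
        · have o := src_ok hL8 lL
          rw [e1, e2] at o
          exact rel2 hL8 lL o (fun _ => rfl) e2.symm e1.symm

end

end H23.LiftB23
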