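/-
H23: the root elements of B2 in the five-dimensional orthogonal group.
-/
import Cfsg.Agent.Lib.H23.OrthSplit
import Cfsg.Agent.Lib.H23.ChevModel
import Cfsg.Prelude.Def_ChevB2
set_option autoImplicit false
set_option linter.unusedSectionVars false
set_option linter.unusedSimpArgs false
set_option linter.unusedTactic false
set_option linter.unreachableTactic false

namespace H23.ModelB2

open Cfsg.Lie H23.ChevExc H23.OrthSplit H7.Hyp H7.Omega QuadraticMap
open scoped commutatorElement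

variable (F : Type*) [Field F]

/-- `x^2` -/
def q1 : QuadraticForm F F := QuadraticMap.sq
def q2 : QuadraticForm F (F × F × F) := hyp (q1 F)
abbrev V := F × F × (F × F × F)

theorem q1_apply (x : F) : q1 F x = x * x := by simp [q1]
theorem q2_apply (x y z : F) : q2 F (x, y, z) = x * y + z * z := by simp [q2, q1_apply]

/-- root elements -/
def Y (r : ℕ) (t : F) : V F ≃ₗ[F] V F :=
  match r with
  | 0 => E' (q2 F) ((0, -t, 0) : F × F × F)
  | 1 => E' (q2 F) ((0, 0, t) : F × F × F)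
  | 2 => emb (E' (q1 F) (-t))
  | 3 => E' (q2 F) ((-t, 0, 0) : F × F × F)
  | 4 => E (q2 F) ((0, t, 0) : F × F × F)
  | 5 => emb (E (q1 F) (t))
  | 6 => E (q2 F) ((0, 0, -t) : F × F × F)
  | 7 => E (q2 F) ((t, 0, 0) : F × F × F)
  | _ => 1

variable {F}

theorem Y0 (t x1 y1 x2 y2 z : F) : Y F 0 t (x1, y1, x2, y2, z) = (x1, y1 - (-t) * x2, x2, y2 + (-t) * x1, z) := by
  show (E' (q2 F) ((0, -t, 0) : F × F × F)) (x1, y1, x2, y2, z) = _
  simp only [E_apply, E'_apply, emb_apply, q2_apply, q1_apply, polar, Prod.mk_add_mk, Prod.smul_mk, smul_eq_mul]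
  refine Prod.ext ?_ (Prod.ext ?_ (Prod.ext ?_ (Prod.ext ?_ ?_))) <;> (simp only []; try ring)

theorem Y1 (t x1 y1 x2 y2 z : F) : Y F 1 t (x1, y1, x2, y2, z) = (x1, y1 - t * t * x1 - 2 * t * z, x2, y2, z + t * x1) := by
  show (E' (q2 F) ((0, 0, t) : F × F × F)) (x1, y1, x2, y2, z) = _
  simp only [E_apply, E'_apply, emb_apply, q2_apply, q1_apply, polar, Prod.mk_add_mk, Prod.smul_mk, smul_eq_mul]
  refine Prod.ext ?_ (Prod.ext ?_ (Prod.ext ?_ (Prod.ext ?_ ?_))) <;> (simp only []; try ring)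

theorem Y2 (t x1 y1 x2 y2 z : F) : Y F 2 t (x1, y1, x2, y2, z) = (x1, y1, x2, y2 - t * t * x2 - 2 * (-t) * z, z + (-t) * x2) := by
  show (emb (E' (q1 F) (-t))) (x1, y1, x2, y2, z) = _
  simp only [E_apply, E'_apply, emb_apply, q2_apply, q1_apply, polar, Prod.mk_add_mk, Prod.smul_mk, smul_eq_mul]
  refine Prod.ext ?_ (Prod.ext ?_ (Prod.ext ?_ (Prod.ext ?_ ?_))) <;> (simp only []; try ring)

theorem Y3 (t x1 y1 x2 y2 z : F) : Y F 3 t (x1, y1, x2, y2, z) = (x1, y1 - (-t) * y2, x2 + (-t) * x1, y2, z) := by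
  show (E' (q2 F) ((-t, 0, 0) : F × F × F)) (x1, y1, x2, y2, z) = _
  simp only [E_apply, E'_apply, emb_apply, q2_apply, q1_apply, polar, Prod.mk_add_mk, Prod.smul_mk, smul_eq_mul]
  refine Prod.ext ?_ (Prod.ext ?_ (Prod.ext ?_ (Prod.ext ?_ ?_))) <;> (simp only []; try ring)

theorem Y4 (t x1 y1 x2 y2 z : F) : Y F 4 t (x1, y1, x2, y2, z) = (x1 - t * x2, y1, x2, y2 + t * y1, z) := by
  show (E (q2 F) ((0, t, 0) : F × F × F)) (x1, y1, x2, y2, z) = _
  simp only [E_apply, E'_apply, emb_apply, q2_apply, q1_apply, polar, Prod.mk_add_mk, Prod.smul_mk, smul_eq_mul]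
  refine Prod.ext ?_ (Prod.ext ?_ (Prod.ext ?_ (Prod.ext ?_ ?_))) <;> (simp only []; try ring)

theorem Y5 (t x1 y1 x2 y2 z : F) : Y F 5 t (x1, y1, x2, y2, z) = (x1, y1, x2 - t * t * y2 - 2 * t * z, y2, z + t * y2) := by
  show (emb (E (q1 F) (t))) (x1, y1, x2, y2, z) = _
  simp only [E_apply, E'_apply, emb_apply, q2_apply, q1_apply, polar, Prod.mk_add_mk, Prod.smul_mk, smul_eq_mul]
  refine Prod.ext ?_ (Prod.ext ?_ (Prod.ext ?_ (Prod.ext ?_ ?_))) <;> (simp only []; try ring)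

theorem Y6 (t x1 y1 x2 y2 z : F) : Y F 6 t (x1, y1, x2, y2, z) = (x1 - t * t * y1 - 2 * (-t) * z, y1, x2, y2, z + (-t) * y1) := by
  show (E (q2 F) ((0, 0, -t) : F × F × F)) (x1, y1, x2, y2, z) = _
  simp only [E_apply, E'_apply, emb_apply, q2_apply, q1_apply, polar, Prod.mk_add_mk, Prod.smul_mk, smul_eq_mul]
  refine Prod.ext ?_ (Prod.ext ?_ (Prod.ext ?_ (Prod.ext ?_ ?_))) <;> (simp only []; try ring)

theorem Y7 (t x1 y1 x2 y2 z : F) : Y F 7 t (x1, y1, x2, y2, z) = (x1 - t * y2, y1, x2 + t * y1, y2, z) := by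
  show (E (q2 F) ((t, 0, 0) : F × F × F)) (x1, y1, x2, y2, z) = _
  simp only [E_apply, E'_apply, emb_apply, q2_apply, q1_apply, polar, Prod.mk_add_mk, Prod.smul_mk, smul_eq_mul]
  refine Prod.ext ?_ (Prod.ext ?_ (Prod.ext ?_ (Prod.ext ?_ ?_))) <;> (simp only []; try ring)

theorem add0 (t u : F) : Y F 0 t * Y F 0 u = Y F 0 (t + u) := by
  apply LinearEquiv.ext
  rintro ⟨x1, y1, x2, y2, z⟩
  rw [LinearEquiv.mul_apply, Y0, Y0, Y0]
  refine Prod.ext ?_ (Prod.ext ?_ (Prod.ext ?_ (Prod.ext ?_ ?_))) <;> (simp only []; try ring)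

theorem n0 {t : F} (ht : t ≠ 0) (x1 y1 x2 y2 z : F) : nn chevB2 (Y F) 0 t (x1, y1, x2, y2, z) =
    (t⁻¹ * y2, t * x2, -(t⁻¹ * y1), -(t * x1), z) := by
  have hn : chevB2.neg 0 = 7 := by decide +kernel
  unfold nn
  rw [hn, LinearEquiv.mul_apply, LinearEquiv.mul_apply, Y0, Y7, Y0]
  refine Prod.ext ?_ (Prod.ext ?_ (Prod.ext ?_ (Prod.ext ?_ ?_))) <;> (simp only [] <;> (try field_simp) <;> (try ring))

theorem h0 {t : F} (ht : t ≠ 0) (x1 y1 x2 y2 z : F) : hh chevB2 (Y F) 0 t (x1, y1, x2, y2, z) =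
    (t⁻¹ * x1, t * y1, t⁻¹ * x2, t * y2, z) := by
  have h1 : (-1 : F) ≠ 0 := neg_ne_zero.2 one_ne_zero
  have h2 : (-1 : F)⁻¹ = -1 := by norm_num
  unfold hh
  rw [LinearEquiv.mul_apply, n0 h1, n0 ht]
  refine Prod.ext ?_ (Prod.ext ?_ (Prod.ext ?_ (Prod.ext ?_ ?_))) <;> (simp only [h2]; try ring)

theorem mul0 {t u : F} (ht : t ≠ 0) (hu : u ≠ 0) : hh chevB2 (Y F) 0 t * hh chevB2 (Y F) 0 u = hh chevB2 (Y F) 0 (t * u) := by
  apply LinearEquiv.ext
  rintro ⟨x1, y1, x2, y2, z⟩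
  rw [LinearEquiv.mul_apply, h0 hu, h0 ht, h0 (mul_ne_zero ht hu)]
  refine Prod.ext ?_ (Prod.ext ?_ (Prod.ext ?_ (Prod.ext ?_ ?_))) <;> (simp only [mul_inv]; try ring)

theorem add1 (t u : F) : Y F 1 t * Y F 1 u = Y F 1 (t + u) := by
  apply LinearEquiv.ext
  rintro ⟨x1, y1, x2, y2, z⟩
  rw [LinearEquiv.mul_apply, Y1, Y1, Y1]
  refine Prod.ext ?_ (Prod.ext ?_ (Prod.ext ?_ (Prod.ext ?_ ?_))) <;> (simp only []; try ring)

theorem n1 {t : F} (ht : t ≠ 0) (x1 y1 x2 y2 z : F) : nn chevB2 (Y F) 1 t (x1, y1, x2, y2, z) =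
    (-(t⁻¹ * t⁻¹ * y1), -(t * t * x1), x2, y2, -(z)) := by
  have hn : chevB2.neg 1 = 6 := by decide +kernel
  unfold nn
  rw [hn, LinearEquiv.mul_apply, LinearEquiv.mul_apply, Y1, Y6, Y1]
  refine Prod.ext ?_ (Prod.ext ?_ (Prod.ext ?_ (Prod.ext ?_ ?_))) <;> (simp only [] <;> (try field_simp) <;> (try ring))

theorem h1 {t : F} (ht : t ≠ 0) (x1 y1 x2 y2 z : F) : hh chevB2 (Y F) 1 t (x1, y1, x2, y2, z) =
    (t⁻¹ * t⁻¹ * x1, t * t * y1, x2, y2, z) := by
  have h1 : (-1 : F) ≠ 0 := neg_ne_zero.2 one_ne_zero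
  have h2 : (-1 : F)⁻¹ = -1 := by norm_num
  unfold hh
  rw [LinearEquiv.mul_apply, n1 h1, n1 ht]
  refine Prod.ext ?_ (Prod.ext ?_ (Prod.ext ?_ (Prod.ext ?_ ?_))) <;> (simp only [h2]; try ring)

theorem mul1 {t u : F} (ht : t ≠ 0) (hu : u ≠ 0) : hh chevB2 (Y F) 1 t * hh chevB2 (Y F) 1 u = hh chevB2 (Y F) 1 (t * u) := by
  apply LinearEquiv.ext
  rintro ⟨x1, y1, x2, y2, z⟩
  rw [LinearEquiv.mul_apply, h1 hu, h1 ht, h1 (mul_ne_zero ht hu)]
  refine Prod.ext ?_ (Prod.ext ?_ (Prod.ext ?_ (Prod.ext ?_ ?_))) <;> (simp only [mul_inv]; try ring)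

theorem add2 (t u : F) : Y F 2 t * Y F 2 u = Y F 2 (t + u) := by
  apply LinearEquiv.ext
  rintro ⟨x1, y1, x2, y2, z⟩
  rw [LinearEquiv.mul_apply, Y2, Y2, Y2]
  refine Prod.ext ?_ (Prod.ext ?_ (Prod.ext ?_ (Prod.ext ?_ ?_))) <;> (simp only []; try ring)

theorem n2 {t : F} (ht : t ≠ 0) (x1 y1 x2 y2 z : F) : nn chevB2 (Y F) 2 t (x1, y1, x2, y2, z) =
    (x1, y1, -(t⁻¹ * t⁻¹ * y2), -(t * t * x2), -(z)) := by
  have hn : chevB2.neg 2 = 5 := by decide +kernel
  unfold nn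
  rw [hn, LinearEquiv.mul_apply, LinearEquiv.mul_apply, Y2, Y5, Y2]
  refine Prod.ext ?_ (Prod.ext ?_ (Prod.ext ?_ (Prod.ext ?_ ?_))) <;> (simp only [] <;> (try field_simp) <;> (try ring))

theorem h2 {t : F} (ht : t ≠ 0) (x1 y1 x2 y2 z : F) : hh chevB2 (Y F) 2 t (x1, y1, x2, y2, z) =
    (x1, y1, t⁻¹ * t⁻¹ * x2, t * t * y2, z) := by
  have h1 : (-1 : F) ≠ 0 := neg_ne_zero.2 one_ne_zero
  have h2 : (-1 : F)⁻¹ = -1 := by norm_num
  unfold hh
  rw [LinearEquiv.mul_apply, n2 h1, n2 ht]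
  refine Prod.ext ?_ (Prod.ext ?_ (Prod.ext ?_ (Prod.ext ?_ ?_))) <;> (simp only [h2]; try ring)

theorem mul2 {t u : F} (ht : t ≠ 0) (hu : u ≠ 0) : hh chevB2 (Y F) 2 t * hh chevB2 (Y F) 2 u = hh chevB2 (Y F) 2 (t * u) := by
  apply LinearEquiv.ext
  rintro ⟨x1, y1, x2, y2, z⟩
  rw [LinearEquiv.mul_apply, h2 hu, h2 ht, h2 (mul_ne_zero ht hu)]
  refine Prod.ext ?_ (Prod.ext ?_ (Prod.ext ?_ (Prod.ext ?_ ?_))) <;> (simp only [mul_inv]; try ring)

theorem add3 (t u : F) : Y F 3 t * Y F 3 u = Y F 3 (t + u) := by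
  apply LinearEquiv.ext
  rintro ⟨x1, y1, x2, y2, z⟩
  rw [LinearEquiv.mul_apply, Y3, Y3, Y3]
  refine Prod.ext ?_ (Prod.ext ?_ (Prod.ext ?_ (Prod.ext ?_ ?_))) <;> (simp only []; try ring)

theorem n3 {t : F} (ht : t ≠ 0) (x1 y1 x2 y2 z : F) : nn chevB2 (Y F) 3 t (x1, y1, x2, y2, z) =
    (t⁻¹ * x2, t * y2, -(t * x1), -(t⁻¹ * y1), z) := by
  have hn : chevB2.neg 3 = 4 := by decide +kernel
  unfold nn
  rw [hn, LinearEquiv.mul_apply, LinearEquiv.mul_apply, Y3, Y4, Y3]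
  refine Prod.ext ?_ (Prod.ext ?_ (Prod.ext ?_ (Prod.ext ?_ ?_))) <;> (simp only [] <;> (try field_simp) <;> (try ring))

theorem h3 {t : F} (ht : t ≠ 0) (x1 y1 x2 y2 z : F) : hh chevB2 (Y F) 3 t (x1, y1, x2, y2, z) =
    (t⁻¹ * x1, t * y1, t * x2, t⁻¹ * y2, z) := by
  have h1 : (-1 : F) ≠ 0 := neg_ne_zero.2 one_ne_zero
  have h2 : (-1 : F)⁻¹ = -1 := by norm_num
  unfold hh
  rw [LinearEquiv.mul_apply, n3 h1, n3 ht]
  refine Prod.ext ?_ (Prod.ext ?_ (Prod.ext ?_ (Prod.ext ?_ ?_))) <;> (simp only [h2]; try ring)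

theorem mul3 {t u : F} (ht : t ≠ 0) (hu : u ≠ 0) : hh chevB2 (Y F) 3 t * hh chevB2 (Y F) 3 u = hh chevB2 (Y F) 3 (t * u) := by
  apply LinearEquiv.ext
  rintro ⟨x1, y1, x2, y2, z⟩
  rw [LinearEquiv.mul_apply, h3 hu, h3 ht, h3 (mul_ne_zero ht hu)]
  refine Prod.ext ?_ (Prod.ext ?_ (Prod.ext ?_ (Prod.ext ?_ ?_))) <;> (simp only [mul_inv]; try ring)

theorem add4 (t u : F) : Y F 4 t * Y F 4 u = Y F 4 (t + u) := by
  apply LinearEquiv.ext
  rintro ⟨x1, y1, x2, y2, z⟩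
  rw [LinearEquiv.mul_apply, Y4, Y4, Y4]
  refine Prod.ext ?_ (Prod.ext ?_ (Prod.ext ?_ (Prod.ext ?_ ?_))) <;> (simp only []; try ring)

theorem n4 {t : F} (ht : t ≠ 0) (x1 y1 x2 y2 z : F) : nn chevB2 (Y F) 4 t (x1, y1, x2, y2, z) =
    (-(t * x2), -(t⁻¹ * y2), t⁻¹ * x1, t * y1, z) := by
  have hn : chevB2.neg 4 = 3 := by decide +kernel
  unfold nn
  rw [hn, LinearEquiv.mul_apply, LinearEquiv.mul_apply, Y4, Y3, Y4]
  refine Prod.ext ?_ (Prod.ext ?_ (Prod.ext ?_ (Prod.ext ?_ ?_))) <;> (simp only [] <;> (try field_simp) <;> (try ring))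

theorem h4 {t : F} (ht : t ≠ 0) (x1 y1 x2 y2 z : F) : hh chevB2 (Y F) 4 t (x1, y1, x2, y2, z) =
    (t * x1, t⁻¹ * y1, t⁻¹ * x2, t * y2, z) := by
  have h1 : (-1 : F) ≠ 0 := neg_ne_zero.2 one_ne_zero
  have h2 : (-1 : F)⁻¹ = -1 := by norm_num
  unfold hh
  rw [LinearEquiv.mul_apply, n4 h1, n4 ht]
  refine Prod.ext ?_ (Prod.ext ?_ (Prod.ext ?_ (Prod.ext ?_ ?_))) <;> (simp only [h2]; try ring)

theorem mul4 {t u : F} (ht : t ≠ 0) (hu : u ≠ 0) : hh chevB2 (Y F) 4 t * hh chevB2 (Y F) 4 u = hh chevB2 (Y F) 4 (t * u) := by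
  apply LinearEquiv.ext
  rintro ⟨x1, y1, x2, y2, z⟩
  rw [LinearEquiv.mul_apply, h4 hu, h4 ht, h4 (mul_ne_zero ht hu)]
  refine Prod.ext ?_ (Prod.ext ?_ (Prod.ext ?_ (Prod.ext ?_ ?_))) <;> (simp only [mul_inv]; try ring)

theorem add5 (t u : F) : Y F 5 t * Y F 5 u = Y F 5 (t + u) := by
  apply LinearEquiv.ext
  rintro ⟨x1, y1, x2, y2, z⟩
  rw [LinearEquiv.mul_apply, Y5, Y5, Y5]
  refine Prod.ext ?_ (Prod.ext ?_ (Prod.ext ?_ (Prod.ext ?_ ?_))) <;> (simp only []; try ring)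

theorem n5 {t : F} (ht : t ≠ 0) (x1 y1 x2 y2 z : F) : nn chevB2 (Y F) 5 t (x1, y1, x2, y2, z) =
    (x1, y1, -(t * t * y2), -(t⁻¹ * t⁻¹ * x2), -(z)) := by
  have hn : chevB2.neg 5 = 2 := by decide +kernel
  unfold nn
  rw [hn, LinearEquiv.mul_apply, LinearEquiv.mul_apply, Y5, Y2, Y5]
  refine Prod.ext ?_ (Prod.ext ?_ (Prod.ext ?_ (Prod.ext ?_ ?_))) <;> (simp only [] <;> (try field_simp) <;> (try ring))

theorem h5 {t : F} (ht : t ≠ 0) (x1 y1 x2 y2 z : F) : hh chevB2 (Y F) 5 t (x1, y1, x2, y2, z) =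
    (x1, y1, t * t * x2, t⁻¹ * t⁻¹ * y2, z) := by
  have h1 : (-1 : F) ≠ 0 := neg_ne_zero.2 one_ne_zero
  have h2 : (-1 : F)⁻¹ = -1 := by norm_num
  unfold hh
  rw [LinearEquiv.mul_apply, n5 h1, n5 ht]
  refine Prod.ext ?_ (Prod.ext ?_ (Prod.ext ?_ (Prod.ext ?_ ?_))) <;> (simp only [h2]; try ring)

theorem mul5 {t u : F} (ht : t ≠ 0) (hu : u ≠ 0) : hh chevB2 (Y F) 5 t * hh chevB2 (Y F) 5 u = hh chevB2 (Y F) 5 (t * u) := by
  apply LinearEquiv.ext
  rintro ⟨x1, y1, x2, y2, z⟩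
  rw [LinearEquiv.mul_apply, h5 hu, h5 ht, h5 (mul_ne_zero ht hu)]
  refine Prod.ext ?_ (Prod.ext ?_ (Prod.ext ?_ (Prod.ext ?_ ?_))) <;> (simp only [mul_inv]; try ring)

theorem add6 (t u : F) : Y F 6 t * Y F 6 u = Y F 6 (t + u) := by
  apply LinearEquiv.ext
  rintro ⟨x1, y1, x2, y2, z⟩
  rw [LinearEquiv.mul_apply, Y6, Y6, Y6]
  refine Prod.ext ?_ (Prod.ext ?_ (Prod.ext ?_ (Prod.ext ?_ ?_))) <;> (simp only []; try ring)

theorem n6 {t : F} (ht : t ≠ 0) (x1 y1 x2 y2 z : F) : nn chevB2 (Y F) 6 t (x1, y1, x2, y2, z) =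
    (-(t * t * y1), -(t⁻¹ * t⁻¹ * x1), x2, y2, -(z)) := by
  have hn : chevB2.neg 6 = 1 := by decide +kernel
  unfold nn
  rw [hn, LinearEquiv.mul_apply, LinearEquiv.mul_apply, Y6, Y1, Y6]
  refine Prod.ext ?_ (Prod.ext ?_ (Prod.ext ?_ (Prod.ext ?_ ?_))) <;> (simp only [] <;> (try field_simp) <;> (try ring))

theorem h6 {t : F} (ht : t ≠ 0) (x1 y1 x2 y2 z : F) : hh chevB2 (Y F) 6 t (x1, y1, x2, y2, z) =
    (t * t * x1, t⁻¹ * t⁻¹ * y1, x2, y2, z) := by
  have h1 : (-1 : F) ≠ 0 := neg_ne_zero.2 one_ne_zero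
  have h2 : (-1 : F)⁻¹ = -1 := by norm_num
  unfold hh
  rw [LinearEquiv.mul_apply, n6 h1, n6 ht]
  refine Prod.ext ?_ (Prod.ext ?_ (Prod.ext ?_ (Prod.ext ?_ ?_))) <;> (simp only [h2]; try ring)

theorem mul6 {t u : F} (ht : t ≠ 0) (hu : u ≠ 0) : hh chevB2 (Y F) 6 t * hh chevB2 (Y F) 6 u = hh chevB2 (Y F) 6 (t * u) := by
  apply LinearEquiv.ext
  rintro ⟨x1, y1, x2, y2, z⟩
  rw [LinearEquiv.mul_apply, h6 hu, h6 ht, h6 (mul_ne_zero ht hu)]
  refine Prod.ext ?_ (Prod.ext ?_ (Prod.ext ?_ (Prod.ext ?_ ?_))) <;> (simp only [mul_inv]; try ring)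

theorem add7 (t u : F) : Y F 7 t * Y F 7 u = Y F 7 (t + u) := by
  apply LinearEquiv.ext
  rintro ⟨x1, y1, x2, y2, z⟩
  rw [LinearEquiv.mul_apply, Y7, Y7, Y7]
  refine Prod.ext ?_ (Prod.ext ?_ (Prod.ext ?_ (Prod.ext ?_ ?_))) <;> (simp only []; try ring)

theorem n7 {t : F} (ht : t ≠ 0) (x1 y1 x2 y2 z : F) : nn chevB2 (Y F) 7 t (x1, y1, x2, y2, z) =
    (-(t * y2), -(t⁻¹ * x2), t * y1, t⁻¹ * x1, z) := by
  have hn : chevB2.neg 7 = 0 := by decide +kernel
  unfold nn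
  rw [hn, LinearEquiv.mul_apply, LinearEquiv.mul_apply, Y7, Y0, Y7]
  refine Prod.ext ?_ (Prod.ext ?_ (Prod.ext ?_ (Prod.ext ?_ ?_))) <;> (simp only [] <;> (try field_simp) <;> (try ring))

theorem h7 {t : F} (ht : t ≠ 0) (x1 y1 x2 y2 z : F) : hh chevB2 (Y F) 7 t (x1, y1, x2, y2, z) =
    (t * x1, t⁻¹ * y1, t * x2, t⁻¹ * y2, z) := by
  have h1 : (-1 : F) ≠ 0 := neg_ne_zero.2 one_ne_zero
  have h2 : (-1 : F)⁻¹ = -1 := by norm_num
  unfold hh
  rw [LinearEquiv.mul_apply, n7 h1, n7 ht]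
  refine Prod.ext ?_ (Prod.ext ?_ (Prod.ext ?_ (Prod.ext ?_ ?_))) <;> (simp only [h2]; try ring)

theorem mul7 {t u : F} (ht : t ≠ 0) (hu : u ≠ 0) : hh chevB2 (Y F) 7 t * hh chevB2 (Y F) 7 u = hh chevB2 (Y F) 7 (t * u) := by
  apply LinearEquiv.ext
  rintro ⟨x1, y1, x2, y2, z⟩
  rw [LinearEquiv.mul_apply, h7 hu, h7 ht, h7 (mul_ne_zero ht hu)]
  refine Prod.ext ?_ (Prod.ext ?_ (Prod.ext ?_ (Prod.ext ?_ ?_))) <;> (simp only [mul_inv]; try ring)

theorem c0_1 (t u : F) : Y F 1 u * Y F 0 t = Y F 0 t * Y F 1 u * wp (Y F) (chevB2.commWord F 0 1 t u) := by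
  have hct : chevB2.commTerms 0 1 = [] := by decide +kernel
  unfold wp ChevalleyDatum.commWord
  rw [hct]
  simp only [List.map_cons, List.map_nil, List.prod_cons, List.prod_nil, mul_one, pow_one]
  apply LinearEquiv.ext
  rintro ⟨x1, y1, x2, y2, z⟩
  simp only [LinearEquiv.mul_apply, Y0, Y1]
  refine Prod.ext ?_ (Prod.ext ?_ (Prod.ext ?_ (Prod.ext ?_ ?_))) <;> (simp only []; try (push_cast; ring))

theorem c0_2 (t u : F) : Y F 2 u * Y F 0 t = Y F 0 t * Y F 2 u * wp (Y F) (chevB2.commWord F 0 2 t u) := by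
  have hct : chevB2.commTerms 0 2 = [] := by decide +kernel
  unfold wp ChevalleyDatum.commWord
  rw [hct]
  simp only [List.map_cons, List.map_nil, List.prod_cons, List.prod_nil, mul_one, pow_one]
  apply LinearEquiv.ext
  rintro ⟨x1, y1, x2, y2, z⟩
  simp only [LinearEquiv.mul_apply, Y0, Y2]
  refine Prod.ext ?_ (Prod.ext ?_ (Prod.ext ?_ (Prod.ext ?_ ?_))) <;> (simp only []; try (push_cast; ring))

theorem c0_3 (t u : F) : Y F 3 u * Y F 0 t = Y F 0 t * Y F 3 u * wp (Y F) (chevB2.commWord F 0 3 t u) := by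
  have hct : chevB2.commTerms 0 3 = [] := by decide +kernel
  unfold wp ChevalleyDatum.commWord
  rw [hct]
  simp only [List.map_cons, List.map_nil, List.prod_cons, List.prod_nil, mul_one, pow_one]
  apply LinearEquiv.ext
  rintro ⟨x1, y1, x2, y2, z⟩
  simp only [LinearEquiv.mul_apply, Y0, Y3]
  refine Prod.ext ?_ (Prod.ext ?_ (Prod.ext ?_ (Prod.ext ?_ ?_))) <;> (simp only []; try (push_cast; ring))

theorem c0_4 (t u : F) : Y F 4 u * Y F 0 t = Y F 0 t * Y F 4 u * wp (Y F) (chevB2.commWord F 0 4 t u) := by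
  have hct : chevB2.commTerms 0 4 = [] := by decide +kernel
  unfold wp ChevalleyDatum.commWord
  rw [hct]
  simp only [List.map_cons, List.map_nil, List.prod_cons, List.prod_nil, mul_one, pow_one]
  apply LinearEquiv.ext
  rintro ⟨x1, y1, x2, y2, z⟩
  simp only [LinearEquiv.mul_apply, Y0, Y4]
  refine Prod.ext ?_ (Prod.ext ?_ (Prod.ext ?_ (Prod.ext ?_ ?_))) <;> (simp only []; try (push_cast; ring))

theorem c0_5 (t u : F) : Y F 5 u * Y F 0 t = Y F 0 t * Y F 5 u * wp (Y F) (chevB2.commWord F 0 5 t u) := by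
  have hct : chevB2.commTerms 0 5 = [(1, 1, 1, 1), (3, -1, 1, 2)] := by decide +kernel
  unfold wp ChevalleyDatum.commWord
  rw [hct]
  simp only [List.map_cons, List.map_nil, List.prod_cons, List.prod_nil, mul_one, pow_one]
  apply LinearEquiv.ext
  rintro ⟨x1, y1, x2, y2, z⟩
  simp only [LinearEquiv.mul_apply, Y0, Y1, Y3, Y5]
  refine Prod.ext ?_ (Prod.ext ?_ (Prod.ext ?_ (Prod.ext ?_ ?_))) <;> (simp only []; try (push_cast; ring))

theorem c0_6 (t u : F) : Y F 6 u * Y F 0 t = Y F 0 t * Y F 6 u * wp (Y F) (chevB2.commWord F 0 6 t u) := by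
  have hct : chevB2.commTerms 0 6 = [(2, -1, 1, 1), (4, 1, 1, 2)] := by decide +kernel
  unfold wp ChevalleyDatum.commWord
  rw [hct]
  simp only [List.map_cons, List.map_nil, List.prod_cons, List.prod_nil, mul_one, pow_one]
  apply LinearEquiv.ext
  rintro ⟨x1, y1, x2, y2, z⟩
  simp only [LinearEquiv.mul_apply, Y0, Y2, Y4, Y6]
  refine Prod.ext ?_ (Prod.ext ?_ (Prod.ext ?_ (Prod.ext ?_ ?_))) <;> (simp only []; try (push_cast; ring))

theorem c1_0 (t u : F) : Y F 0 u * Y F 1 t = Y F 1 t * Y F 0 u * wp (Y F) (chevB2.commWord F 1 0 t u) := by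
  have hct : chevB2.commTerms 1 0 = [] := by decide +kernel
  unfold wp ChevalleyDatum.commWord
  rw [hct]
  simp only [List.map_cons, List.map_nil, List.prod_cons, List.prod_nil, mul_one, pow_one]
  apply LinearEquiv.ext
  rintro ⟨x1, y1, x2, y2, z⟩
  simp only [LinearEquiv.mul_apply, Y0, Y1]
  refine Prod.ext ?_ (Prod.ext ?_ (Prod.ext ?_ (Prod.ext ?_ ?_))) <;> (simp only []; try (push_cast; ring))

theorem c1_2 (t u : F) : Y F 2 u * Y F 1 t = Y F 1 t * Y F 2 u * wp (Y F) (chevB2.commWord F 1 2 t u) := by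
  have hct : chevB2.commTerms 1 2 = [(0, 2, 1, 1)] := by decide +kernel
  unfold wp ChevalleyDatum.commWord
  rw [hct]
  simp only [List.map_cons, List.map_nil, List.prod_cons, List.prod_nil, mul_one, pow_one]
  apply LinearEquiv.ext
  rintro ⟨x1, y1, x2, y2, z⟩
  simp only [LinearEquiv.mul_apply, Y0, Y1, Y2]
  refine Prod.ext ?_ (Prod.ext ?_ (Prod.ext ?_ (Prod.ext ?_ ?_))) <;> (simp only []; try (push_cast; ring))

theorem c1_3 (t u : F) : Y F 3 u * Y F 1 t = Y F 1 t * Y F 3 u * wp (Y F) (chevB2.commWord F 1 3 t u) := by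
  have hct : chevB2.commTerms 1 3 = [] := by decide +kernel
  unfold wp ChevalleyDatum.commWord
  rw [hct]
  simp only [List.map_cons, List.map_nil, List.prod_cons, List.prod_nil, mul_one, pow_one]
  apply LinearEquiv.ext
  rintro ⟨x1, y1, x2, y2, z⟩
  simp only [LinearEquiv.mul_apply, Y1, Y3]
  refine Prod.ext ?_ (Prod.ext ?_ (Prod.ext ?_ (Prod.ext ?_ ?_))) <;> (simp only []; try (push_cast; ring))

theorem c1_4 (t u : F) : Y F 4 u * Y F 1 t = Y F 1 t * Y F 4 u * wp (Y F) (chevB2.commWord F 1 4 t u) := by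
  have hct : chevB2.commTerms 1 4 = [(2, 1, 1, 1), (0, 1, 2, 1)] := by decide +kernel
  unfold wp ChevalleyDatum.commWord
  rw [hct]
  simp only [List.map_cons, List.map_nil, List.prod_cons, List.prod_nil, mul_one, pow_one]
  apply LinearEquiv.ext
  rintro ⟨x1, y1, x2, y2, z⟩
  simp only [LinearEquiv.mul_apply, Y0, Y1, Y2, Y4]
  refine Prod.ext ?_ (Prod.ext ?_ (Prod.ext ?_ (Prod.ext ?_ ?_))) <;> (simp only []; try (push_cast; ring))

theorem c1_5 (t u : F) : Y F 5 u * Y F 1 t = Y F 1 t * Y F 5 u * wp (Y F) (chevB2.commWord F 1 5 t u) := by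
  have hct : chevB2.commTerms 1 5 = [(3, -2, 1, 1)] := by decide +kernel
  unfold wp ChevalleyDatum.commWord
  rw [hct]
  simp only [List.map_cons, List.map_nil, List.prod_cons, List.prod_nil, mul_one, pow_one]
  apply LinearEquiv.ext
  rintro ⟨x1, y1, x2, y2, z⟩
  simp only [LinearEquiv.mul_apply, Y1, Y3, Y5]
  refine Prod.ext ?_ (Prod.ext ?_ (Prod.ext ?_ (Prod.ext ?_ ?_))) <;> (simp only []; try (push_cast; ring))

theorem c1_7 (t u : F) : Y F 7 u * Y F 1 t = Y F 1 t * Y F 7 u * wp (Y F) (chevB2.commWord F 1 7 t u) := by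
  have hct : chevB2.commTerms 1 7 = [(5, -1, 1, 1), (3, 1, 2, 1)] := by decide +kernel
  unfold wp ChevalleyDatum.commWord
  rw [hct]
  simp only [List.map_cons, List.map_nil, List.prod_cons, List.prod_nil, mul_one, pow_one]
  apply LinearEquiv.ext
  rintro ⟨x1, y1, x2, y2, z⟩
  simp only [LinearEquiv.mul_apply, Y1, Y3, Y5, Y7]
  refine Prod.ext ?_ (Prod.ext ?_ (Prod.ext ?_ (Prod.ext ?_ ?_))) <;> (simp only []; try (push_cast; ring))

theorem c2_0 (t u : F) : Y F 0 u * Y F 2 t = Y F 2 t * Y F 0 u * wp (Y F) (chevB2.commWord F 2 0 t u) := by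
  have hct : chevB2.commTerms 2 0 = [] := by decide +kernel
  unfold wp ChevalleyDatum.commWord
  rw [hct]
  simp only [List.map_cons, List.map_nil, List.prod_cons, List.prod_nil, mul_one, pow_one]
  apply LinearEquiv.ext
  rintro ⟨x1, y1, x2, y2, z⟩
  simp only [LinearEquiv.mul_apply, Y0, Y2]
  refine Prod.ext ?_ (Prod.ext ?_ (Prod.ext ?_ (Prod.ext ?_ ?_))) <;> (simp only []; try (push_cast; ring))

theorem c2_1 (t u : F) : Y F 1 u * Y F 2 t = Y F 2 t * Y F 1 u * wp (Y F) (chevB2.commWord F 2 1 t u) := by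
  have hct : chevB2.commTerms 2 1 = [(0, -2, 1, 1)] := by decide +kernel
  unfold wp ChevalleyDatum.commWord
  rw [hct]
  simp only [List.map_cons, List.map_nil, List.prod_cons, List.prod_nil, mul_one, pow_one]
  apply LinearEquiv.ext
  rintro ⟨x1, y1, x2, y2, z⟩
  simp only [LinearEquiv.mul_apply, Y0, Y1, Y2]
  refine Prod.ext ?_ (Prod.ext ?_ (Prod.ext ?_ (Prod.ext ?_ ?_))) <;> (simp only []; try (push_cast; ring))

theorem c2_3 (t u : F) : Y F 3 u * Y F 2 t = Y F 2 t * Y F 3 u * wp (Y F) (chevB2.commWord F 2 3 t u) := by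
  have hct : chevB2.commTerms 2 3 = [(1, 1, 1, 1), (0, -1, 2, 1)] := by decide +kernel
  unfold wp ChevalleyDatum.commWord
  rw [hct]
  simp only [List.map_cons, List.map_nil, List.prod_cons, List.prod_nil, mul_one, pow_one]
  apply LinearEquiv.ext
  rintro ⟨x1, y1, x2, y2, z⟩
  simp only [LinearEquiv.mul_apply, Y0, Y1, Y2, Y3]
  refine Prod.ext ?_ (Prod.ext ?_ (Prod.ext ?_ (Prod.ext ?_ ?_))) <;> (simp only []; try (push_cast; ring))

theorem c2_4 (t u : F) : Y F 4 u * Y F 2 t = Y F 2 t * Y F 4 u * wp (Y F) (chevB2.commWord F 2 4 t u) := by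
  have hct : chevB2.commTerms 2 4 = [] := by decide +kernel
  unfold wp ChevalleyDatum.commWord
  rw [hct]
  simp only [List.map_cons, List.map_nil, List.prod_cons, List.prod_nil, mul_one, pow_one]
  apply LinearEquiv.ext
  rintro ⟨x1, y1, x2, y2, z⟩
  simp only [LinearEquiv.mul_apply, Y2, Y4]
  refine Prod.ext ?_ (Prod.ext ?_ (Prod.ext ?_ (Prod.ext ?_ ?_))) <;> (simp only []; try (push_cast; ring))

theorem c2_6 (t u : F) : Y F 6 u * Y F 2 t = Y F 2 t * Y F 6 u * wp (Y F) (chevB2.commWord F 2 6 t u) := by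
  have hct : chevB2.commTerms 2 6 = [(4, -2, 1, 1)] := by decide +kernel
  unfold wp ChevalleyDatum.commWord
  rw [hct]
  simp only [List.map_cons, List.map_nil, List.prod_cons, List.prod_nil, mul_one, pow_one]
  apply LinearEquiv.ext
  rintro ⟨x1, y1, x2, y2, z⟩
  simp only [LinearEquiv.mul_apply, Y2, Y4, Y6]
  refine Prod.ext ?_ (Prod.ext ?_ (Prod.ext ?_ (Prod.ext ?_ ?_))) <;> (simp only []; try (push_cast; ring))

theorem c2_7 (t u : F) : Y F 7 u * Y F 2 t = Y F 2 t * Y F 7 u * wp (Y F) (chevB2.commWord F 2 7 t u) := by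
  have hct : chevB2.commTerms 2 7 = [(6, 1, 1, 1), (4, -1, 2, 1)] := by decide +kernel
  unfold wp ChevalleyDatum.commWord
  rw [hct]
  simp only [List.map_cons, List.map_nil, List.prod_cons, List.prod_nil, mul_one, pow_one]
  apply LinearEquiv.ext
  rintro ⟨x1, y1, x2, y2, z⟩
  simp only [LinearEquiv.mul_apply, Y2, Y4, Y6, Y7]
  refine Prod.ext ?_ (Prod.ext ?_ (Prod.ext ?_ (Prod.ext ?_ ?_))) <;> (simp only []; try (push_cast; ring))

theorem c3_0 (t u : F) : Y F 0 u * Y F 3 t = Y F 3 t * Y F 0 u * wp (Y F) (chevB2.commWord F 3 0 t u) := by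
  have hct : chevB2.commTerms 3 0 = [] := by decide +kernel
  unfold wp ChevalleyDatum.commWord
  rw [hct]
  simp only [List.map_cons, List.map_nil, List.prod_cons, List.prod_nil, mul_one, pow_one]
  apply LinearEquiv.ext
  rintro ⟨x1, y1, x2, y2, z⟩
  simp only [LinearEquiv.mul_apply, Y0, Y3]
  refine Prod.ext ?_ (Prod.ext ?_ (Prod.ext ?_ (Prod.ext ?_ ?_))) <;> (simp only []; try (push_cast; ring))

theorem c3_1 (t u : F) : Y F 1 u * Y F 3 t = Y F 3 t * Y F 1 u * wp (Y F) (chevB2.commWord F 3 1 t u) := by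
  have hct : chevB2.commTerms 3 1 = [] := by decide +kernel
  unfold wp ChevalleyDatum.commWord
  rw [hct]
  simp only [List.map_cons, List.map_nil, List.prod_cons, List.prod_nil, mul_one, pow_one]
  apply LinearEquiv.ext
  rintro ⟨x1, y1, x2, y2, z⟩
  simp only [LinearEquiv.mul_apply, Y1, Y3]
  refine Prod.ext ?_ (Prod.ext ?_ (Prod.ext ?_ (Prod.ext ?_ ?_))) <;> (simp only []; try (push_cast; ring))

theorem c3_2 (t u : F) : Y F 2 u * Y F 3 t = Y F 3 t * Y F 2 u * wp (Y F) (chevB2.commWord F 3 2 t u) := by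
  have hct : chevB2.commTerms 3 2 = [(1, -1, 1, 1), (0, -1, 1, 2)] := by decide +kernel
  unfold wp ChevalleyDatum.commWord
  rw [hct]
  simp only [List.map_cons, List.map_nil, List.prod_cons, List.prod_nil, mul_one, pow_one]
  apply LinearEquiv.ext
  rintro ⟨x1, y1, x2, y2, z⟩
  simp only [LinearEquiv.mul_apply, Y0, Y1, Y2, Y3]
  refine Prod.ext ?_ (Prod.ext ?_ (Prod.ext ?_ (Prod.ext ?_ ?_))) <;> (simp only []; try (push_cast; ring))

theorem c3_5 (t u : F) : Y F 5 u * Y F 3 t = Y F 3 t * Y F 5 u * wp (Y F) (chevB2.commWord F 3 5 t u) := by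
  have hct : chevB2.commTerms 3 5 = [] := by decide +kernel
  unfold wp ChevalleyDatum.commWord
  rw [hct]
  simp only [List.map_cons, List.map_nil, List.prod_cons, List.prod_nil, mul_one, pow_one]
  apply LinearEquiv.ext
  rintro ⟨x1, y1, x2, y2, z⟩
  simp only [LinearEquiv.mul_apply, Y3, Y5]
  refine Prod.ext ?_ (Prod.ext ?_ (Prod.ext ?_ (Prod.ext ?_ ?_))) <;> (simp only []; try (push_cast; ring))

theorem c3_6 (t u : F) : Y F 6 u * Y F 3 t = Y F 3 t * Y F 6 u * wp (Y F) (chevB2.commWord F 3 6 t u) := by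
  have hct : chevB2.commTerms 3 6 = [(5, 1, 1, 1), (7, 1, 1, 2)] := by decide +kernel
  unfold wp ChevalleyDatum.commWord
  rw [hct]
  simp only [List.map_cons, List.map_nil, List.prod_cons, List.prod_nil, mul_one, pow_one]
  apply LinearEquiv.ext
  rintro ⟨x1, y1, x2, y2, z⟩
  simp only [LinearEquiv.mul_apply, Y3, Y5, Y6, Y7]
  refine Prod.ext ?_ (Prod.ext ?_ (Prod.ext ?_ (Prod.ext ?_ ?_))) <;> (simp only []; try (push_cast; ring))

theorem c3_7 (t u : F) : Y F 7 u * Y F 3 t = Y F 3 t * Y F 7 u * wp (Y F) (chevB2.commWord F 3 7 t u) := by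
  have hct : chevB2.commTerms 3 7 = [] := by decide +kernel
  unfold wp ChevalleyDatum.commWord
  rw [hct]
  simp only [List.map_cons, List.map_nil, List.prod_cons, List.prod_nil, mul_one, pow_one]
  apply LinearEquiv.ext
  rintro ⟨x1, y1, x2, y2, z⟩
  simp only [LinearEquiv.mul_apply, Y3, Y7]
  refine Prod.ext ?_ (Prod.ext ?_ (Prod.ext ?_ (Prod.ext ?_ ?_))) <;> (simp only []; try (push_cast; ring))

theorem c4_0 (t u : F) : Y F 0 u * Y F 4 t = Y F 4 t * Y F 0 u * wp (Y F) (chevB2.commWord F 4 0 t u) := by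
  have hct : chevB2.commTerms 4 0 = [] := by decide +kernel
  unfold wp ChevalleyDatum.commWord
  rw [hct]
  simp only [List.map_cons, List.map_nil, List.prod_cons, List.prod_nil, mul_one, pow_one]
  apply LinearEquiv.ext
  rintro ⟨x1, y1, x2, y2, z⟩
  simp only [LinearEquiv.mul_apply, Y0, Y4]
  refine Prod.ext ?_ (Prod.ext ?_ (Prod.ext ?_ (Prod.ext ?_ ?_))) <;> (simp only []; try (push_cast; ring))

theorem c4_1 (t u : F) : Y F 1 u * Y F 4 t = Y F 4 t * Y F 1 u * wp (Y F) (chevB2.commWord F 4 1 t u) := by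
  have hct : chevB2.commTerms 4 1 = [(2, -1, 1, 1), (0, 1, 1, 2)] := by decide +kernel
  unfold wp ChevalleyDatum.commWord
  rw [hct]
  simp only [List.map_cons, List.map_nil, List.prod_cons, List.prod_nil, mul_one, pow_one]
  apply LinearEquiv.ext
  rintro ⟨x1, y1, x2, y2, z⟩
  simp only [LinearEquiv.mul_apply, Y0, Y1, Y2, Y4]
  refine Prod.ext ?_ (Prod.ext ?_ (Prod.ext ?_ (Prod.ext ?_ ?_))) <;> (simp only []; try (push_cast; ring))

theorem c4_2 (t u : F) : Y F 2 u * Y F 4 t = Y F 4 t * Y F 2 u * wp (Y F) (chevB2.commWord F 4 2 t u) := by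
  have hct : chevB2.commTerms 4 2 = [] := by decide +kernel
  unfold wp ChevalleyDatum.commWord
  rw [hct]
  simp only [List.map_cons, List.map_nil, List.prod_cons, List.prod_nil, mul_one, pow_one]
  apply LinearEquiv.ext
  rintro ⟨x1, y1, x2, y2, z⟩
  simp only [LinearEquiv.mul_apply, Y2, Y4]
  refine Prod.ext ?_ (Prod.ext ?_ (Prod.ext ?_ (Prod.ext ?_ ?_))) <;> (simp only []; try (push_cast; ring))

theorem c4_5 (t u : F) : Y F 5 u * Y F 4 t = Y F 4 t * Y F 5 u * wp (Y F) (chevB2.commWord F 4 5 t u) := by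
  have hct : chevB2.commTerms 4 5 = [(6, 1, 1, 1), (7, -1, 1, 2)] := by decide +kernel
  unfold wp ChevalleyDatum.commWord
  rw [hct]
  simp only [List.map_cons, List.map_nil, List.prod_cons, List.prod_nil, mul_one, pow_one]
  apply LinearEquiv.ext
  rintro ⟨x1, y1, x2, y2, z⟩
  simp only [LinearEquiv.mul_apply, Y4, Y5, Y6, Y7]
  refine Prod.ext ?_ (Prod.ext ?_ (Prod.ext ?_ (Prod.ext ?_ ?_))) <;> (simp only []; try (push_cast; ring))

theorem c4_6 (t u : F) : Y F 6 u * Y F 4 t = Y F 4 t * Y F 6 u * wp (Y F) (chevB2.commWord F 4 6 t u) := by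
  have hct : chevB2.commTerms 4 6 = [] := by decide +kernel
  unfold wp ChevalleyDatum.commWord
  rw [hct]
  simp only [List.map_cons, List.map_nil, List.prod_cons, List.prod_nil, mul_one, pow_one]
  apply LinearEquiv.ext
  rintro ⟨x1, y1, x2, y2, z⟩
  simp only [LinearEquiv.mul_apply, Y4, Y6]
  refine Prod.ext ?_ (Prod.ext ?_ (Prod.ext ?_ (Prod.ext ?_ ?_))) <;> (simp only []; try (push_cast; ring))

theorem c4_7 (t u : F) : Y F 7 u * Y F 4 t = Y F 4 t * Y F 7 u * wp (Y F) (chevB2.commWord F 4 7 t u) := by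
  have hct : chevB2.commTerms 4 7 = [] := by decide +kernel
  unfold wp ChevalleyDatum.commWord
  rw [hct]
  simp only [List.map_cons, List.map_nil, List.prod_cons, List.prod_nil, mul_one, pow_one]
  apply LinearEquiv.ext
  rintro ⟨x1, y1, x2, y2, z⟩
  simp only [LinearEquiv.mul_apply, Y4, Y7]
  refine Prod.ext ?_ (Prod.ext ?_ (Prod.ext ?_ (Prod.ext ?_ ?_))) <;> (simp only []; try (push_cast; ring))

theorem c5_0 (t u : F) : Y F 0 u * Y F 5 t = Y F 5 t * Y F 0 u * wp (Y F) (chevB2.commWord F 5 0 t u) := by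
  have hct : chevB2.commTerms 5 0 = [(1, -1, 1, 1), (3, -1, 2, 1)] := by decide +kernel
  unfold wp ChevalleyDatum.commWord
  rw [hct]
  simp only [List.map_cons, List.map_nil, List.prod_cons, List.prod_nil, mul_one, pow_one]
  apply LinearEquiv.ext
  rintro ⟨x1, y1, x2, y2, z⟩
  simp only [LinearEquiv.mul_apply, Y0, Y1, Y3, Y5]
  refine Prod.ext ?_ (Prod.ext ?_ (Prod.ext ?_ (Prod.ext ?_ ?_))) <;> (simp only []; try (push_cast; ring))

theorem c5_1 (t u : F) : Y F 1 u * Y F 5 t = Y F 5 t * Y F 1 u * wp (Y F) (chevB2.commWord F 5 1 t u) := by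
  have hct : chevB2.commTerms 5 1 = [(3, 2, 1, 1)] := by decide +kernel
  unfold wp ChevalleyDatum.commWord
  rw [hct]
  simp only [List.map_cons, List.map_nil, List.prod_cons, List.prod_nil, mul_one, pow_one]
  apply LinearEquiv.ext
  rintro ⟨x1, y1, x2, y2, z⟩
  simp only [LinearEquiv.mul_apply, Y1, Y3, Y5]
  refine Prod.ext ?_ (Prod.ext ?_ (Prod.ext ?_ (Prod.ext ?_ ?_))) <;> (simp only []; try (push_cast; ring))

theorem c5_3 (t u : F) : Y F 3 u * Y F 5 t = Y F 5 t * Y F 3 u * wp (Y F) (chevB2.commWord F 5 3 t u) := by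
  have hct : chevB2.commTerms 5 3 = [] := by decide +kernel
  unfold wp ChevalleyDatum.commWord
  rw [hct]
  simp only [List.map_cons, List.map_nil, List.prod_cons, List.prod_nil, mul_one, pow_one]
  apply LinearEquiv.ext
  rintro ⟨x1, y1, x2, y2, z⟩
  simp only [LinearEquiv.mul_apply, Y3, Y5]
  refine Prod.ext ?_ (Prod.ext ?_ (Prod.ext ?_ (Prod.ext ?_ ?_))) <;> (simp only []; try (push_cast; ring))

theorem c5_4 (t u : F) : Y F 4 u * Y F 5 t = Y F 5 t * Y F 4 u * wp (Y F) (chevB2.commWord F 5 4 t u) := by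
  have hct : chevB2.commTerms 5 4 = [(6, -1, 1, 1), (7, -1, 2, 1)] := by decide +kernel
  unfold wp ChevalleyDatum.commWord
  rw [hct]
  simp only [List.map_cons, List.map_nil, List.prod_cons, List.prod_nil, mul_one, pow_one]
  apply LinearEquiv.ext
  rintro ⟨x1, y1, x2, y2, z⟩
  simp only [LinearEquiv.mul_apply, Y4, Y5, Y6, Y7]
  refine Prod.ext ?_ (Prod.ext ?_ (Prod.ext ?_ (Prod.ext ?_ ?_))) <;> (simp only []; try (push_cast; ring))

theorem c5_6 (t u : F) : Y F 6 u * Y F 5 t = Y F 5 t * Y F 6 u * wp (Y F) (chevB2.commWord F 5 6 t u) := by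
  have hct : chevB2.commTerms 5 6 = [(7, 2, 1, 1)] := by decide +kernel
  unfold wp ChevalleyDatum.commWord
  rw [hct]
  simp only [List.map_cons, List.map_nil, List.prod_cons, List.prod_nil, mul_one, pow_one]
  apply LinearEquiv.ext
  rintro ⟨x1, y1, x2, y2, z⟩
  simp only [LinearEquiv.mul_apply, Y5, Y6, Y7]
  refine Prod.ext ?_ (Prod.ext ?_ (Prod.ext ?_ (Prod.ext ?_ ?_))) <;> (simp only []; try (push_cast; ring))

theorem c5_7 (t u : F) : Y F 7 u * Y F 5 t = Y F 5 t * Y F 7 u * wp (Y F) (chevB2.commWord F 5 7 t u) := by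
  have hct : chevB2.commTerms 5 7 = [] := by decide +kernel
  unfold wp ChevalleyDatum.commWord
  rw [hct]
  simp only [List.map_cons, List.map_nil, List.prod_cons, List.prod_nil, mul_one, pow_one]
  apply LinearEquiv.ext
  rintro ⟨x1, y1, x2, y2, z⟩
  simp only [LinearEquiv.mul_apply, Y5, Y7]
  refine Prod.ext ?_ (Prod.ext ?_ (Prod.ext ?_ (Prod.ext ?_ ?_))) <;> (simp only []; try (push_cast; ring))

theorem c6_0 (t u : F) : Y F 0 u * Y F 6 t = Y F 6 t * Y F 0 u * wp (Y F) (chevB2.commWord F 6 0 t u) := by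
  have hct : chevB2.commTerms 6 0 = [(2, 1, 1, 1), (4, 1, 2, 1)] := by decide +kernel
  unfold wp ChevalleyDatum.commWord
  rw [hct]
  simp only [List.map_cons, List.map_nil, List.prod_cons, List.prod_nil, mul_one, pow_one]
  apply LinearEquiv.ext
  rintro ⟨x1, y1, x2, y2, z⟩
  simp only [LinearEquiv.mul_apply, Y0, Y2, Y4, Y6]
  refine Prod.ext ?_ (Prod.ext ?_ (Prod.ext ?_ (Prod.ext ?_ ?_))) <;> (simp only []; try (push_cast; ring))

theorem c6_2 (t u : F) : Y F 2 u * Y F 6 t = Y F 6 t * Y F 2 u * wp (Y F) (chevB2.commWord F 6 2 t u) := by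
  have hct : chevB2.commTerms 6 2 = [(4, 2, 1, 1)] := by decide +kernel
  unfold wp ChevalleyDatum.commWord
  rw [hct]
  simp only [List.map_cons, List.map_nil, List.prod_cons, List.prod_nil, mul_one, pow_one]
  apply LinearEquiv.ext
  rintro ⟨x1, y1, x2, y2, z⟩
  simp only [LinearEquiv.mul_apply, Y2, Y4, Y6]
  refine Prod.ext ?_ (Prod.ext ?_ (Prod.ext ?_ (Prod.ext ?_ ?_))) <;> (simp only []; try (push_cast; ring))

theorem c6_3 (t u : F) : Y F 3 u * Y F 6 t = Y F 6 t * Y F 3 u * wp (Y F) (chevB2.commWord F 6 3 t u) := by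
  have hct : chevB2.commTerms 6 3 = [(5, -1, 1, 1), (7, 1, 2, 1)] := by decide +kernel
  unfold wp ChevalleyDatum.commWord
  rw [hct]
  simp only [List.map_cons, List.map_nil, List.prod_cons, List.prod_nil, mul_one, pow_one]
  apply LinearEquiv.ext
  rintro ⟨x1, y1, x2, y2, z⟩
  simp only [LinearEquiv.mul_apply, Y3, Y5, Y6, Y7]
  refine Prod.ext ?_ (Prod.ext ?_ (Prod.ext ?_ (Prod.ext ?_ ?_))) <;> (simp only []; try (push_cast; ring))

theorem c6_4 (t u : F) : Y F 4 u * Y F 6 t = Y F 6 t * Y F 4 u * wp (Y F) (chevB2.commWord F 6 4 t u) := by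
  have hct : chevB2.commTerms 6 4 = [] := by decide +kernel
  unfold wp ChevalleyDatum.commWord
  rw [hct]
  simp only [List.map_cons, List.map_nil, List.prod_cons, List.prod_nil, mul_one, pow_one]
  apply LinearEquiv.ext
  rintro ⟨x1, y1, x2, y2, z⟩
  simp only [LinearEquiv.mul_apply, Y4, Y6]
  refine Prod.ext ?_ (Prod.ext ?_ (Prod.ext ?_ (Prod.ext ?_ ?_))) <;> (simp only []; try (push_cast; ring))

theorem c6_5 (t u : F) : Y F 5 u * Y F 6 t = Y F 6 t * Y F 5 u * wp (Y F) (chevB2.commWord F 6 5 t u) := by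
  have hct : chevB2.commTerms 6 5 = [(7, -2, 1, 1)] := by decide +kernel
  unfold wp ChevalleyDatum.commWord
  rw [hct]
  simp only [List.map_cons, List.map_nil, List.prod_cons, List.prod_nil, mul_one, pow_one]
  apply LinearEquiv.ext
  rintro ⟨x1, y1, x2, y2, z⟩
  simp only [LinearEquiv.mul_apply, Y5, Y6, Y7]
  refine Prod.ext ?_ (Prod.ext ?_ (Prod.ext ?_ (Prod.ext ?_ ?_))) <;> (simp only []; try (push_cast; ring))

theorem c6_7 (t u : F) : Y F 7 u * Y F 6 t = Y F 6 t * Y F 7 u * wp (Y F) (chevB2.commWord F 6 7 t u) := by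
  have hct : chevB2.commTerms 6 7 = [] := by decide +kernel
  unfold wp ChevalleyDatum.commWord
  rw [hct]
  simp only [List.map_cons, List.map_nil, List.prod_cons, List.prod_nil, mul_one, pow_one]
  apply LinearEquiv.ext
  rintro ⟨x1, y1, x2, y2, z⟩
  simp only [LinearEquiv.mul_apply, Y6, Y7]
  refine Prod.ext ?_ (Prod.ext ?_ (Prod.ext ?_ (Prod.ext ?_ ?_))) <;> (simp only []; try (push_cast; ring))

theorem c7_1 (t u : F) : Y F 1 u * Y F 7 t = Y F 7 t * Y F 1 u * wp (Y F) (chevB2.commWord F 7 1 t u) := by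
  have hct : chevB2.commTerms 7 1 = [(5, 1, 1, 1), (3, 1, 1, 2)] := by decide +kernel
  unfold wp ChevalleyDatum.commWord
  rw [hct]
  simp only [List.map_cons, List.map_nil, List.prod_cons, List.prod_nil, mul_one, pow_one]
  apply LinearEquiv.ext
  rintro ⟨x1, y1, x2, y2, z⟩
  simp only [LinearEquiv.mul_apply, Y1, Y3, Y5, Y7]
  refine Prod.ext ?_ (Prod.ext ?_ (Prod.ext ?_ (Prod.ext ?_ ?_))) <;> (simp only []; try (push_cast; ring))

theorem c7_2 (t u : F) : Y F 2 u * Y F 7 t = Y F 7 t * Y F 2 u * wp (Y F) (chevB2.commWord F 7 2 t u) := by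
  have hct : chevB2.commTerms 7 2 = [(6, -1, 1, 1), (4, -1, 1, 2)] := by decide +kernel
  unfold wp ChevalleyDatum.commWord
  rw [hct]
  simp only [List.map_cons, List.map_nil, List.prod_cons, List.prod_nil, mul_one, pow_one]
  apply LinearEquiv.ext
  rintro ⟨x1, y1, x2, y2, z⟩
  simp only [LinearEquiv.mul_apply, Y2, Y4, Y6, Y7]
  refine Prod.ext ?_ (Prod.ext ?_ (Prod.ext ?_ (Prod.ext ?_ ?_))) <;> (simp only []; try (push_cast; ring))

theorem c7_3 (t u : F) : Y F 3 u * Y F 7 t = Y F 7 t * Y F 3 u * wp (Y F) (chevB2.commWord F 7 3 t u) := by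
  have hct : chevB2.commTerms 7 3 = [] := by decide +kernel
  unfold wp ChevalleyDatum.commWord
  rw [hct]
  simp only [List.map_cons, List.map_nil, List.prod_cons, List.prod_nil, mul_one, pow_one]
  apply LinearEquiv.ext
  rintro ⟨x1, y1, x2, y2, z⟩
  simp only [LinearEquiv.mul_apply, Y3, Y7]
  refine Prod.ext ?_ (Prod.ext ?_ (Prod.ext ?_ (Prod.ext ?_ ?_))) <;> (simp only []; try (push_cast; ring))

theorem c7_4 (t u : F) : Y F 4 u * Y F 7 t = Y F 7 t * Y F 4 u * wp (Y F) (chevB2.commWord F 7 4 t u) := by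
  have hct : chevB2.commTerms 7 4 = [] := by decide +kernel
  unfold wp ChevalleyDatum.commWord
  rw [hct]
  simp only [List.map_cons, List.map_nil, List.prod_cons, List.prod_nil, mul_one, pow_one]
  apply LinearEquiv.ext
  rintro ⟨x1, y1, x2, y2, z⟩
  simp only [LinearEquiv.mul_apply, Y4, Y7]
  refine Prod.ext ?_ (Prod.ext ?_ (Prod.ext ?_ (Prod.ext ?_ ?_))) <;> (simp only []; try (push_cast; ring))

theorem c7_5 (t u : F) : Y F 5 u * Y F 7 t = Y F 7 t * Y F 5 u * wp (Y F) (chevB2.commWord F 7 5 t u) := by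
  have hct : chevB2.commTerms 7 5 = [] := by decide +kernel
  unfold wp ChevalleyDatum.commWord
  rw [hct]
  simp only [List.map_cons, List.map_nil, List.prod_cons, List.prod_nil, mul_one, pow_one]
  apply LinearEquiv.ext
  rintro ⟨x1, y1, x2, y2, z⟩
  simp only [LinearEquiv.mul_apply, Y5, Y7]
  refine Prod.ext ?_ (Prod.ext ?_ (Prod.ext ?_ (Prod.ext ?_ ?_))) <;> (simp only []; try (push_cast; ring))

theorem c7_6 (t u : F) : Y F 6 u * Y F 7 t = Y F 7 t * Y F 6 u * wp (Y F) (chevB2.commWord F 7 6 t u) := by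
  have hct : chevB2.commTerms 7 6 = [] := by decide +kernel
  unfold wp ChevalleyDatum.commWord
  rw [hct]
  simp only [List.map_cons, List.map_nil, List.prod_cons, List.prod_nil, mul_one, pow_one]
  apply LinearEquiv.ext
  rintro ⟨x1, y1, x2, y2, z⟩
  simp only [LinearEquiv.mul_apply, Y6, Y7]
  refine Prod.ext ?_ (Prod.ext ?_ (Prod.ext ?_ (Prod.ext ?_ ?_))) <;> (simp only []; try (push_cast; ring))

theorem stR : StR chevB2 (Y F) := by
  have hn : chevB2.nroots = 8 := rfl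
  refine ⟨?_, ?_, ?_⟩
  · intro r hr t u
    rw [hn] at hr
    interval_cases r
    · exact add0 t u
    · exact add1 t u
    · exact add2 t u
    · exact add3 t u
    · exact add4 t u
    · exact add5 t u
    · exact add6 t u
    · exact add7 t u
  · intro r hr s hs h1 h2 t u
    rw [hn] at hr hs
    interval_cases r
    · interval_cases s
      · exact absurd rfl h1
      · exact c0_1 t u
      · exact c0_2 t u
      · exact c0_3 t u
      · exact c0_4 t u
      · exact c0_5 t u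
      · exact c0_6 t u
      · exact absurd (by decide +kernel) h2
    · interval_cases s
      · exact c1_0 t u
      · exact absurd rfl h1
      · exact c1_2 t u
      · exact c1_3 t u
      · exact c1_4 t u
      · exact c1_5 t u
      · exact absurd (by decide +kernel) h2
      · exact c1_7 t u
    · interval_cases s
      · exact c2_0 t u
      · exact c2_1 t u
      · exact absurd rfl h1
      · exact c2_3 t u
      · exact c2_4 t u
      · exact absurd (by decide +kernel) h2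
      · exact c2_6 t u
      · exact c2_7 t u
    · interval_cases s
      · exact c3_0 t u
      · exact c3_1 t u
      · exact c3_2 t u
      · exact absurd rfl h1
      · exact absurd (by decide +kernel) h2
      · exact c3_5 t u
      · exact c3_6 t u
      · exact c3_7 t u
    · interval_cases s
      · exact c4_0 t u
      · exact c4_1 t u
      · exact c4_2 t u
      · exact absurd (by decide +kernel) h2
      · exact absurd rfl h1
      · exact c4_5 t u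
      · exact c4_6 t u
      · exact c4_7 t u
    · interval_cases s
      · exact c5_0 t u
      · exact c5_1 t u
      · exact absurd (by decide +kernel) h2
      · exact c5_3 t u
      · exact c5_4 t u
      · exact absurd rfl h1
      · exact c5_6 t u
      · exact c5_7 t u
    · interval_cases s
      · exact c6_0 t u
      · exact absurd (by decide +kernel) h2
      · exact c6_2 t u
      · exact c6_3 t u
      · exact c6_4 t u
      · exact c6_5 t u
      · exact absurd rfl h1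
      · exact c6_7 t u
    · interval_cases s
      · exact absurd (by decide +kernel) h2
      · exact c7_1 t u
      · exact c7_2 t u
      · exact c7_3 t u
      · exact c7_4 t u
      · exact c7_5 t u
      · exact c7_6 t u
      · exact absurd rfl h1
  · intro r hr t u ht hu
    rw [hn] at hr
    interval_cases r
    · exact mul0 ht hu
    · exact mul1 ht hu
    · exact mul2 ht hu
    · exact mul3 ht hu
    · exact mul4 ht hu
    · exact mul5 ht hu
    · exact mul6 ht hu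
    · exact mul7 ht hu

end H23.ModelB2
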