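/-
H23: B2(F) = POmega_5(F).
-/
import Cfsg.Agent.Lib.H23.ModelB2
import Cfsg.Agent.Lib.H22.StThm
import Cfsg.Agent.Lib.H22.ChevAll
import Cfsg.Agent.Lib.H7.OmegaIso
set_option autoImplicit false
set_option linter.unusedSectionVars false
set_option linter.unusedSimpArgs false

namespace H23.ModelB2

open Cfsg.Lie H23.ChevExc H23.OrthSplit H7.Hyp H7.Omega QuadraticMap
open scoped commutatorElement

variable (F : Type*) [Field F]

theorem nr1 : NR (q1 F) := by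
  intro v hv _
  rw [q1_apply] at hv
  exact mul_self_eq_zero.1 hv

theorem nd1 : ND' (q1 F) := ⟨⟨1, by rw [q1_apply]; simp⟩, nr1 F⟩
theorem nd2 : ND' (q2 F) := (nd1 F).hyp
theorem xr1 : XR (q1 F) := XR_sq fun x => by rw [q1_apply, pow_two]
theorem xr2 : XR (q2 F) := XR.hyp (nd1 F) (xr1 F)

theorem commutator_eq (hF : ∃ a : F, a ≠ 0 ∧ a ≠ 1) : ⁅O (hyp (q2 F)), O (hyp (q2 F))⁆ = Om (q2 F) :=
  le_antisymm (commutator_le' (nd2 F) (xr2 F)) (commutator_of_units hF)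

theorem Y_mem (r : ℕ) (t : F) : Y F r t ∈ Om (q2 F) := by
  match r with
  | 0 => exact E'_mem_Om _ _
  | 1 => exact E'_mem_Om _ _
  | 2 => exact emb_Om' (nr1 F) (E'_mem_Om _ _)
  | 3 => exact E'_mem_Om _ _
  | 4 => exact E_mem_Om _ _
  | 5 => exact emb_Om' (nr1 F) (E_mem_Om _ _)
  | 6 => exact E_mem_Om _ _
  | 7 => exact E_mem_Om _ _
  | (n + 8) => exact (Om (q2 F)).one_mem

theorem Om_le_closure : Om (q2 F) ≤ Subgroup.closure {g | ∃ r t, r < chevB2.nroots ∧ g = Y F r t} := by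
  set U := Subgroup.closure {g | ∃ r t, r < chevB2.nroots ∧ g = Y F r t} with hU
  have hY : ∀ r t, r < 8 → Y F r t ∈ U := fun r t hr => Subgroup.subset_closure ⟨r, t, hr, rfl⟩
  apply Om_le_of
  · rintro ⟨p, q, r⟩
    have e : E (q2 F) ((p, q, r) : F × F × F) = Y F 7 p * Y F 4 q * Y F 6 (-r) := by
      show _ = E (q2 F) ((p, 0, 0) : F × F × F) * E (q2 F) ((0, q, 0) : F × F × F) * E (q2 F) ((0, 0, - -r) : F × F × F)
      rw [E_mul, E_mul]
      congr 1
      simp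
    rw [e]
    exact U.mul_mem (U.mul_mem (hY _ _ (by norm_num)) (hY _ _ (by norm_num))) (hY _ _ (by norm_num))
  · rintro ⟨p, q, r⟩
    have e : E' (q2 F) ((p, q, r) : F × F × F) = Y F 3 (-p) * Y F 0 (-q) * Y F 1 r := by
      show _ = E' (q2 F) ((- -p, 0, 0) : F × F × F) * E' (q2 F) ((0, - -q, 0) : F × F × F) * E' (q2 F) ((0, 0, r) : F × F × F)
      rw [E'_mul, E'_mul]
      congr 1
      simp
    rw [e]
    exact U.mul_mem (U.mul_mem (hY _ _ (by norm_num)) (hY _ _ (by norm_num))) (hY _ _ (by norm_num))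

/-- root elements in the group -/
noncomputable def X (r : ℕ) (t : F) : Om (q2 F) := ⟨Y F r t, Y_mem F r t⟩

theorem stR' : StR chevB2 (X F) :=
  H23.ChevModel.StR.comap (Om (q2 F)).subtype (Subgroup.subtype_injective _) stR

theorem gen : Subgroup.closure {g : Om (q2 F) | ∃ r t, r < chevB2.nroots ∧ g = X F r t} = ⊤ :=
  H23.ChevModel.closure_eq_top_of (Om_le_closure F)

theorem not_comm : ∃ a b : Om (q2 F), a * b ≠ b * a := by
  refine ⟨⟨E (q2 F) ((0, 1, 0) : F × F × F), E_mem_Om _ _⟩,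
    ⟨E' (q2 F) ((1, 0, 0) : F × F × F), E'_mem_Om _ _⟩, ?_⟩
  intro h
  have h1 := congrArg (fun g : Om (q2 F) => ((g : V F ≃ₗ[F] V F) (e1 F (F × F × F))).1) h
  simp only [Subgroup.coe_mul, LinearEquiv.mul_apply] at h1
  rw [E_e1, e1, E'_apply, E_apply] at h1
  simp [q2, q1, polar] at h1

/-- coordinates for the standard form -/
def f' : (Unit ⊕ (Fin 2 ⊕ Fin 2) → F) ≃ₗ[F] V F where
  toFun v := (v (.inr (.inl 0)), v (.inr (.inr 0)), v (.inr (.inl 1)), v (.inr (.inr 1)), v (.inl ()))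
  invFun w := Sum.elim (fun _ => w.2.2.2.2) (Sum.elim ![w.1, w.2.2.1] ![w.2.1, w.2.2.2.1])
  map_add' v w := rfl
  map_smul' c v := rfl
  left_inv v := by
    funext k
    rcases k with k | k | k
    · rfl
    · fin_cases k <;> rfl
    · fin_cases k <;> rfl
  right_inv w := rfl

theorem f'_apply (v : Unit ⊕ (Fin 2 ⊕ Fin 2) → F) : f' F v =
    (v (.inr (.inl 0)), v (.inr (.inr 0)), v (.inr (.inl 1)), v (.inr (.inr 1)), v (.inl ())) := rfl

theorem f'_q (v : Unit ⊕ (Fin 2 ⊕ Fin 2) → F) : hyp (q2 F) (f' F v) = Cfsg.quadFormOdd 2 F v := by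
  unfold Cfsg.quadFormOdd
  rw [Fin.sum_univ_two, f'_apply, hyp_apply]
  simp only [q2_apply]
  ring

theorem neg_lt {r : ℕ} (hr : r < chevB2.nroots) : chevB2.neg r < chevB2.nroots := by
  have hn : ∀ r < 8, chevB2.neg r < 8 := by decide +kernel
  exact hn r hr

theorem ct {r s : ℕ} (hr : r < chevB2.nroots) (hs : s < chevB2.nroots) :
    ∀ d ∈ chevB2.commTerms r s, d.1 < chevB2.nroots := by
  have hn : ∀ r < 8, ∀ s < 8, ∀ d ∈ chevB2.commTerms r s, d.1 < 8 := by decide +kernel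
  exact hn r hr s hs

theorem main (hF : ∃ a : F, a ≠ 0 ∧ a ≠ 1) : Nonempty (↥(Cfsg.Lie.chevB2.group F) ≃* Cfsg.POmega F (Cfsg.quadFormOdd 2 F)) := by
  obtain ⟨e1⟩ := H23.ChevModel.equiv_of_simple (D := chevB2) (H22.St.s1077 chevB2 (by simp)) (fun r hr => neg_lt hr)
    (fun r hr s hs h1 h2 => ct hr hs) (stR' F) (gen F)
    (H22.ChevSimple.s1056 (H22.ChevAll.rel chevB2 (by simp) F) hF).1 (not_comm F)
  have e2 := H7.OmegaIso.quotCenterCongr (H7.OmegaIso.omegaEquiv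
    ((H7.HypOrd.matEquiv (Cfsg.quadFormOdd 2 F)).trans (H7.HypStd.congrO (f' F) (f'_q F))) (commutator_eq F hF))
  exact ⟨e1.trans e2.symm⟩

end H23.ModelB2
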