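/-
H23: the cubic form of E6 in 27 variables, its derivative and polarization, and its isometry group.
-/
import Cfsg.Agent.Lib.H23.MinuE6
import Cfsg.Agent.Lib.H23.MinuAct
import Cfsg.Agent.Lib.H23.StGen
set_option autoImplicit false
set_option linter.unusedSectionVars false
set_option linter.unusedSimpArgs false

namespace H23.ModelE6

open Cfsg.Lie H23.ChevNSCheck H23.ChevExc H23.Minu

/-- monomials (i, j, k, sign) -/
abbrev Mo := ℕ × ℕ × ℕ × ℤ

def mons : List Mo := [(0, 4, 8, 1), (0, 5, 7, -1), (0, 9, 18, -1), (0, 10, 21, -1), (0, 11, 24, -1),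
  (1, 3, 8, -1), (1, 5, 6, 1), (1, 12, 18, -1), (1, 13, 21, -1), (1, 14, 24, -1),
  (2, 3, 7, 1), (2, 4, 6, -1), (2, 15, 18, -1), (2, 16, 21, -1), (2, 17, 24, -1),
  (3, 9, 19, -1), (3, 10, 22, -1), (3, 11, 25, -1), (4, 12, 19, -1), (4, 13, 22, -1),
  (4, 14, 25, -1), (5, 15, 19, -1), (5, 16, 22, -1), (5, 17, 25, -1), (6, 9, 20, -1),
  (6, 10, 23, -1), (6, 11, 26, -1), (7, 12, 20, -1), (7, 13, 23, -1), (7, 14, 26, -1),
  (8, 15, 20, -1), (8, 16, 23, -1), (8, 17, 26, -1), (9, 13, 17, 1), (9, 14, 16, -1),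
  (10, 12, 17, -1), (10, 14, 15, 1), (11, 12, 16, 1), (11, 13, 15, -1), (18, 22, 26, 1),
  (18, 23, 25, -1), (19, 21, 26, -1), (19, 23, 24, 1), (20, 21, 25, 1), (20, 22, 24, -1)]

section
variable {F : Type*} [CommRing F]

def TL (L : List Mo) (v : ℕ → F) : F := (L.map fun m => (m.2.2.2 : F) * v m.1 * v m.2.1 * v m.2.2.1).sum
def DL (L : List Mo) (x z : ℕ → F) : F := (L.map fun m => (m.2.2.2 : F) *
  (x m.1 * x m.2.1 * z m.2.2.1 + x m.1 * z m.2.1 * x m.2.2.1 + z m.1 * x m.2.1 * x m.2.2.1)).sum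
def BL (L : List Mo) (x y z : ℕ → F) : F := (L.map fun m => (m.2.2.2 : F) *
  (x m.1 * y m.2.1 * z m.2.2.1 + x m.1 * z m.2.1 * y m.2.2.1 + y m.1 * x m.2.1 * z m.2.2.1 + y m.1 * z m.2.1 * x m.2.2.1 +
    z m.1 * x m.2.1 * y m.2.2.1 + z m.1 * y m.2.1 * x m.2.2.1)).sum

def T (v : ℕ → F) : F := TL mons v
def D (x z : ℕ → F) : F := DL mons x z
def B (x y z : ℕ → F) : F := BL mons x y z

theorem TL_expand (L : List Mo) (x z : ℕ → F) (a : F) : TL L (fun k => x k + a * z k) =
    TL L x + a * DL L x z + a ^ 2 * DL L z x + a ^ 3 * TL L z := by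
  induction L with
  | nil => simp [TL, DL]
  | cons m L ih =>
    unfold TL DL at ih ⊢
    simp only [List.map_cons, List.sum_cons]
    rw [ih]; ring

theorem T_expand (x z : ℕ → F) (a : F) : T (fun k => x k + a * z k) = T x + a * D x z + a ^ 2 * D z x + a ^ 3 * T z :=
  TL_expand _ _ _ _

theorem DL_add (L : List Mo) (x y z : ℕ → F) : DL L (fun k => x k + y k) z = DL L x z + DL L y z + BL L x y z := by
  induction L with
  | nil => simp [DL, BL]
  | cons m L ih =>
    unfold DL BL at ih ⊢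
    simp only [List.map_cons, List.sum_cons]
    rw [ih]; ring

theorem D_add (x y z : ℕ → F) : D (fun k => x k + y k) z = D x z + D y z + B x y z := DL_add _ _ _ _

theorem BL_comm (L : List Mo) (x y z : ℕ → F) : BL L x y z = BL L x z y := by
  unfold BL
  congr 1
  apply List.map_congr_left
  intro m _
  ring

theorem B_comm (x y z : ℕ → F) : B x y z = B x z y := BL_comm _ _ _ _

theorem BL_smul (L : List Mo) (c d : F) (x y z : ℕ → F) : BL L (fun k => c * x k) (fun k => d * y k) z = c * d * BL L x y z := by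
  unfold BL
  rw [← List.sum_map_mul_left]
  congr 1
  apply List.map_congr_left
  intro m _
  ring

theorem B_smul (c d : F) (x y z : ℕ → F) : B (fun k => c * x k) (fun k => d * y k) z = c * d * B x y z := BL_smul _ _ _ _ _ _

/-- basis vectors -/
def ee (F : Type*) [CommRing F] (a : ℕ) (k : ℕ) : F := if k = a then 1 else 0

def L1L (L : List Mo) (a : ℕ) : List (ℕ × ℕ × ℤ) := L.flatMap fun m =>
  (bif Nat.beq m.1 a then [(m.2.1, m.2.2.1, m.2.2.2)] else []) ++ (bif Nat.beq m.2.1 a then [(m.1, m.2.2.1, m.2.2.2)] else []) ++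
  (bif Nat.beq m.2.2.1 a then [(m.1, m.2.1, m.2.2.2)] else [])

def L1 (a : ℕ) : List (ℕ × ℕ × ℤ) := L1L mons a

def L2 (a b : ℕ) : List (ℕ × ℤ) := (L1 a).flatMap fun t =>
  (bif Nat.beq t.1 b then [(t.2.1, t.2.2)] else []) ++ (bif Nat.beq t.2.1 b then [(t.1, t.2.2)] else [])

theorem bif_sum {α : Type*} (i a : ℕ) (x : α) (f : α → F) :
    ((bif Nat.beq i a then [x] else []).map f).sum = ee F a i * f x := by
  unfold ee
  by_cases h : i = a
  · subst h; simp
  · rw [if_neg h, zero_mul]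
    have : Nat.beq i a = false := NCode.nbf h
    rw [this]; rfl

theorem DL_ee (L : List Mo) (v : ℕ → F) (a : ℕ) :
    DL L v (ee F a) = ((L1L L a).map fun t => (t.2.2 : F) * (v t.1 * v t.2.1)).sum := by
  induction L with
  | nil => simp [DL, L1L]
  | cons m L ih =>
    have e : L1L (m :: L) a = ((bif Nat.beq m.1 a then [(m.2.1, m.2.2.1, m.2.2.2)] else []) ++
      (bif Nat.beq m.2.1 a then [(m.1, m.2.2.1, m.2.2.2)] else []) ++
      (bif Nat.beq m.2.2.1 a then [(m.1, m.2.1, m.2.2.2)] else [])) ++ L1L L a := by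
      unfold L1L; rw [List.flatMap_cons]
    rw [e, List.map_append, List.sum_append, ← ih, List.map_append, List.sum_append, List.map_append, List.sum_append,
      bif_sum, bif_sum, bif_sum]
    unfold DL
    rw [List.map_cons, List.sum_cons]
    ring

theorem D_ee (v : ℕ → F) (a : ℕ) : D v (ee F a) = ((L1 a).map fun t => (t.2.2 : F) * (v t.1 * v t.2.1)).sum := DL_ee _ _ _

theorem BL_ee (L : List Mo) (v z : ℕ → F) (a : ℕ) :
    BL L (ee F a) v z = ((L1L L a).map fun t => (t.2.2 : F) * (v t.1 * z t.2.1 + z t.1 * v t.2.1)).sum := by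
  induction L with
  | nil => simp [BL, L1L]
  | cons m L ih =>
    have e : L1L (m :: L) a = ((bif Nat.beq m.1 a then [(m.2.1, m.2.2.1, m.2.2.2)] else []) ++
      (bif Nat.beq m.2.1 a then [(m.1, m.2.2.1, m.2.2.2)] else []) ++
      (bif Nat.beq m.2.2.1 a then [(m.1, m.2.1, m.2.2.2)] else [])) ++ L1L L a := by
      unfold L1L; rw [List.flatMap_cons]
    rw [e, List.map_append, List.sum_append, ← ih, List.map_append, List.sum_append, List.map_append, List.sum_append,
      bif_sum, bif_sum, bif_sum]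
    unfold BL
    rw [List.map_cons, List.sum_cons]
    ring

theorem B_ee (v z : ℕ → F) (a : ℕ) : B (ee F a) v z = ((L1 a).map fun t => (t.2.2 : F) * (v t.1 * z t.2.1 + z t.1 * v t.2.1)).sum :=
  BL_ee _ _ _ _

theorem B_ee2 (z : ℕ → F) (a b : ℕ) : B (ee F a) (ee F b) z = ((L2 a b).map fun t => (t.2 : F) * z t.1).sum := by
  rw [B_ee]
  unfold L2
  induction L1 a with
  | nil => simp
  | cons t L ih =>
    rw [List.flatMap_cons, List.map_append, List.sum_append, ← ih, List.map_append, List.sum_append, bif_sum, bif_sum,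
      List.map_cons, List.sum_cons]
    ring

end

/-! ### the group -/

section
variable {F : Type*} [Field F]

theorem vx_add {n : ℕ} (x z : Fin n → F) (a : F) : vx (x + a • z) = fun k => vx x k + a * vx z k := by
  funext k
  unfold vx
  split_ifs with h
  · rfl
  · simp

theorem vx_smul {n : ℕ} (z : Fin n → F) (a : F) : vx (a • z) = fun k => a * vx z k := by
  funext k
  unfold vx
  split_ifs with h
  · rfl
  · simp

/-- action -/
def ac (g : GL (Fin 27) F) (v : Fin 27 → F) : Fin 27 → F := (g : Matrix (Fin 27) (Fin 27) F).mulVec v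

theorem ac_mul (g h : GL (Fin 27) F) (v : Fin 27 → F) : ac (g * h) v = ac g (ac h v) := by
  unfold ac
  rw [Matrix.mulVec_mulVec]; rfl

theorem ac_one (v : Fin 27 → F) : ac 1 v = v := by
  unfold ac; simp

theorem ac_inv (g : GL (Fin 27) F) (v : Fin 27 → F) : ac g⁻¹ (ac g v) = v := by
  rw [← ac_mul, inv_mul_cancel, ac_one]

theorem ac_inv' (g : GL (Fin 27) F) (v : Fin 27 → F) : ac g (ac g⁻¹ v) = v := by
  rw [← ac_mul, mul_inv_cancel, ac_one]

theorem ac_add (g : GL (Fin 27) F) (v w : Fin 27 → F) : ac g (v + w) = ac g v + ac g w := Matrix.mulVec_add _ _ _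
theorem ac_smul (g : GL (Fin 27) F) (a : F) (v : Fin 27 → F) : ac g (a • v) = a • ac g v := Matrix.mulVec_smul _ _ _

variable (F) in
/-- isometries of the cubic form -/
def G : Subgroup (GL (Fin 27) F) where
  carrier := {g | ∀ v, T (vx (ac g v)) = T (vx v)}
  mul_mem' := by
    intro a b ha hb v
    rw [ac_mul, ha, hb]
  one_mem' := by
    intro v
    rw [ac_one]
  inv_mem' := by
    intro a ha v
    have := ha (ac a⁻¹ v)
    rw [ac_inv'] at this
    exact this.symm

theorem D_inv {a : F} (ha0 : a ≠ 0) (ha1 : a ≠ 1) {g : GL (Fin 27) F} (hg : g ∈ G F) (x z : Fin 27 → F) :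
    D (vx (ac g x)) (vx (ac g z)) = D (vx x) (vx z) := by
  have h1 := hg (z + (1 : F) • x)
  have h2 := hg (z + a • x)
  rw [ac_add, ac_smul, vx_add, vx_add, T_expand, T_expand, hg z, hg x] at h1 h2
  have h3 : (a - a ^ 2) * (D (vx (ac g x)) (vx (ac g z)) - D (vx x) (vx z)) = 0 := by
    linear_combination a * h1 - h2
  have h4 : a - a ^ 2 ≠ 0 := by
    have : a - a ^ 2 = a * (1 - a) := by ring
    rw [this]
    exact mul_ne_zero ha0 (sub_ne_zero.2 ha1.symm)
  exact sub_eq_zero.1 ((mul_eq_zero.1 h3).resolve_left h4)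

theorem B_inv {a : F} (ha0 : a ≠ 0) (ha1 : a ≠ 1) {g : GL (Fin 27) F} (hg : g ∈ G F) (x y z : Fin 27 → F) :
    B (vx (ac g x)) (vx (ac g y)) (vx (ac g z)) = B (vx x) (vx y) (vx z) := by
  have h1 := D_inv ha0 ha1 hg (x + (1 : F) • y) z
  rw [ac_add, ac_smul, vx_add, vx_add] at h1
  simp only [one_mul] at h1
  rw [D_add, D_add, D_inv ha0 ha1 hg, D_inv ha0 ha1 hg] at h1
  exact add_left_cancel h1

variable (F) in
/-- basis -/
def e (k : ℕ) : Fin 27 → F := fun j => if j.1 = k then 1 else 0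

theorem vx_e {k : ℕ} (hk : k < 27) : vx (e F k) = ee F k := by
  funext j
  unfold vx e ee
  split_ifs with h1 h2 h2
  · rfl
  · rfl
  · omega
  · rfl

/-- singular vectors -/
theorem D_e_self {p : ℕ} (hp : p < 27) (z : Fin 27 → F) : D (vx (e F p)) (vx z) = 0 := by
  rw [vx_e hp]
  have key : ∀ L : List Mo, (∀ m ∈ L, m.1 ≠ m.2.1 ∧ m.1 ≠ m.2.2.1 ∧ m.2.1 ≠ m.2.2.1) → DL L (ee F p) (vx z) = 0 := by
    intro L hL
    unfold DL
    apply List.sum_eq_zero
    intro y hy
    obtain ⟨m, hm, rfl⟩ := List.mem_map.1 hy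
    obtain ⟨h1, h2, h3⟩ := hL m hm
    have e1 : ee F p m.1 * ee F p m.2.1 = 0 := by
      unfold ee
      by_cases h : m.1 = p
      · rw [if_pos h, if_neg (fun h' => h1 (h.trans h'.symm)), mul_zero]
      · rw [if_neg h, zero_mul]
    have e2 : ee F p m.1 * ee F p m.2.2.1 = 0 := by
      unfold ee
      by_cases h : m.1 = p
      · rw [if_pos h, if_neg (fun h' => h2 (h.trans h'.symm)), mul_zero]
      · rw [if_neg h, zero_mul]
    have e3 : ee F p m.2.1 * ee F p m.2.2.1 = 0 := by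
      unfold ee
      by_cases h : m.2.1 = p
      · rw [if_pos h, if_neg (fun h' => h3 (h.trans h'.symm)), mul_zero]
      · rw [if_neg h, zero_mul]
    linear_combination (m.2.2.2 : F) * (e1 * vx z m.2.2.1 + e2 * vx z m.2.1 + e3 * vx z m.1)
  exact key mons (by decide)

end

end H23.ModelE6
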