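/-
H23: the stabilizer chain machine for the isometry group of the cubic form.
-/
import Cfsg.Agent.Lib.H23.ModelE6a
set_option autoImplicit false
set_option linter.unusedSectionVars false
set_option linter.unusedSimpArgs false
set_option linter.unusedVariables false

namespace H23.ModelE6

open Cfsg.Lie H23.ChevNSCheck H23.ChevExc H23.Minu

section act
variable {F : Type*} [Field F]

/-- the root element -/
noncomputable def yy (F : Type*) [Field F] (r : ℕ) (t : F) : GL (Fin 27) F := y easyE6 F r t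

/-- the entry with target k -/
def row (r k : ℕ) : Option (ℕ × ℤ) := ((minE6.E r).find? fun a => Nat.beq k a.1).map fun a => a.2

/-- distinct targets, distinct sources -/
def distB (A : SM) : Bool :=
  match A with
  | [] => true
  | a :: L => (L.all fun b => !Nat.beq b.1 a.1) && distB L

theorem sum_find (A : SM) (h : distB A = true) (k : ℕ) (f : ℕ × ℤ → F) :
    (A.map fun a => if k = a.1 then f a.2 else 0).sum =
      match (A.find? fun a => Nat.beq k a.1).map (fun a => a.2) with
      | none => 0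
      | some q => f q := by
  induction A with
  | nil => simp
  | cons a L ih =>
    unfold distB at h
    rw [Bool.and_eq_true, List.all_eq_true] at h
    obtain ⟨h1, h2⟩ := h
    rw [List.map_cons, List.sum_cons]
    by_cases hk : k = a.1
    · have h3 : (List.map (fun a => if k = a.1 then f a.2 else 0) L).sum = 0 := by
        apply List.sum_eq_zero
        intro y hy
        obtain ⟨b, hb, rfl⟩ := List.mem_map.1 hy
        have h4 := h1 b hb
        rw [if_neg]
        intro h5
        rw [← hk, ← h5] at h4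
        simp at h4
      rw [h3, if_pos hk, add_zero]
      have h6 : List.find? (fun a => Nat.beq k a.1) (a :: L) = some a := by
        rw [List.find?_cons_of_pos]
        rw [hk]; exact Nat.beq_refl _
      rw [h6]; rfl
    · rw [if_neg hk, zero_add, ih h2]
      have h6 : List.find? (fun a => Nat.beq k a.1) (a :: L) = List.find? (fun a => Nat.beq k a.1) L := by
        rw [List.find?_cons_of_neg]
        rw [NCode.nbf hk]; simp
      rw [h6]

theorem dist_all : allB (fun r => distB (minE6.E r)) 72 = true := by decide +kernel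

theorem nroots : chevE6.nroots = 72 := by decide +kernel

theorem act {r : ℕ} (hr : r < 72) (t : F) (v : Fin 27 → F) (k : ℕ) :
    vx (ac (yy F r t) v) k = vx v k + t * (match row r k with
      | none => 0
      | some q => (q.2 : F) * vx v q.1) := by
  have hr' : r < chevE6.nroots := by rw [nroots]; exact hr
  have hd : distB (minE6.E r) = true := by
    have := dist_all
    simp only [allB_iff] at this
    exact this r hr
  have hs := sum_find (F := F) (minE6.E r) hd k (fun q => (q.2 : F) * vx v q.1)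
  by_cases hk : k < 27
  · have h1 := y_mulVec easyE6 (F := F) hr' t v ⟨k, hk⟩
    have h2 : vx (ac (yy F r t) v) k = ac (yy F r t) v ⟨k, hk⟩ := by
      unfold vx; rw [dif_pos hk]
    have h3 : vx v k = v ⟨k, hk⟩ := by unfold vx; rw [dif_pos hk]
    rw [h2, h3]
    refine h1.trans ?_
    congr 2
  · have h2 : vx (ac (yy F r t) v) k = 0 := by unfold vx; rw [dif_neg hk]
    have h3 : vx v k = 0 := by unfold vx; rw [dif_neg hk]
    rw [h2, h3]
    have h4 : row r k = none := by
      unfold row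
      have hb := bd' easyE6 hr'
      unfold SM.bd at hb
      rw [List.all_eq_true] at hb
      have : (minE6.E r).find? (fun a => Nat.beq k a.1) = none := by
        rw [List.find?_eq_none]
        intro a ha
        have h5 := hb a ha
        rw [Bool.and_eq_true, Nat.blt_eq, Nat.blt_eq] at h5
        have h6 : a.1 < 27 := h5.1
        rw [NCode.nbf (by omega)]; simp
      rw [this]; rfl
    rw [h4]; simp

theorem vec_ext {v w : Fin 27 → F} (h : ∀ k < 27, vx v k = vx w k) : v = w := by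
  funext k
  have := h k.1 k.2
  rwa [vx_fin, vx_fin] at this

/-! ### subgroups -/

variable (F) in
/-- the group generated by the root elements -/
def U : Subgroup (GL (Fin 27) F) := Subgroup.closure {g | ∃ r t, r < chevE6.nroots ∧ g = yy F r t}

theorem yy_mem_U {r : ℕ} (hr : r < 72) (t : F) : yy F r t ∈ U F :=
  Subgroup.subset_closure ⟨r, t, by rw [nroots]; exact hr, rfl⟩

variable (F) in
/-- elements of U fixing the basis vectors in S -/
def US (S : List ℕ) : Subgroup (GL (Fin 27) F) where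
  carrier := {u | u ∈ U F ∧ ∀ a ∈ S, ac u (e F a) = e F a}
  mul_mem' := by
    rintro a b ⟨ha, ha'⟩ ⟨hb, hb'⟩
    refine ⟨(U F).mul_mem ha hb, ?_⟩
    intro c hc
    rw [ac_mul, hb' c hc, ha' c hc]
  one_mem' := ⟨(U F).one_mem, fun a _ => ac_one _⟩
  inv_mem' := by
    rintro a ⟨ha, ha'⟩
    refine ⟨(U F).inv_mem ha, ?_⟩
    intro c hc
    conv_lhs => rw [← ha' c hc]
    rw [ac_inv]

/-- no source of r lies in S -/
def okR (S : List ℕ) (r : ℕ) : Bool := Nat.blt r 72 && (minE6.E r).all fun a => S.all fun b => !Nat.beq a.2.1 b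

theorem row_src {r k i : ℕ} {s : ℤ} (h : row r k = some (i, s)) : (k, i, s) ∈ minE6.E r := by
  unfold row at h
  rw [Option.map_eq_some_iff] at h
  obtain ⟨a, ha, hae⟩ := h
  have h1 := List.mem_of_find?_eq_some ha
  have h2 := List.find?_some ha
  rw [Nat.beq_eq] at h2
  have : a = (k, i, s) := Prod.ext h2.symm hae
  exact this ▸ h1

theorem okR_mem {S : List ℕ} {r : ℕ} (h : okR S r = true) (hS : ∀ a ∈ S, a < 27) (t : F) : yy F r t ∈ US F S := by
  unfold okR at h
  rw [Bool.and_eq_true, Nat.blt_eq, List.all_eq_true] at h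
  obtain ⟨hr, h1⟩ := h
  refine ⟨yy_mem_U hr t, ?_⟩
  intro a ha
  apply vec_ext
  intro k _
  rw [act hr, vx_e (hS a ha)]
  have : (match row r k with
      | none => (0 : F)
      | some q => (q.2 : F) * ee F a q.1) = 0 := by
    split
    · rfl
    · rename_i q hq
      have h2 := row_src hq
      have h3 := h1 _ h2
      rw [List.all_eq_true] at h3
      have h4 := h3 a ha
      unfold ee
      rw [if_neg, mul_zero]
      intro h5
      simp only at h4
      rw [h5] at h4; simp at h4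
  rw [this, mul_zero, add_zero]

/-! ### kills -/

/-- vanishing coordinates -/
def Zs (v : Fin 27 → F) (Z : List ℕ) : Prop := ∀ k ∈ Z, vx v k = 0

def pm (s : ℤ) : Bool := s == 1 || s == -1

theorem pm_sq {s : ℤ} (h : pm s = true) : ((s : F) * (s : F)) = 1 := by
  unfold pm at h
  rw [Bool.or_eq_true, beq_iff_eq, beq_iff_eq] at h
  rcases h with rfl | rfl <;> simp

theorem pm_ne {s : ℤ} (h : pm s = true) : (s : F) ≠ 0 := by
  intro h0
  have := pm_sq (F := F) h
  rw [h0, zero_mul] at this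
  exact zero_ne_one this

/-- one kill: the root r maps p to k -/
def killB (S : List ℕ) (p : ℕ) (Z : List ℕ) (r k : ℕ) : Bool :=
  okR S r && (match row r k with
    | some (i, s) => Nat.beq i p && pm s
    | none => false) && (row r p).isNone &&
  (Z.all fun z => match row r z with
    | none => true
    | some (i, _) => Z.any fun w => Nat.beq i w)

theorem kill_one {S : List ℕ} {p : ℕ} {Z : List ℕ} {r k : ℕ} (h : killB S p Z r k = true) (hS : ∀ a ∈ S, a < 27)
    {v : Fin 27 → F} (hZ : Zs v Z) (hp : vx v p ≠ 0) :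
    ∃ u ∈ US F S, Zs (ac u v) (k :: Z) ∧ vx (ac u v) p = vx v p := by
  unfold killB at h
  simp only [Bool.and_eq_true, List.all_eq_true] at h
  obtain ⟨⟨⟨h1, h2⟩, h3⟩, h4⟩ := h
  have hr : r < 72 := by
    unfold okR at h1
    rw [Bool.and_eq_true, Nat.blt_eq] at h1
    exact h1.1
  split at h2
  · rename_i i s hrow
    rw [Bool.and_eq_true, Nat.beq_eq] at h2
    obtain ⟨rfl, hs⟩ := h2
    refine ⟨yy F r (-(s : F) * vx v k * (vx v i)⁻¹), okR_mem h1 hS _, ?_, ?_⟩
    · intro z hz
      rcases List.mem_cons.1 hz with rfl | hz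
      · rw [act hr, hrow]
        simp only
        have h5 := pm_sq (F := F) hs
        have h6 : -(s : F) * vx v z * (vx v i)⁻¹ * ((s : F) * vx v i) = -((s : F) * (s : F)) * vx v z * ((vx v i)⁻¹ * vx v i) := by ring
        rw [h6, h5, inv_mul_cancel₀ hp]; ring
      · rw [act hr, hZ z hz]
        have h5 := h4 z hz
        split
        · simp
        · rename_i q hq
          rw [hq] at h5
          simp only [List.any_eq_true, Nat.beq_eq] at h5
          obtain ⟨w, hw, hqw⟩ := h5
          rw [hqw, hZ w hw]; simp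
    · rw [act hr]
      rw [Option.isNone_iff_eq_none] at h3
      rw [h3]; simp
  · exact absurd h2 (by simp)

def killsB (S : List ℕ) (p : ℕ) : List (ℕ × ℕ) → List ℕ → Bool
  | [], _ => true
  | q :: K, Z => killB S p Z q.1 q.2 && killsB S p K (q.2 :: Z)

def killZ : List (ℕ × ℕ) → List ℕ → List ℕ
  | [], Z => Z
  | q :: K, Z => killZ K (q.2 :: Z)

theorem kills {S : List ℕ} {p : ℕ} (hS : ∀ a ∈ S, a < 27) (K : List (ℕ × ℕ)) : ∀ (Z : List ℕ), killsB S p K Z = true →
    ∀ v : Fin 27 → F, Zs v Z → vx v p ≠ 0 →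
    ∃ u ∈ US F S, Zs (ac u v) (killZ K Z) ∧ vx (ac u v) p = vx v p := by
  induction K with
  | nil =>
    intro Z _ v hZ hp
    exact ⟨1, (US F S).one_mem, by rw [ac_one]; exact hZ, by rw [ac_one]⟩
  | cons q K ih =>
    intro Z h v hZ hp
    unfold killsB at h
    rw [Bool.and_eq_true] at h
    obtain ⟨u1, hu1, hz1, hv1⟩ := kill_one h.1 hS hZ hp
    obtain ⟨u2, hu2, hz2, hv2⟩ := ih _ h.2 _ hz1 (by rw [hv1]; exact hp)
    refine ⟨u2 * u1, (US F S).mul_mem hu2 hu1, ?_, ?_⟩
    · rw [ac_mul]; exact hz2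
    · rw [ac_mul, hv2, hv1]

/-! ### lifts -/

def pathB (S : List ℕ) : ℕ → List (ℕ × ℕ) → ℕ → Bool
  | m, [], p => Nat.beq m p
  | m, q :: L, p => okR S q.1 && (match row q.1 q.2 with
      | some (i, s) => Nat.beq i m && pm s
      | none => false) && pathB S q.2 L p

theorem lift_path {S : List ℕ} (hS : ∀ a ∈ S, a < 27) (L : List (ℕ × ℕ)) : ∀ (m p : ℕ), pathB S m L p = true →
    ∀ v : Fin 27 → F, vx v m ≠ 0 → ∃ u ∈ US F S, vx (ac u v) p ≠ 0 := by
  induction L with
  | nil =>
    intro m p h v hv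
    unfold pathB at h
    rw [Nat.beq_eq] at h
    subst h
    exact ⟨1, (US F S).one_mem, by rw [ac_one]; exact hv⟩
  | cons q L ih =>
    intro m p h v hv
    unfold pathB at h
    simp only [Bool.and_eq_true] at h
    obtain ⟨⟨h1, h2⟩, h3⟩ := h
    have hr : q.1 < 72 := by
      unfold okR at h1
      rw [Bool.and_eq_true, Nat.blt_eq] at h1
      exact h1.1
    by_cases h0 : vx v q.2 = 0
    · split at h2
      · rename_i i s hrow
        rw [Bool.and_eq_true, Nat.beq_eq] at h2
        obtain ⟨rfl, hs⟩ := h2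
        obtain ⟨u, hu, hp⟩ := ih q.2 p h3 (ac (yy F q.1 1) v) (by
          rw [act hr, hrow, h0]
          simp only [zero_add, one_mul]
          exact mul_ne_zero (pm_ne hs) hv)
        refine ⟨u * yy F q.1 1, (US F S).mul_mem hu (okR_mem h1 hS _), ?_⟩
        rw [ac_mul]; exact hp
      · exact absurd h2 (by simp)
    · exact ih q.2 p h3 v h0

/-! ### invariants -/

variable {a0 : F} (ha0 : a0 ≠ 0) (ha1 : a0 ≠ 1)

/-- the single third index -/
def is1 (a b k : ℕ) : Bool :=
  match L2 a b with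
  | [(k', s)] => Nat.beq k' k && pm s
  | _ => false

theorem is1_spec {a b k : ℕ} (h : is1 a b k = true) : ∃ s : ℤ, pm s = true ∧ ∀ z : ℕ → F, B (ee F a) (ee F b) z = (s : F) * z k := by
  unfold is1 at h
  split at h
  · rename_i k' s hL
    rw [Bool.and_eq_true, Nat.beq_eq] at h
    obtain ⟨rfl, hs⟩ := h
    refine ⟨s, hs, fun z => ?_⟩
    rw [B_ee2, hL]; simp
  · exact absurd h (by simp)

def zB (S : List ℕ) (p k : ℕ) : Bool := (!Nat.beq p k) && S.any fun a => S.any fun b => is1 a b k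
def zC (S : List ℕ) (p k : ℕ) : Bool := S.any fun a => (L2 a p).isEmpty && (List.range 27).any fun m => is1 a m k
def z0 (S : List ℕ) (p : ℕ) (Z : List ℕ) : Bool := Z.all fun k => zB S p k || zC S p k

/-- eigenvectors -/
def Eig (g : GL (Fin 27) F) (S : List ℕ) : Prop := ∀ a ∈ S, ∃ d : F, d ≠ 0 ∧ ac g (e F a) = d • e F a

include ha0 ha1

theorem vanish {g : GL (Fin 27) F} (hg : g ∈ G F) {S : List ℕ} (hS : ∀ a ∈ S, a < 27) {p : ℕ} (hp : p < 27) (hE : Eig g S)
    {Z : List ℕ} (hZ : z0 S p Z = true) : Zs (ac g (e F p)) Z := by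
  intro k hk
  unfold z0 at hZ
  rw [List.all_eq_true] at hZ
  have h1 := hZ k hk
  rw [Bool.or_eq_true] at h1
  rcases h1 with h1 | h1
  · unfold zB at h1
    simp only [Bool.and_eq_true, Bool.not_eq_true', List.any_eq_true] at h1
    obtain ⟨hpk, a, ha, b, hb, h2⟩ := h1
    obtain ⟨s, hs, hB⟩ := is1_spec (F := F) h2
    obtain ⟨d, hd, hda⟩ := hE a ha
    obtain ⟨d', hd', hdb⟩ := hE b hb
    have h3 := B_inv ha0 ha1 hg (e F a) (e F b) (e F p)
    rw [hda, hdb, vx_smul, vx_smul, B_smul, vx_e (hS a ha), vx_e (hS b hb), vx_e hp, hB, hB] at h3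
    have h4 : ee F p k = 0 := by
      unfold ee
      rw [if_neg]
      rintro rfl
      rw [Nat.beq_refl] at hpk
      exact Bool.noConfusion hpk
    rw [h4, mul_zero] at h3
    rcases mul_eq_zero.1 h3 with h5 | h5
    · exact absurd h5 (mul_ne_zero hd hd')
    · exact (mul_eq_zero.1 h5).resolve_left (pm_ne hs)
  · unfold zC at h1
    simp only [Bool.and_eq_true, List.any_eq_true, List.isEmpty_iff, List.mem_range] at h1
    obtain ⟨a, ha, h2, m, hm, h3⟩ := h1
    obtain ⟨s, hs, hB⟩ := is1_spec (F := F) h3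
    obtain ⟨d, hd, hda⟩ := hE a ha
    have h4 := B_inv ha0 ha1 hg (e F a) (e F p) (ac g⁻¹ (e F m))
    rw [ac_inv', hda, vx_e hp, vx_e (hS a ha)] at h4
    rw [B_ee2, h2] at h4
    rw [B_comm, vx_smul, vx_e (hS a ha), vx_e hm] at h4
    have h5 : B (fun k => d * ee F a k) (ee F m) (vx (ac g (e F p))) = d * 1 * B (ee F a) (ee F m) (vx (ac g (e F p))) := by
      rw [← B_smul]; simp
    rw [h5, hB] at h4
    simp only [List.map_nil, List.sum_nil, mul_one] at h4
    rcases mul_eq_zero.1 h4 with h5 | h5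
    · exact absurd h5 hd
    · exact (mul_eq_zero.1 h5).resolve_left (pm_ne hs)

theorem sing {g : GL (Fin 27) F} (hg : g ∈ G F) {p : ℕ} (hp : p < 27) {m : ℕ} (hm : m < 27) :
    D (vx (ac g (e F p))) (ee F m) = 0 := by
  have := D_inv ha0 ha1 hg (e F p) (ac g⁻¹ (e F m))
  rw [ac_inv', D_e_self hp, vx_e hm] at this
  exact this

/-- determined coordinate one -/
def oneB (S : List ℕ) (p : ℕ) : Bool := S.any fun a => S.any fun b => is1 a b p

theorem one_of {g : GL (Fin 27) F} (hg : g ∈ G F) {S : List ℕ} (hS : ∀ a ∈ S, a < 27) {p : ℕ} (hp : p < 27)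
    (hE : ∀ a ∈ S, ac g (e F a) = e F a) (h : oneB S p = true) : vx (ac g (e F p)) p = 1 := by
  unfold oneB at h
  simp only [List.any_eq_true] at h
  obtain ⟨a, ha, b, hb, h2⟩ := h
  obtain ⟨s, hs, hB⟩ := is1_spec (F := F) h2
  have h3 := B_inv ha0 ha1 hg (e F a) (e F b) (e F p)
  rw [hE a ha, hE b hb, vx_e (hS a ha), vx_e (hS b hb), vx_e hp, hB, hB] at h3
  have h4 := mul_left_cancel₀ (pm_ne (F := F) hs) h3
  rw [h4]
  unfold ee
  rw [if_pos rfl]

omit ha0 ha1 in
theorem e_decomp (v : Fin 27 → F) : v = ∑ k : Fin 27, v k • e F k.1 := by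
  funext j
  rw [Finset.sum_apply, Finset.sum_eq_single j]
  · simp [e]
  · intro k _ hk
    have : ¬ (j.1 = k.1) := fun h => hk (Fin.ext h.symm)
    simp [e, this]
  · simp

omit ha0 ha1 in
theorem ac_sum (g : GL (Fin 27) F) {ι : Type*} (s : Finset ι) (f : ι → (Fin 27 → F)) :
    ac g (∑ i ∈ s, f i) = ∑ i ∈ s, ac g (f i) := by
  unfold ac
  exact map_sum (Matrix.mulVecLin (g : Matrix (Fin 27) (Fin 27) F)) f s

omit ha0 ha1 in
/-- some coordinate outside S is non-zero -/
theorem exists_outside {g : GL (Fin 27) F} {S : List ℕ} (hS : ∀ a ∈ S, a < 27) {p : ℕ} (hp : p < 27) (hpS : p ∉ S)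
    (hE : Eig g S) : ∃ k < 27, k ∉ S ∧ vx (ac g (e F p)) k ≠ 0 := by
  by_contra hcon
  push Not at hcon
  have h1 := ac_inv g (e F p)
  rw [e_decomp (ac g (e F p)), ac_sum] at h1
  have h2 := congrFun h1 ⟨p, hp⟩
  rw [Finset.sum_apply] at h2
  have h3 : e F p ⟨p, hp⟩ = 1 := by unfold e; rw [if_pos rfl]
  rw [h3, Finset.sum_eq_zero] at h2
  · exact zero_ne_one h2
  · intro k _
    by_cases hk : k.1 ∈ S
    · obtain ⟨d, hd, hde⟩ := hE k.1 hk
      have h4 : ac g⁻¹ (e F k.1) = d⁻¹ • e F k.1 := by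
        have h5 := ac_inv g (e F k.1)
        rw [hde, ac_smul] at h5
        rw [← h5, smul_smul, inv_mul_cancel₀ hd, one_smul, h5]
      rw [ac_smul, h4]
      have h6 : e F k.1 ⟨p, hp⟩ = 0 := by
        unfold e
        rw [if_neg]
        intro h7
        simp only at h7
        exact hpS (h7 ▸ hk)
      simp [h6]
    · have h4 := hcon k.1 k.2 hk
      rw [vx_fin] at h4
      rw [h4, zero_smul]
      unfold ac; simp

/-- a non-collinear coordinate is non-zero -/
def ncB (a p m : ℕ) : Bool := is1 a p m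

theorem exists_nc {g : GL (Fin 27) F} (hg : g ∈ G F) {a p m : ℕ} (ha : a < 27) (hp : p < 27) (hm : m < 27)
    (hE : ac g (e F a) = e F a) (h : is1 a p m = true) :
    ∃ t ∈ L1 a, vx (ac g (e F p)) t.1 ≠ 0 ∨ vx (ac g (e F p)) t.2.1 ≠ 0 := by
  by_contra hcon
  push Not at hcon
  obtain ⟨s, hs, hB⟩ := is1_spec (F := F) h
  have h3 := B_inv ha0 ha1 hg (e F a) (e F p) (e F m)
  rw [hE, vx_e ha, vx_e hp, vx_e hm, hB] at h3
  rw [B_ee] at h3
  have h4 : ee F m m = 1 := by unfold ee; rw [if_pos rfl]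
  rw [h4, mul_one, List.sum_eq_zero] at h3
  · exact pm_ne hs h3.symm
  · intro y hy
    obtain ⟨t, ht, rfl⟩ := List.mem_map.1 hy
    obtain ⟨h5, h6⟩ := hcon t ht
    rw [h5, h6]; ring

/-! ### finish -/

def finB (p : ℕ) (Z : List ℕ) (k m : ℕ) : Bool :=
  Nat.blt m 27 &&
  match (L1 m).filter fun t => !((Z.any fun z => Nat.beq t.1 z) || (Z.any fun z => Nat.beq t.2.1 z)) with
  | [(i, j, s)] => pm s && ((Nat.beq i p && Nat.beq j k) || (Nat.beq i k && Nat.beq j p))
  | _ => false

theorem fin_one {p : ℕ} {Z : List ℕ} {k m : ℕ} (h : finB p Z k m = true) {g : GL (Fin 27) F} (hg : g ∈ G F) {q : ℕ} (hq : q < 27)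
    (hZ : Zs (ac g (e F q)) Z) (hv : vx (ac g (e F q)) p ≠ 0) : vx (ac g (e F q)) k = 0 := by
  unfold finB at h
  rw [Bool.and_eq_true, Nat.blt_eq] at h
  obtain ⟨hm, h⟩ := h
  have h1 := sing ha0 ha1 hg hq hm
  rw [D_ee] at h1
  set v := ac g (e F q) with hvdef
  have h2 : ∀ L : List (ℕ × ℕ × ℤ), (L.map fun t => (t.2.2 : F) * (vx v t.1 * vx v t.2.1)).sum =
      ((L.filter fun t => !((Z.any fun z => Nat.beq t.1 z) || (Z.any fun z => Nat.beq t.2.1 z))).map
        fun t => (t.2.2 : F) * (vx v t.1 * vx v t.2.1)).sum := by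
    intro L
    induction L with
    | nil => rfl
    | cons t L ih =>
      rw [List.map_cons, List.sum_cons, ih, List.filter_cons]
      split_ifs with h3
      · rw [List.map_cons, List.sum_cons]
      · rw [Bool.not_eq_true, Bool.not_eq_false', Bool.or_eq_true, List.any_eq_true, List.any_eq_true] at h3
        rcases h3 with ⟨z, hz, hz'⟩ | ⟨z, hz, hz'⟩
        · rw [Nat.beq_eq] at hz'
          rw [hz', hZ z hz]; simp
        · rw [Nat.beq_eq] at hz'
          rw [hz', hZ z hz]; simp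
  rw [h2] at h1
  split at h
  · rename_i i j s hL
    rw [hL] at h1
    simp only [List.map_cons, List.map_nil, List.sum_cons, List.sum_nil, add_zero] at h1
    simp only [Bool.and_eq_true, Bool.or_eq_true, Nat.beq_eq] at h
    obtain ⟨hs, h⟩ := h
    have h3 := (mul_eq_zero.1 h1).resolve_left (pm_ne hs)
    rcases h with ⟨rfl, rfl⟩ | ⟨rfl, rfl⟩
    · exact (mul_eq_zero.1 h3).resolve_left hv
    · exact (mul_eq_zero.1 h3).resolve_right hv
  · exact absurd h (by simp)

def finsB (p : ℕ) : List (ℕ × ℕ) → List ℕ → Bool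
  | [], Z => (List.range 27).all fun k => Nat.beq k p || Z.any fun z => Nat.beq k z
  | q :: K, Z => finB p Z q.1 q.2 && finsB p K (q.1 :: Z)

omit ha0 ha1 in
theorem support {p : ℕ} (hp : p < 27) {v : Fin 27 → F} (h : ∀ k < 27, k ≠ p → vx v k = 0) : v = vx v p • e F p := by
  apply vec_ext
  intro k hk
  rw [vx_smul, vx_e hp]
  unfold ee
  show vx v k = vx v p * (if k = p then 1 else 0)
  by_cases hkp : k = p
  · subst hkp; simp
  · rw [if_neg hkp, mul_zero, h k hk hkp]

theorem fins {p : ℕ} (hp : p < 27) {g : GL (Fin 27) F} (hg : g ∈ G F) {q : ℕ} (hq : q < 27) (K : List (ℕ × ℕ)) :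
    ∀ Z : List ℕ, finsB p K Z = true → Zs (ac g (e F q)) Z → vx (ac g (e F q)) p ≠ 0 →
    ac g (e F q) = vx (ac g (e F q)) p • e F p := by
  induction K with
  | nil =>
    intro Z h hZ hv
    unfold finsB at h
    rw [List.all_eq_true] at h
    apply support hp
    intro k hk hkp
    have h1 := h k (List.mem_range.2 hk)
    rw [Bool.or_eq_true, Nat.beq_eq, List.any_eq_true] at h1
    obtain ⟨z, hz, hkz⟩ := h1.resolve_left hkp
    rw [Nat.beq_eq] at hkz
    rw [hkz]; exact hZ z hz
  | cons t K ih =>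
    intro Z h hZ hv
    unfold finsB at h
    rw [Bool.and_eq_true] at h
    apply ih _ h.2 _ hv
    intro z hz
    rcases List.mem_cons.1 hz with rfl | hz
    · exact fin_one ha0 ha1 h.1 hg hq hZ hv
    · exact hZ z hz

/-! ### the core step -/

omit ha0 ha1 in
theorem US_fix {S : List ℕ} {u : GL (Fin 27) F} (hu : u ∈ US F S) {g : GL (Fin 27) F} (hE : ∀ a ∈ S, ac g (e F a) = e F a) :
    ∀ a ∈ S, ac (u * g) (e F a) = e F a := by
  intro a ha
  rw [ac_mul, hE a ha, hu.2 a ha]

omit ha0 ha1 in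
theorem Eig_of_fix {S : List ℕ} {g : GL (Fin 27) F} (hE : ∀ a ∈ S, ac g (e F a) = e F a) : Eig g S :=
  fun a ha => ⟨1, one_ne_zero, by rw [hE a ha, one_smul]⟩

variable (hUG : U F ≤ G F)
include hUG

theorem core {S : List ℕ} (hS : ∀ a ∈ S, a < 27) {p : ℕ} (hp : p < 27) {Z : List ℕ} {K fn : List (ℕ × ℕ)}
    (h0 : z0 S p Z = true) (h1 : killsB S p K Z = true) (h2 : finsB p fn (killZ K Z) = true)
    {g : GL (Fin 27) F} (hg : g ∈ G F) (hE : ∀ a ∈ S, ac g (e F a) = e F a) (hv : vx (ac g (e F p)) p ≠ 0) :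
    ∃ u ∈ US F S, ac (u * g) (e F p) = vx (ac g (e F p)) p • e F p := by
  obtain ⟨u, hu, hz, hvp⟩ := kills hS K Z h1 (ac g (e F p)) (vanish ha0 ha1 hg hS hp (Eig_of_fix hE) h0) hv
  refine ⟨u, hu, ?_⟩
  have hug : u * g ∈ G F := (G F).mul_mem (hUG hu.1) hg
  rw [← ac_mul] at hz hvp
  have := fins ha0 ha1 hp hug hp fn _ h2 hz (by rw [hvp]; exact hv)
  rw [this, hvp]

/-! ### scaling -/

omit ha0 ha1 hUG in
/-- action of a root element on the plane of p and k -/
theorem act2 {r p k : ℕ} {s : ℤ} (hr : r < 72) (hp : p < 27) (hk : k < 27) (hrow : row r k = some (p, s))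
    (hsrc : (minE6.E r).all (fun a => !Nat.beq a.2.1 k && (!Nat.beq a.2.1 p || Nat.beq a.1 k)) = true) (t a b : F) :
    ac (yy F r t) (a • e F p + b • e F k) = a • e F p + (b + t * s * a) • e F k := by
  rw [List.all_eq_true] at hsrc
  apply vec_ext
  intro j hj
  rw [act hr, vx_add, vx_add]
  simp only [vx_smul, vx_e hp, vx_e hk]
  by_cases hjk : j = k
  · subst hjk
    rw [hrow]
    simp only
    have h1 : ee F j j = 1 := by unfold ee; rw [if_pos rfl]
    have h2 : ee F p p = 1 := by unfold ee; rw [if_pos rfl]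
    have h3 : ee F j p = 0 := by
      unfold ee
      rw [if_neg]
      rintro rfl
      have h4 := hsrc _ (row_src hrow)
      simp at h4
    rw [h1, h2, h3]; ring
  · have h1 : ee F k j = 0 := by unfold ee; rw [if_neg hjk]
    rw [h1]
    have h2 : (match row r j with
        | none => (0 : F)
        | some q => (q.2 : F) * (a * ee F p q.1 + b * ee F k q.1)) = 0 := by
      split
      · rfl
      · rename_i q hq
        have h3 := hsrc _ (row_src hq)
        simp only [Bool.and_eq_true, Bool.not_eq_true', Bool.or_eq_true, Nat.beq_eq] at h3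
        have h4 : ee F k q.1 = 0 := by
          unfold ee
          rw [if_neg]
          intro h5
          rw [h5] at h3; simp at h3
        have h5 : ee F p q.1 = 0 := by
          unfold ee
          rw [if_neg]
          intro h6
          rcases h3.2 with h7 | h7
          · rw [h6] at h7; simp at h7
          · exact hjk h7
        rw [h4, h5]; ring
    rw [h2]; ring

def scB (S : List ℕ) (p r q k : ℕ) : Bool :=
  okR S r && okR S q && Nat.blt p 27 && Nat.blt k 27 &&
  (match row r k with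
    | some (i, s) => Nat.beq i p && pm s
    | none => false) &&
  (match row q p with
    | some (i, s) => Nat.beq i k && pm s
    | none => false) &&
  ((minE6.E r).all (fun a => !Nat.beq a.2.1 k && (!Nat.beq a.2.1 p || Nat.beq a.1 k))) &&
  ((minE6.E q).all (fun a => !Nat.beq a.2.1 p && (!Nat.beq a.2.1 k || Nat.beq a.1 p)))

omit ha0 ha1 hUG in
theorem scale {S : List ℕ} (hS : ∀ a ∈ S, a < 27) {p r q k : ℕ} (h : scB S p r q k = true) {c : F} (hc : c ≠ 0) :
    ∃ u ∈ US F S, ac u (c • e F p) = e F p := by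
  unfold scB at h
  simp only [Bool.and_eq_true, Nat.blt_eq] at h
  obtain ⟨⟨⟨⟨⟨⟨⟨h1, h2⟩, hp⟩, hk⟩, h3⟩, h4⟩, h5⟩, h6⟩ := h
  have hr : r < 72 := by
    unfold okR at h1
    rw [Bool.and_eq_true, Nat.blt_eq] at h1
    exact h1.1
  have hq : q < 72 := by
    unfold okR at h2
    rw [Bool.and_eq_true, Nat.blt_eq] at h2
    exact h2.1
  split at h3
  · rename_i i s hrow
    rw [Bool.and_eq_true, Nat.beq_eq] at h3
    obtain ⟨rfl, hs⟩ := h3
    split at h4
    · rename_i i' s' hrow'
      rw [Bool.and_eq_true, Nat.beq_eq] at h4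
      obtain ⟨rfl, hs'⟩ := h4
      have a1 : ∀ t a b : F, ac (yy F r t) (a • e F i + b • e F i') = a • e F i + (b + t * s * a) • e F i' :=
        fun t a b => act2 hr hp hk hrow h5 t a b
      have a2 : ∀ t a b : F, ac (yy F q t) (a • e F i + b • e F i') = (a + t * s' * b) • e F i + b • e F i' := by
        intro t a b
        rw [add_comm, act2 hq hk hp hrow' h6 t b a, add_comm]
      have e1 : c • e F i = c • e F i + (0 : F) • e F i' := by simp
      refine ⟨yy F r (-(s : F)) * (yy F q ((s' : F) * (1 - c)) * yy F r ((s : F) * c⁻¹)),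
        (US F S).mul_mem (okR_mem h1 hS _) ((US F S).mul_mem (okR_mem h2 hS _) (okR_mem h1 hS _)), ?_⟩
      have b1 := pm_sq (F := F) hs
      have b2 := pm_sq (F := F) hs'
      rw [e1, ac_mul, ac_mul, a1, a2, a1]
      have c1 : (0 : F) + (s : F) * c⁻¹ * s * c = 1 := by
        have : (s : F) * c⁻¹ * s * c = (s : F) * s * (c⁻¹ * c) := by ring
        rw [this, b1, inv_mul_cancel₀ hc]; ring
      have c2 : c + (s' : F) * (1 - c) * s' * 1 = 1 := by
        have : (s' : F) * (1 - c) * s' * 1 = ((s' : F) * s') * (1 - c) := by ring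
        rw [this, b2]; ring
      rw [c1, c2]
      have c3 : (1 : F) + -(s : F) * s * 1 = 0 := by
        have : -(s : F) * s * 1 = -((s : F) * s) := by ring
        rw [this, b1]; ring
      rw [c3]; simp
    · exact absurd h4 (by simp)
  · exact absurd h3 (by simp)

/-! ### the steps -/

/-- S reachable -/
def Reach (F : Type*) [Field F] (S : List ℕ) : Prop :=
  ∀ g ∈ G F, ∃ u ∈ U F, ∀ a ∈ S, ac (u * g) (e F a) = e F a

/-- type 1: the coordinate is known to be one -/
theorem step1 {S : List ℕ} (hS : ∀ a ∈ S, a < 27) {p : ℕ} (hp : p < 27) {Z : List ℕ} {K fn : List (ℕ × ℕ)}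
    (h0 : z0 S p Z = true) (h1 : killsB S p K Z = true) (h2 : finsB p fn (killZ K Z) = true) (h3 : oneB S p = true)
    (hR : Reach F S) : Reach F (p :: S) := by
  intro g hg
  obtain ⟨u, hu, hE⟩ := hR g hg
  have hug : u * g ∈ G F := (G F).mul_mem (hUG hu) hg
  have hone := one_of ha0 ha1 hug hS hp hE h3
  obtain ⟨u', hu', he'⟩ := core ha0 ha1 hUG hS hp h0 h1 h2 hug hE (by rw [hone]; exact one_ne_zero)
  refine ⟨u' * u, (U F).mul_mem hu'.1 hu, ?_⟩
  intro a ha
  rw [mul_assoc]
  rcases List.mem_cons.1 ha with rfl | ha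
  · rw [he', hone, one_smul]
  · exact US_fix hu' hE a ha

/-- common part of the types 2 and 3 -/
theorem step_aux {S : List ℕ} (hS : ∀ a ∈ S, a < 27) {p : ℕ} (hp : p < 27) {Z : List ℕ} {K fn : List (ℕ × ℕ)}
    (h0 : z0 S p Z = true) (h1 : killsB S p K Z = true) (h2 : finsB p fn (killZ K Z) = true)
    (hN : ∀ g ∈ G F, (∀ a ∈ S, ac g (e F a) = e F a) → ∃ u ∈ US F S, vx (ac (u * g) (e F p)) p ≠ 0)
    (hR : Reach F S) : ∀ g ∈ G F, ∃ u ∈ U F, ∃ c : F, c ≠ 0 ∧ (∀ a ∈ S, ac (u * g) (e F a) = e F a) ∧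
      ac (u * g) (e F p) = c • e F p := by
  intro g hg
  obtain ⟨u, hu, hE⟩ := hR g hg
  have hug : u * g ∈ G F := (G F).mul_mem (hUG hu) hg
  obtain ⟨u1, hu1, hne⟩ := hN _ hug hE
  have hE1 := US_fix hu1 hE
  have hug1 : u1 * (u * g) ∈ G F := (G F).mul_mem (hUG hu1.1) hug
  obtain ⟨u2, hu2, he2⟩ := core ha0 ha1 hUG hS hp h0 h1 h2 hug1 hE1 hne
  refine ⟨u2 * (u1 * u), (U F).mul_mem hu2.1 ((U F).mul_mem hu1.1 hu), _, hne, ?_, ?_⟩
  · intro a ha
    have := US_fix hu2 hE1 a ha
    rwa [mul_assoc, mul_assoc]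
  · have e' : u2 * (u1 * u) * g = u2 * (u1 * (u * g)) := by simp only [mul_assoc]
    rw [e', he2]

omit ha0 ha1 in
theorem step_sc {S : List ℕ} (hS : ∀ a ∈ S, a < 27) {p : ℕ} {r q k : ℕ} (h : scB S p r q k = true)
    (hR : ∀ g ∈ G F, ∃ u ∈ U F, ∃ c : F, c ≠ 0 ∧ (∀ a ∈ S, ac (u * g) (e F a) = e F a) ∧
      ac (u * g) (e F p) = c • e F p) : Reach F (p :: S) := by
  intro g hg
  obtain ⟨u, hu, c, hc, hE, he⟩ := hR g hg
  obtain ⟨u', hu', he'⟩ := scale hS h hc
  refine ⟨u' * u, (U F).mul_mem hu'.1 hu, ?_⟩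
  intro a ha
  rw [mul_assoc]
  rcases List.mem_cons.1 ha with rfl | ha
  · rw [ac_mul, he, he']
  · exact US_fix hu' hE a ha

/-- paths for all possible coordinates -/
def pathsB (S : List ℕ) (p : ℕ) (P : List (ℕ × List (ℕ × ℕ))) : Bool := P.all fun q => pathB S q.1 q.2 p

/-- type 2: some coordinate outside S is non-zero -/
theorem step2 {S : List ℕ} (hS : ∀ a ∈ S, a < 27) {p : ℕ} (hp : p < 27) (hpS : p ∉ S) {Z : List ℕ} {K fn : List (ℕ × ℕ)}
    (h0 : z0 S p Z = true) (h1 : killsB S p K Z = true) (h2 : finsB p fn (killZ K Z) = true)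
    {P : List (ℕ × List (ℕ × ℕ))} (h3 : pathsB S p P = true)
    (h4 : ((List.range 27).all fun k => (S.any fun a => Nat.beq k a) || (Z.any fun a => Nat.beq k a) ||
      P.any fun q => Nat.beq q.1 k) = true)
    (hR : Reach F S) : ∀ g ∈ G F, ∃ u ∈ U F, ∃ c : F, c ≠ 0 ∧ (∀ a ∈ S, ac (u * g) (e F a) = e F a) ∧
      ac (u * g) (e F p) = c • e F p := by
  refine step_aux ha0 ha1 hUG hS hp h0 h1 h2 ?_ hR
  intro g hg hE
  obtain ⟨k, hk, hkS, hv⟩ := exists_outside hS hp hpS (Eig_of_fix hE)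
  rw [List.all_eq_true] at h4
  have h5 := h4 k (List.mem_range.2 hk)
  simp only [Bool.or_eq_true, List.any_eq_true, Nat.beq_eq] at h5
  rcases h5 with (⟨a, ha, rfl⟩ | ⟨a, ha, rfl⟩) | ⟨q, hq, rfl⟩
  · exact absurd ha hkS
  · exact absurd (vanish ha0 ha1 hg hS hp (Eig_of_fix hE) h0 k ha) hv
  · unfold pathsB at h3
    rw [List.all_eq_true] at h3
    obtain ⟨u, hu, hne⟩ := lift_path hS q.2 q.1 p (h3 q hq) _ hv
    exact ⟨u, hu, by rw [ac_mul]; exact hne⟩

/-- type 3: some non-collinear coordinate is non-zero -/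
theorem step3 {S : List ℕ} (hS : ∀ a ∈ S, a < 27) {p : ℕ} (hp : p < 27) {Z : List ℕ} {K fn : List (ℕ × ℕ)}
    (h0 : z0 S p Z = true) (h1 : killsB S p K Z = true) (h2 : finsB p fn (killZ K Z) = true)
    {P : List (ℕ × List (ℕ × ℕ))} (h3 : pathsB S p P = true) {a m : ℕ} (ha : a ∈ S) (hm : m < 27) (h5 : is1 a p m = true)
    (h4 : ((L1 a).all fun t => (P.any fun q => Nat.beq q.1 t.1) && (P.any fun q => Nat.beq q.1 t.2.1)) = true)
    (hR : Reach F S) : ∀ g ∈ G F, ∃ u ∈ U F, ∃ c : F, c ≠ 0 ∧ (∀ a ∈ S, ac (u * g) (e F a) = e F a) ∧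
      ac (u * g) (e F p) = c • e F p := by
  refine step_aux ha0 ha1 hUG hS hp h0 h1 h2 ?_ hR
  intro g hg hE
  obtain ⟨t, ht, hv⟩ := exists_nc ha0 ha1 hg (hS a ha) hp hm (hE a ha) h5
  rw [List.all_eq_true] at h4
  have h6 := h4 t ht
  simp only [Bool.and_eq_true, List.any_eq_true, Nat.beq_eq] at h6
  obtain ⟨⟨q, hq, hq'⟩, ⟨w, hw, hw'⟩⟩ := h6
  unfold pathsB at h3
  rw [List.all_eq_true] at h3
  rcases hv with hv | hv
  · rw [← hq'] at hv
    obtain ⟨u, hu, hne⟩ := lift_path hS q.2 q.1 p (h3 q hq) _ hv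
    exact ⟨u, hu, by rw [ac_mul]; exact hne⟩
  · rw [← hw'] at hv
    obtain ⟨u, hu, hne⟩ := lift_path hS w.2 w.1 p (h3 w hw) _ hv
    exact ⟨u, hu, by rw [ac_mul]; exact hne⟩

/-! ### the end -/

omit hUG in
/-- propagation of eigenvectors -/
theorem eig_cons {g : GL (Fin 27) F} (hg : g ∈ G F) {S : List ℕ} (hS : ∀ a ∈ S, a < 27) {p : ℕ} (hp : p < 27) (hE : Eig g S)
    {Z : List ℕ} (hZ : z0 S p Z = true) (h : ((List.range 27).all fun k => Nat.beq k p || Z.any fun z => Nat.beq k z) = true) :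
    Eig g (p :: S) := by
  intro a ha
  rcases List.mem_cons.1 ha with rfl | ha
  · have h1 := vanish ha0 ha1 hg hS hp hE hZ
    rw [List.all_eq_true] at h
    have h2 : ac g (e F a) = vx (ac g (e F a)) a • e F a := by
      apply support hp
      intro k hk hkp
      have h3 := h k (List.mem_range.2 hk)
      rw [Bool.or_eq_true, Nat.beq_eq, List.any_eq_true] at h3
      obtain ⟨z, hz, hkz⟩ := h3.resolve_left hkp
      rw [Nat.beq_eq] at hkz
      rw [hkz]; exact h1 z hz
    refine ⟨_, ?_, h2⟩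
    intro h0
    rw [h0, zero_smul] at h2
    have h3 := ac_inv g (e F a)
    rw [h2] at h3
    have h4 := congrFun h3 ⟨a, hp⟩
    unfold ac e at h4
    simp at h4
  · exact hE a ha

def eigB : List ℕ → List ℕ → Bool
  | [], S => (List.range 27).all fun k => S.any fun a => Nat.beq k a
  | p :: L, S => Nat.blt p 27 && z0 S p ((List.range 27).filter fun k => !Nat.beq k p) && eigB L (p :: S)

omit hUG in
theorem eig_all {g : GL (Fin 27) F} (hg : g ∈ G F) (L : List ℕ) : ∀ S : List ℕ, (∀ a ∈ S, a < 27) → Eig g S → eigB L S = true →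
    ∀ k < 27, ∃ d : F, d ≠ 0 ∧ ac g (e F k) = d • e F k := by
  induction L with
  | nil =>
    intro S hS hE h k hk
    unfold eigB at h
    rw [List.all_eq_true] at h
    have := h k (List.mem_range.2 hk)
    rw [List.any_eq_true] at this
    obtain ⟨a, ha, hka⟩ := this
    rw [Nat.beq_eq] at hka
    rw [hka]; exact hE a ha
  | cons p L ih =>
    intro S hS hE h
    unfold eigB at h
    rw [Bool.and_eq_true, Bool.and_eq_true, Nat.blt_eq] at h
    obtain ⟨⟨hp, h1⟩, h2⟩ := h
    refine ih (p :: S) ?_ (eig_cons ha0 ha1 hg hS hp hE h1 ?_) h2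
    · intro a ha
      rcases List.mem_cons.1 ha with rfl | ha
      · exact hp
      · exact hS a ha
    · rw [List.all_eq_true]
      intro k hk
      by_cases hkp : k = p
      · rw [hkp, Nat.beq_refl]; rfl
      · rw [Bool.or_eq_true]
        right
        rw [List.any_eq_true]
        refine ⟨k, ?_, Nat.beq_refl k⟩
        rw [List.mem_filter]
        refine ⟨hk, ?_⟩
        rw [NCode.nbf hkp]; rfl

/-- propagation of the value one -/
def valB : List (ℕ × ℕ × ℕ) → List ℕ → Bool
  | [], S => (List.range 27).all fun k => S.any fun a => Nat.beq k a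
  | q :: L, S => (S.any fun a => Nat.beq q.1 a) && (S.any fun a => Nat.beq q.2.1 a) && Nat.blt q.2.2 27 && is1 q.1 q.2.1 q.2.2 &&
      valB L (q.2.2 :: S)

omit hUG in
theorem val_all {g : GL (Fin 27) F} (hg : g ∈ G F) (hE : ∀ k < 27, ∃ d : F, d ≠ 0 ∧ ac g (e F k) = d • e F k)
    (L : List (ℕ × ℕ × ℕ)) : ∀ S : List ℕ, (∀ a ∈ S, a < 27) → (∀ a ∈ S, ac g (e F a) = e F a) → valB L S = true →
    ∀ k < 27, ac g (e F k) = e F k := by
  induction L with
  | nil =>
    intro S hS h1 h k hk
    unfold valB at h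
    rw [List.all_eq_true] at h
    have := h k (List.mem_range.2 hk)
    rw [List.any_eq_true] at this
    obtain ⟨a, ha, hka⟩ := this
    rw [Nat.beq_eq] at hka
    rw [hka]; exact h1 a ha
  | cons q L ih =>
    intro S hS h1 h
    unfold valB at h
    simp only [Bool.and_eq_true, List.any_eq_true, Nat.beq_eq, Nat.blt_eq] at h
    obtain ⟨⟨⟨⟨⟨a, ha, haq⟩, ⟨b, hb, hbq⟩⟩, hk⟩, h2⟩, h3⟩ := h
    refine ih (q.2.2 :: S) ?_ ?_ h3
    · intro c hc
      rcases List.mem_cons.1 hc with rfl | hc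
      · exact hk
      · exact hS c hc
    · intro c hc
      rcases List.mem_cons.1 hc with rfl | hc
      · obtain ⟨d, hd, hde⟩ := hE _ hk
        have h5 := one_of ha0 ha1 hg (S := [q.1, q.2.1]) (p := q.2.2) (by
          intro x hx
          simp only [List.mem_cons, List.not_mem_nil, or_false] at hx
          rcases hx with rfl | rfl
          · rw [haq]; exact hS a ha
          · rw [hbq]; exact hS b hb) hk (by
          intro x hx
          simp only [List.mem_cons, List.not_mem_nil, or_false] at hx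
          rcases hx with rfl | rfl
          · rw [haq]; exact h1 a ha
          · rw [hbq]; exact h1 b hb) (by
          unfold oneB
          rw [List.any_eq_true]
          refine ⟨q.1, by simp, ?_⟩
          rw [List.any_eq_true]
          exact ⟨q.2.1, by simp, h2⟩)
        rw [hde, vx_smul, vx_e hk] at h5
        have h6 : ee F q.2.2 q.2.2 = 1 := by unfold ee; rw [if_pos rfl]
        have h7 : d * ee F q.2.2 q.2.2 = 1 := h5
        rw [h6, mul_one] at h7
        rw [hde, h7, one_smul]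
      · exact h1 c hc

omit ha0 ha1 hUG in
theorem eq_one_of {g : GL (Fin 27) F} (h : ∀ k < 27, ac g (e F k) = e F k) : g = 1 := by
  apply Units.ext
  apply Matrix.toLin'.injective
  apply LinearMap.ext
  intro v
  show ac g v = ac 1 v
  rw [ac_one, e_decomp v, ac_sum]
  apply Finset.sum_congr rfl
  intro k _
  rw [ac_smul, h k.1 k.2]

end act

end H23.ModelE6
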