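/-
H23: the isometry group of the cubic form is generated by the root elements.
-/
import Cfsg.Agent.Lib.H23.ModelE6b
set_option autoImplicit false
set_option linter.unusedSectionVars false
set_option linter.unusedSimpArgs false
set_option linter.unusedVariables false
set_option maxRecDepth 100000

namespace H23.ModelE6

open Cfsg.Lie H23.ChevNSCheck H23.ChevExc H23.Minu

/-! ### invariance of the form under the root elements -/

section inv
variable {F : Type*} [Field F]

/-- the derivative of a vector along r -/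
def dv (r : ℕ) (w : ℕ → F) (k : ℕ) : F :=
  match row r k with
  | none => 0
  | some q => (q.2 : F) * w q.1

def dl1 (r : ℕ) (m : Mo) : List Mo :=
  (match row r m.2.2.1 with
    | some q => [(m.1, m.2.1, q.1, m.2.2.2 * q.2)]
    | none => []) ++
  ((match row r m.2.1 with
    | some q => [(m.1, q.1, m.2.2.1, m.2.2.2 * q.2)]
    | none => []) ++
  (match row r m.1 with
    | some q => [(q.1, m.2.1, m.2.2.1, m.2.2.2 * q.2)]
    | none => []))

def dl (r : ℕ) : List Mo := mons.flatMap fun m => dl1 r m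

theorem dl_sum (r : ℕ) (w : ℕ → F) (L : List Mo) : DL L w (dv r w) = TL (L.flatMap fun m => dl1 r m) w := by
  induction L with
  | nil => simp [DL, TL]
  | cons m L ih =>
    have e1 : DL (m :: L) w (dv r w) = (m.2.2.2 : F) *
      (w m.1 * w m.2.1 * dv r w m.2.2.1 + w m.1 * dv r w m.2.1 * w m.2.2.1 + dv r w m.1 * w m.2.1 * w m.2.2.1) + DL L w (dv r w) := by
      unfold DL; rw [List.map_cons, List.sum_cons]
    have e2 : TL (List.flatMap (fun m => dl1 r m) (m :: L)) w = TL (dl1 r m) w + TL (L.flatMap fun m => dl1 r m) w := by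
      unfold TL; rw [List.flatMap_cons, List.map_append, List.sum_append]
    rw [e1, e2, ih]
    congr 1
    unfold dl1 TL dv
    rw [List.map_append, List.sum_append, List.map_append, List.sum_append]
    cases row r m.2.2.1 <;> cases row r m.2.1 <;> cases row r m.1 <;>
      simp only [List.map_cons, List.map_nil, List.sum_cons, List.sum_nil, Int.cast_mul] <;> ring

/-- sorting -/
def sort3 (a b c : ℕ) : ℕ × ℕ × ℕ :=
  bif Nat.ble a b then (bif Nat.ble b c then (a, b, c) else bif Nat.ble a c then (a, c, b) else (c, a, b))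
  else (bif Nat.ble a c then (b, a, c) else bif Nat.ble b c then (b, c, a) else (c, b, a))

theorem sort3_prod (w : ℕ → F) (a b c : ℕ) : w a * w b * w c = w (sort3 a b c).1 * w (sort3 a b c).2.1 * w (sort3 a b c).2.2 := by
  unfold sort3
  cases Nat.ble a b <;> cases Nat.ble b c <;> cases Nat.ble a c <;> simp only [cond_true, cond_false] <;> ring

def kys (c : ℤ) (L : List Mo) : List (ℕ × ℕ × ℕ) := (L.filter fun m => m.2.2.2 == c).map fun m => sort3 m.1 m.2.1 m.2.2.1

def zchk (L : List Mo) : Bool := (L.all fun m => (m.2.2.2 == 1) || (m.2.2.2 == -1)) && (kys 1 L).isPerm (kys (-1) L)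

theorem zchk_sound {L : List Mo} (h : zchk L = true) (w : ℕ → F) : TL L w = 0 := by
  unfold zchk at h
  rw [Bool.and_eq_true, List.all_eq_true] at h
  obtain ⟨h1, h2⟩ := h
  have key : ∀ A : List Mo, (∀ x ∈ A, (x.2.2.2 == 1 || x.2.2.2 == -1) = true) → TL A w =
      ((kys 1 A).map fun k => w k.1 * w k.2.1 * w k.2.2).sum - ((kys (-1) A).map fun k => w k.1 * w k.2.1 * w k.2.2).sum := by
    intro A hA
    induction A with
    | nil => simp [TL, kys]
    | cons a A ih =>
      have h3 := hA a List.mem_cons_self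
      have e1 : TL (a :: A) w = (a.2.2.2 : F) * w a.1 * w a.2.1 * w a.2.2.1 + TL A w := by
        unfold TL; rw [List.map_cons, List.sum_cons]
      rw [e1, ih fun x hx => hA x (List.mem_cons_of_mem _ hx)]
      rw [Bool.or_eq_true, beq_iff_eq, beq_iff_eq] at h3
      unfold kys
      rw [List.filter_cons, List.filter_cons]
      have e0 := sort3_prod w a.1 a.2.1 a.2.2.1
      rcases h3 with h3 | h3
      · rw [h3]
        have e1 : ((1 : ℤ) == 1) = true := rfl
        have e2 : ((1 : ℤ) == -1) = false := rfl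
        simp only [e1, e2, if_true, if_false, List.map_cons, List.sum_cons, Bool.false_eq_true, Int.cast_one]
        rw [← e0]; ring
      · rw [h3]
        have e1 : ((-1 : ℤ) == 1) = false := rfl
        have e2 : ((-1 : ℤ) == -1) = true := rfl
        simp only [e1, e2, if_true, if_false, List.map_cons, List.sum_cons, Bool.false_eq_true, Int.cast_neg, Int.cast_one]
        rw [← e0]; ring
  rw [key L h1, sub_eq_zero]
  exact ((List.isPerm_iff.1 h2).map _).sum_eq

/-- at most one target in each monomial -/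
def sgl (r : ℕ) (m : Mo) : Bool := ((row r m.1).isNone || (row r m.2.1).isNone) && ((row r m.1).isNone || (row r m.2.2.1).isNone) &&
  ((row r m.2.1).isNone || (row r m.2.2.1).isNone)

theorem dv_none {r k : ℕ} (h : (row r k).isNone = true) (w : ℕ → F) : dv r w k = 0 := by
  rw [Option.isNone_iff_eq_none] at h
  unfold dv; rw [h]

theorem DL_dv {r : ℕ} (L : List Mo) (h : ∀ m ∈ L, sgl r m = true) (w z : ℕ → F) : DL L (dv r w) z = 0 := by
  unfold DL
  apply List.sum_eq_zero
  intro y hy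
  obtain ⟨m, hm, rfl⟩ := List.mem_map.1 hy
  have h1 := h m hm
  unfold sgl at h1
  simp only [Bool.and_eq_true, Bool.or_eq_true] at h1
  obtain ⟨⟨h2, h3⟩, h4⟩ := h1
  have e1 : dv r w m.1 * dv r w m.2.1 = 0 := by
    rcases h2 with h | h <;> rw [dv_none h] <;> ring
  have e2 : dv r w m.1 * dv r w m.2.2.1 = 0 := by
    rcases h3 with h | h <;> rw [dv_none h] <;> ring
  have e3 : dv r w m.2.1 * dv r w m.2.2.1 = 0 := by
    rcases h4 with h | h <;> rw [dv_none h] <;> ring
  linear_combination (m.2.2.2 : F) * (e1 * z m.2.2.1 + e2 * z m.2.1 + e3 * z m.1)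

theorem TL_dv {r : ℕ} (L : List Mo) (h : ∀ m ∈ L, sgl r m = true) (w : ℕ → F) : TL L (dv r w) = 0 := by
  unfold TL
  apply List.sum_eq_zero
  intro y hy
  obtain ⟨m, hm, rfl⟩ := List.mem_map.1 hy
  have h1 := h m hm
  unfold sgl at h1
  simp only [Bool.and_eq_true, Bool.or_eq_true] at h1
  obtain ⟨⟨h2, h3⟩, h4⟩ := h1
  have e1 : dv r w m.1 * dv r w m.2.1 = 0 := by
    rcases h2 with h | h <;> rw [dv_none h] <;> ring
  linear_combination (m.2.2.2 : F) * (e1 * dv r w m.2.2.1)

theorem chk_all : allB (fun r => zchk (dl r) && mons.all fun m => sgl r m) 72 = true := by decide +kernel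

theorem yy_mem_G {r : ℕ} (hr : r < 72) (t : F) : yy F r t ∈ G F := by
  intro v
  have hc := chk_all
  simp only [allB_iff, Bool.and_eq_true, List.all_eq_true] at hc
  obtain ⟨h1, h2⟩ := hc r hr
  have e : vx (ac (yy F r t) v) = fun k => vx v k + t * dv r (vx v) k := by
    funext k
    rw [act hr]; rfl
  rw [e, T_expand]
  have e1 : D (vx v) (dv r (vx v)) = 0 := by
    unfold D; rw [dl_sum]; exact zchk_sound h1 _
  have e2 : D (dv r (vx v)) (vx v) = 0 := DL_dv mons h2 _ _
  have e3 : T (dv r (vx v)) = 0 := TL_dv mons h2 _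
  rw [e1, e2, e3]; ring

theorem U_le_G : U F ≤ G F := by
  unfold U
  rw [Subgroup.closure_le]
  rintro _ ⟨r, t, hr, rfl⟩
  rw [nroots] at hr
  exact yy_mem_G hr t

end inv

/-! ### the chain -/

section chain
variable {F : Type*} [Field F] {a0 : F} (ha0 : a0 ≠ 0) (ha1 : a0 ≠ 1)
include ha0 ha1

omit ha0 ha1 in
theorem r0 : Reach F [] := by
  intro g hg
  exact ⟨1, (U F).one_mem, fun a ha => absurd ha (by simp)⟩

theorem r1 : Reach F [0] :=
  step_sc U_le_G (S := []) (by decide) (p := 0) (r := 26) (q := 45) (k := 13) (by decide +kernel)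
  (step2 ha0 ha1 U_le_G (S := []) (by decide) (p := 0) (by decide) (by decide) (Z := [])
    (K := [(49, 1), (48, 2), (61, 3), (56, 6), (64, 12), (26, 13), (62, 14), (65, 15), (27, 16), (63, 17), (28, 19), (46, 20), (66, 22), (71, 23), (29, 25), (47, 26)]) (fn := [(4, 8), (5, 7), (7, 5), (8, 4), (9, 18), (10, 21), (11, 24), (18, 9), (21, 10), (24, 11)])
    (by decide +kernel) (by decide +kernel) (by decide +kernel)
    (P := [(0, []), (1, [(22, 0)]), (2, [(23, 0)]), (3, [(10, 0)]), (4, [(0, 16), (44, 0)]), (5, [(0, 13), (45, 0)]), (6, [(15, 0)]), (7, [(5, 16), (44, 0)]), (8, [(5, 13), (45, 0)]), (9, [(0, 25), (42, 0)]), (10, [(22, 13), (45, 0)]), (11, [(0, 19), (43, 0)]), (12, [(7, 0)]), (13, [(45, 0)]), (14, [(9, 0)]), (15, [(6, 0)]), (16, [(44, 0)]), (17, [(8, 0)]), (18, [(8, 13), (45, 0)]), (19, [(43, 0)]), (20, [(25, 0)]), (21, [(0, 6), (15, 0)]), (22, [(5, 0)]), (23, [(0, 0)]), (24, [(6, 13), (45, 0)]), (25, [(42, 0)]), (26, [(24, 0)])]) (by decide +kernel)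 (by decide +kernel)
    (r0))

theorem r2 : Reach F [4, 0] :=
  step_sc U_le_G (S := [0]) (by decide) (p := 4) (r := 3) (q := 68) (k := 10) (by decide +kernel)
  (step3 ha0 ha1 U_le_G (S := [0]) (by decide) (p := 4) (by decide) (Z := [])
    (K := [(10, 1), (22, 3), (35, 5), (21, 7), (40, 9), (3, 10), (37, 11), (25, 15), (0, 16), (24, 17), (17, 18), (6, 20), (59, 21), (44, 23), (19, 24), (8, 26)]) (fn := [(0, 8), (2, 6), (6, 2), (8, 0), (12, 19), (13, 22), (14, 25), (19, 12), (22, 13), (25, 14)])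
    (by decide +kernel) (by decide +kernel) (by decide +kernel)
    (P := [(4, []), (5, [(36, 4)]), (7, [(50, 4)]), (8, [(12, 10), (68, 4)]), (9, [(31, 4)]), (10, [(68, 4)]), (11, [(34, 4)]), (18, [(54, 4)]), (21, [(12, 4)]), (24, [(52, 4)])]) (by decide +kernel) (a := 0) (m := 8) (by decide) (by decide) (by decide +kernel) (by decide +kernel)
    (r1 ha0 ha1))

theorem r3 : Reach F [8, 4, 0] :=
  step1 ha0 ha1 U_le_G (S := [4, 0]) (by decide) (p := 8) (by decide) (Z := [])
    (K := [(15, 2), (50, 5), (23, 6), (36, 7), (54, 9), (12, 10), (52, 11), (43, 12), (5, 13), (42, 14), (31, 18), (7, 19), (68, 21), (45, 22), (34, 24), (9, 25)]) (fn := [(0, 4), (1, 3), (3, 1), (4, 0), (15, 20), (16, 23), (17, 26), (20, 15), (23, 16), (26, 17)])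
    (by decide +kernel) (by decide +kernel) (by decide +kernel) (by decide +kernel)
    (r2 ha0 ha1)

theorem r4 : Reach F [5, 8, 4, 0] :=
  step_sc U_le_G (S := [8, 4, 0]) (by decide) (p := 5) (r := 4) (q := 67) (k := 10) (by decide +kernel)
  (step2 ha0 ha1 U_le_G (S := [8, 4, 0]) (by decide) (p := 5) (by decide) (by decide) (Z := [0, 1, 2, 3, 4, 6, 8, 12, 13, 14, 15, 16, 17, 19, 20, 22, 23, 25, 26])
    (K := [(41, 9), (4, 10), (38, 11), (18, 18), (60, 21), (20, 24)]) (fn := [(7, 0)])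
    (by decide +kernel) (by decide +kernel) (by decide +kernel)
    (P := [(5, []), (7, [(11, 10), (67, 5)]), (9, [(30, 5)]), (10, [(67, 5)]), (11, [(33, 5)]), (18, [(53, 5)]), (21, [(11, 5)]), (24, [(51, 5)])]) (by decide +kernel) (by decide +kernel)
    (r3 ha0 ha1))

theorem r5 : Reach F [7, 5, 8, 4, 0] :=
  step1 ha0 ha1 U_le_G (S := [5, 8, 4, 0]) (by decide) (p := 7) (by decide) (Z := [0, 1, 2, 3, 4, 6, 8, 12, 13, 14, 15, 16, 17, 19, 20, 22, 23, 25, 26])
    (K := [(53, 9), (11, 10), (51, 11), (30, 18), (67, 21), (33, 24)]) (fn := [(5, 0)])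
    (by decide +kernel) (by decide +kernel) (by decide +kernel) (by decide +kernel)
    (r4 ha0 ha1)

theorem r6 : Reach F [2, 7, 5, 8, 4, 0] :=
  step_sc U_le_G (S := [7, 5, 8, 4, 0]) (by decide) (p := 2) (r := 16) (q := 55) (k := 13) (by decide +kernel)
  (step2 ha0 ha1 U_le_G (S := [7, 5, 8, 4, 0]) (by decide) (p := 2) (by decide) (by decide) (Z := [0, 1, 3, 4, 5, 6, 7, 8, 9, 10, 11, 15, 16, 17, 18, 19, 20, 21, 22, 23, 24, 25, 26])
    (K := [(58, 12), (16, 13), (57, 14)]) (fn := [])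
    (by decide +kernel) (by decide +kernel) (by decide +kernel)
    (P := [(2, []), (12, [(13, 2)]), (13, [(55, 2)]), (14, [(14, 2)])]) (by decide +kernel) (by decide +kernel)
    (r5 ha0 ha1))

theorem r7 : Reach F [12, 2, 7, 5, 8, 4, 0] :=
  step_sc U_le_G (S := [2, 7, 5, 8, 4, 0]) (by decide) (p := 12) (r := 1) (q := 70) (k := 13) (by decide +kernel)
  (step2 ha0 ha1 U_le_G (S := [2, 7, 5, 8, 4, 0]) (by decide) (p := 12) (by decide) (by decide) (Z := [0, 1, 3, 4, 5, 6, 7, 8, 9, 10, 11, 15, 16, 17, 18, 19, 20, 21, 22, 23, 24, 25, 26])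
    (K := [(13, 2), (1, 13), (32, 14)]) (fn := [])
    (by decide +kernel) (by decide +kernel) (by decide +kernel)
    (P := [(12, []), (13, [(70, 12)]), (14, [(39, 12)])]) (by decide +kernel) (by decide +kernel)
    (r6 ha0 ha1))

theorem r8 : Reach F [13, 12, 2, 7, 5, 8, 4, 0] :=
  step_sc U_le_G (S := [12, 2, 7, 5, 8, 4, 0]) (by decide) (p := 13) (r := 69) (q := 2) (k := 14) (by decide +kernel)
  (step2 ha0 ha1 U_le_G (S := [12, 2, 7, 5, 8, 4, 0]) (by decide) (p := 13) (by decide) (by decide) (Z := [0, 1, 3, 4, 5, 6, 7, 8, 9, 10, 11, 15, 16, 17, 18, 19, 20, 21, 22, 23, 24, 25, 26])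
    (K := [(55, 2), (70, 12), (69, 14)]) (fn := [])
    (by decide +kernel) (by decide +kernel) (by decide +kernel)
    (P := [(13, []), (14, [(2, 13)])]) (by decide +kernel) (by decide +kernel)
    (r7 ha0 ha1))

theorem last : ∀ g ∈ G F, ∃ u ∈ U F, ∃ c : F, c ≠ 0 ∧ (∀ a ∈ [13, 12, 2, 7, 5, 8, 4, 0], ac (u * g) (e F a) = e F a) ∧
    ac (u * g) (e F 14) = c • e F 14 :=
  step2 ha0 ha1 U_le_G (S := [13, 12, 2, 7, 5, 8, 4, 0]) (by decide) (p := 14) (by decide) (by decide) (Z := [0, 1, 3, 4, 5, 6, 7, 8, 9, 10, 11, 15, 16, 17, 18, 19, 20, 21, 22, 23, 24, 25, 26])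
    (K := [(14, 2), (39, 12), (2, 13)]) (fn := [])
    (by decide +kernel) (by decide +kernel) (by decide +kernel)
    (P := [(14, [])]) (by decide +kernel) (by decide +kernel)
    (r8 ha0 ha1)

theorem G_le_U : G F ≤ U F := by
  intro g hg
  obtain ⟨u, hu, c, hc, h1, h2⟩ := last ha0 ha1 g hg
  have hug : u * g ∈ G F := (G F).mul_mem (U_le_G hu) hg
  have hE : Eig (u * g) (14 :: [13, 12, 2, 7, 5, 8, 4, 0]) := by
    intro a ha
    rcases List.mem_cons.1 ha with rfl | ha
    · exact ⟨c, hc, h2⟩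
    · exact ⟨1, one_ne_zero, by rw [h1 a ha, one_smul]⟩
  have h3 := eig_all ha0 ha1 hug [1, 3, 6, 9, 10, 11, 15, 16, 17, 18, 19, 20, 21, 22, 23, 24, 25, 26] (14 :: [13, 12, 2, 7, 5, 8, 4, 0]) (by decide) hE (by decide +kernel)
  have h4 := val_all ha0 ha1 hug h3 [(2, 4, 6), (2, 7, 3), (4, 12, 19), (4, 13, 22), (5, 6, 1), (5, 19, 15), (5, 22, 16), (7, 12, 20), (7, 13, 23), (12, 1, 18), (12, 16, 11), (13, 1, 21), (0, 11, 24), (0, 18, 9), (0, 21, 10), (1, 24, 14), (2, 24, 17), (3, 11, 25), (6, 11, 26)] [13, 12, 2, 7, 5, 8, 4, 0] (by decide) h1 (by decide +kernel)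
  have h5 := eq_one_of h4
  have h6 : g = u⁻¹ := (inv_eq_of_mul_eq_one_right h5).symm
  rw [h6]
  exact (U F).inv_mem hu

end chain

end H23.ModelE6
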