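/-
H23: E6(F) as the group of isometries of the cubic form modulo its centre.
-/
import Cfsg.Agent.Lib.H23.ModelE6c
import Cfsg.Agent.Lib.H23.ChevModel
import Cfsg.Agent.Lib.H22.StThm
import Cfsg.Agent.Lib.H22.ChevAll
import Cfsg.Agent.Lib.H7.OmegaIso
import Cfsg.Prelude.Def_E6
set_option autoImplicit false
set_option linter.unusedSectionVars false
set_option linter.unusedSimpArgs false
set_option linter.unusedVariables false

namespace H23.ModelE6

open Cfsg.Lie H23.ChevNSCheck H23.ChevExc H23.Minu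

/-- coordinates -/
def enc : I27 ≃ Fin 27 where
  toFun p := ⟨9 * p.1.1 + 3 * p.2.1.1 + p.2.2.1, by have := p.1.2; have := p.2.1.2; have := p.2.2.2; omega⟩
  invFun k := (⟨k.1 / 9, by have := k.2; omega⟩, ⟨k.1 / 3 % 3, by omega⟩, ⟨k.1 % 3, by omega⟩)
  left_inv := by decide
  right_inv := by decide

section
variable {F : Type*} [Field F]

theorem T_eq (v : Fin 27 → F) : T (vx v) = cubicT (v ∘ enc) := by
  have h0 : vx v 0 = (v ∘ enc) (0, 0, 0) := rfl
  have h1 : vx v 1 = (v ∘ enc) (0, 0, 1) := rfl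
  have h2 : vx v 2 = (v ∘ enc) (0, 0, 2) := rfl
  have h3 : vx v 3 = (v ∘ enc) (0, 1, 0) := rfl
  have h4 : vx v 4 = (v ∘ enc) (0, 1, 1) := rfl
  have h5 : vx v 5 = (v ∘ enc) (0, 1, 2) := rfl
  have h6 : vx v 6 = (v ∘ enc) (0, 2, 0) := rfl
  have h7 : vx v 7 = (v ∘ enc) (0, 2, 1) := rfl
  have h8 : vx v 8 = (v ∘ enc) (0, 2, 2) := rfl
  have h9 : vx v 9 = (v ∘ enc) (1, 0, 0) := rfl
  have h10 : vx v 10 = (v ∘ enc) (1, 0, 1) := rfl
  have h11 : vx v 11 = (v ∘ enc) (1, 0, 2) := rfl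
  have h12 : vx v 12 = (v ∘ enc) (1, 1, 0) := rfl
  have h13 : vx v 13 = (v ∘ enc) (1, 1, 1) := rfl
  have h14 : vx v 14 = (v ∘ enc) (1, 1, 2) := rfl
  have h15 : vx v 15 = (v ∘ enc) (1, 2, 0) := rfl
  have h16 : vx v 16 = (v ∘ enc) (1, 2, 1) := rfl
  have h17 : vx v 17 = (v ∘ enc) (1, 2, 2) := rfl
  have h18 : vx v 18 = (v ∘ enc) (2, 0, 0) := rfl
  have h19 : vx v 19 = (v ∘ enc) (2, 0, 1) := rfl
  have h20 : vx v 20 = (v ∘ enc) (2, 0, 2) := rfl
  have h21 : vx v 21 = (v ∘ enc) (2, 1, 0) := rfl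
  have h22 : vx v 22 = (v ∘ enc) (2, 1, 1) := rfl
  have h23 : vx v 23 = (v ∘ enc) (2, 1, 2) := rfl
  have h24 : vx v 24 = (v ∘ enc) (2, 2, 0) := rfl
  have h25 : vx v 25 = (v ∘ enc) (2, 2, 1) := rfl
  have h26 : vx v 26 = (v ∘ enc) (2, 2, 2) := rfl
  unfold cubicT
  rw [Matrix.det_fin_three, Matrix.det_fin_three, Matrix.det_fin_three, Matrix.trace, Fin.sum_univ_three]
  simp only [Matrix.diag_apply, Matrix.mul_apply, Fin.sum_univ_three, mat3, Matrix.of_apply]
  simp only [T, TL, mons, List.map_cons, List.map_nil, List.sum_cons, List.sum_nil, h0, h1, h2, h3, h4, h5, h6, h7, h8, h9, h10, h11, h12, h13, h14, h15, h16, h17, h18, h19, h20, h21, h22, h23, h24, h25, h26,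
    Int.cast_one, Int.cast_neg]
  ring

/-- reindexing -/
noncomputable def phi : GL I27 F ≃* GL (Fin 27) F := Units.mapEquiv (Matrix.reindexAlgEquiv F F enc).toMulEquiv

theorem phi_ac (g : GL I27 F) (v : Fin 27 → F) : ac (phi g) v ∘ enc = (g : Matrix I27 I27 F).mulVec (v ∘ enc) := by
  have h1 : ac (phi g) v = ((g : Matrix I27 I27 F).submatrix enc.symm enc.symm).mulVec v := rfl
  rw [h1, Matrix.submatrix_mulVec_equiv]
  funext k
  simp

theorem mem_iff (g : GL I27 F) : g ∈ E6univ F ↔ phi g ∈ G F := by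
  constructor
  · intro hg v
    rw [T_eq, T_eq, phi_ac]
    exact hg _
  · intro hg v
    have := hg (v ∘ enc.symm)
    rw [T_eq, T_eq, phi_ac] at this
    have e : (v ∘ enc.symm) ∘ enc = v := by
      funext k; simp
    rw [e] at this
    exact this

/-- the two isometry groups -/
noncomputable def equivG : E6univ F ≃* G F :=
  (phi.subgroupMap (E6univ F)).trans (MulEquiv.subgroupCongr (by
    ext g
    constructor
    · rintro ⟨h, hh, rfl⟩
      exact (mem_iff h).1 hh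
    · intro hg
      refine ⟨phi.symm g, ?_, phi.apply_symm_apply g⟩
      rw [SetLike.mem_coe, mem_iff, phi.apply_symm_apply]
      exact hg))

theorem yy_mem (r : ℕ) (t : F) : yy F r t ∈ G F := by
  by_cases hr : r < 72
  · exact yy_mem_G hr t
  · have : yy F r t = 1 := by
      unfold yy y
      rw [dif_neg (by rw [nroots]; exact hr)]
    rw [this]
    exact (G F).one_mem

/-- root elements -/
noncomputable def X (r : ℕ) (t : F) : G F := ⟨yy F r t, yy_mem r t⟩

theorem stR : StR chevE6 (X (F := F)) :=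
  H23.ChevModel.StR.comap (G F).subtype (Subgroup.subtype_injective _) (Minu.stR easyE6 pairsE6 F)

theorem gen {a0 : F} (ha0 : a0 ≠ 0) (ha1 : a0 ≠ 1) :
    Subgroup.closure {g : G F | ∃ r t, r < chevE6.nroots ∧ g = X r t} = ⊤ :=
  H23.ChevModel.closure_eq_top_of (G_le_U ha0 ha1)

theorem not_comm : ∃ a b : G F, a * b ≠ b * a := by
  refine ⟨X 0 1, X 71 1, ?_⟩
  intro h
  have h1 := congrArg (fun g : G F => vx (ac (g : GL (Fin 27) F) (e F 0)) 0) h
  simp only [X, Subgroup.coe_mul, ac_mul] at h1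
  have r1 : row 0 0 = some (23, 1) := by decide +kernel
  have r2 : row 71 23 = some (0, 1) := by decide +kernel
  have r3 : row 71 0 = none := by decide +kernel
  have r4 : row 0 23 = none := by decide +kernel
  rw [act (by norm_num), act (by norm_num), act (by norm_num), act (by norm_num), r1, r3] at h1
  simp only [mul_zero, add_zero] at h1
  rw [act (by norm_num), r2] at h1
  simp only [vx_e (show 0 < 27 by norm_num)] at h1
  simp [ee] at h1

end

theorem main {F : Type*} [Field F] (hF : ∃ a : F, a ≠ 0 ∧ a ≠ 1) : Nonempty (Cfsg.Lie.E6 F ≃* ↥(Cfsg.Lie.chevE6.group F)) := by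
  obtain ⟨a, ha0, ha1⟩ := hF
  obtain ⟨e1⟩ := H23.ChevModel.equiv_of_simple (D := chevE6) (H22.St.s1077 chevE6 (by simp)) (fun r hr => neg_lt easyE6 hr)
    (fun r hr s hs h1 h2 => ct easyE6 pairsE6 hr hs h1 h2) stR (gen ha0 ha1)
    (H22.ChevSimple.simpleE6 (H22.ChevAll.rel chevE6 (by simp) F)).1 not_comm
  exact ⟨(H7.OmegaIso.quotCenterCongr equivG).trans e1.symm⟩

end H23.ModelE6
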