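/-
H23: B2(2) = S6.
-/
import Cfsg.Agent.Lib.H23.ModelB2b
import Cfsg.Agent.S1060
set_option autoImplicit false
set_option linter.unusedSimpArgs false
set_option maxRecDepth 10000

namespace H23.ModelS6

open Cfsg.Lie H23.ChevExc

/-- involutions -/
def sg (r : ℕ) : Equiv.Perm (Fin 6) :=
  match r with
  | 0 => Equiv.swap 0 2
  | 1 => Equiv.swap 0 2 * Equiv.swap 1 5 * Equiv.swap 3 4
  | 2 => Equiv.swap 0 2 * Equiv.swap 1 3 * Equiv.swap 4 5
  | 3 => Equiv.swap 3 4
  | 4 => Equiv.swap 4 5
  | 5 => Equiv.swap 0 1 * Equiv.swap 2 5 * Equiv.swap 3 4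
  | 6 => Equiv.swap 0 1 * Equiv.swap 2 3 * Equiv.swap 4 5
  | 7 => Equiv.swap 0 1
  | _ => 1

open Classical in
/-- root elements over the field of two elements -/
noncomputable def x {F : Type*} [Field F] (r : ℕ) (t : F) : Equiv.Perm (Fin 6) := if t = 0 then 1 else sg r

section
variable {F : Type*} [Field F]

theorem x0 (r : ℕ) : x r (0 : F) = 1 := by simp [x]
theorem x1 (r : ℕ) : x r (1 : F) = sg r := by simp [x]

variable (h2 : (2 : F) = 0) (hF : ∀ t : F, t = 0 ∨ t = 1)
include h2 hF

theorem n1 : (-1 : F) = 1 := by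
  have : (1 : F) + 1 = 0 := by rw [one_add_one_eq_two, h2]
  exact neg_eq_of_add_eq_zero_left this

theorem c0_1 (t u : F) : x 1 u * x 0 t = x 0 t * x 1 u * wp (x (F := F)) (chevB2.commWord F 0 1 t u) := by
  have hct : chevB2.commTerms 0 1 = [] := by decide +kernel
  have hn1 := n1 h2 hF
  unfold wp ChevalleyDatum.commWord
  rw [hct]
  simp only [List.map_cons, List.map_nil, List.prod_cons, List.prod_nil, mul_one, pow_one]
  rcases hF t with rfl | rfl <;> rcases hF u with rfl | rfl <;>
    simp [x0, x1, hn1, h2, Int.cast_ofNat] <;> try decide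

theorem c0_2 (t u : F) : x 2 u * x 0 t = x 0 t * x 2 u * wp (x (F := F)) (chevB2.commWord F 0 2 t u) := by
  have hct : chevB2.commTerms 0 2 = [] := by decide +kernel
  have hn1 := n1 h2 hF
  unfold wp ChevalleyDatum.commWord
  rw [hct]
  simp only [List.map_cons, List.map_nil, List.prod_cons, List.prod_nil, mul_one, pow_one]
  rcases hF t with rfl | rfl <;> rcases hF u with rfl | rfl <;>
    simp [x0, x1, hn1, h2, Int.cast_ofNat] <;> try decide

theorem c0_3 (t u : F) : x 3 u * x 0 t = x 0 t * x 3 u * wp (x (F := F)) (chevB2.commWord F 0 3 t u) := by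
  have hct : chevB2.commTerms 0 3 = [] := by decide +kernel
  have hn1 := n1 h2 hF
  unfold wp ChevalleyDatum.commWord
  rw [hct]
  simp only [List.map_cons, List.map_nil, List.prod_cons, List.prod_nil, mul_one, pow_one]
  rcases hF t with rfl | rfl <;> rcases hF u with rfl | rfl <;>
    simp [x0, x1, hn1, h2, Int.cast_ofNat] <;> try decide

theorem c0_4 (t u : F) : x 4 u * x 0 t = x 0 t * x 4 u * wp (x (F := F)) (chevB2.commWord F 0 4 t u) := by
  have hct : chevB2.commTerms 0 4 = [] := by decide +kernel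
  have hn1 := n1 h2 hF
  unfold wp ChevalleyDatum.commWord
  rw [hct]
  simp only [List.map_cons, List.map_nil, List.prod_cons, List.prod_nil, mul_one, pow_one]
  rcases hF t with rfl | rfl <;> rcases hF u with rfl | rfl <;>
    simp [x0, x1, hn1, h2, Int.cast_ofNat] <;> try decide

theorem c0_5 (t u : F) : x 5 u * x 0 t = x 0 t * x 5 u * wp (x (F := F)) (chevB2.commWord F 0 5 t u) := by
  have hct : chevB2.commTerms 0 5 = [(1, 1, 1, 1), (3, -1, 1, 2)] := by decide +kernel
  have hn1 := n1 h2 hF
  unfold wp ChevalleyDatum.commWord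
  rw [hct]
  simp only [List.map_cons, List.map_nil, List.prod_cons, List.prod_nil, mul_one, pow_one]
  rcases hF t with rfl | rfl <;> rcases hF u with rfl | rfl <;>
    simp [x0, x1, hn1, h2, Int.cast_ofNat] <;> try decide

theorem c0_6 (t u : F) : x 6 u * x 0 t = x 0 t * x 6 u * wp (x (F := F)) (chevB2.commWord F 0 6 t u) := by
  have hct : chevB2.commTerms 0 6 = [(2, -1, 1, 1), (4, 1, 1, 2)] := by decide +kernel
  have hn1 := n1 h2 hF
  unfold wp ChevalleyDatum.commWord
  rw [hct]
  simp only [List.map_cons, List.map_nil, List.prod_cons, List.prod_nil, mul_one, pow_one]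
  rcases hF t with rfl | rfl <;> rcases hF u with rfl | rfl <;>
    simp [x0, x1, hn1, h2, Int.cast_ofNat] <;> try decide

theorem c1_0 (t u : F) : x 0 u * x 1 t = x 1 t * x 0 u * wp (x (F := F)) (chevB2.commWord F 1 0 t u) := by
  have hct : chevB2.commTerms 1 0 = [] := by decide +kernel
  have hn1 := n1 h2 hF
  unfold wp ChevalleyDatum.commWord
  rw [hct]
  simp only [List.map_cons, List.map_nil, List.prod_cons, List.prod_nil, mul_one, pow_one]
  rcases hF t with rfl | rfl <;> rcases hF u with rfl | rfl <;>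
    simp [x0, x1, hn1, h2, Int.cast_ofNat] <;> try decide

theorem c1_2 (t u : F) : x 2 u * x 1 t = x 1 t * x 2 u * wp (x (F := F)) (chevB2.commWord F 1 2 t u) := by
  have hct : chevB2.commTerms 1 2 = [(0, 2, 1, 1)] := by decide +kernel
  have hn1 := n1 h2 hF
  unfold wp ChevalleyDatum.commWord
  rw [hct]
  simp only [List.map_cons, List.map_nil, List.prod_cons, List.prod_nil, mul_one, pow_one]
  rcases hF t with rfl | rfl <;> rcases hF u with rfl | rfl <;>
    simp [x0, x1, hn1, h2, Int.cast_ofNat] <;> try decide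

theorem c1_3 (t u : F) : x 3 u * x 1 t = x 1 t * x 3 u * wp (x (F := F)) (chevB2.commWord F 1 3 t u) := by
  have hct : chevB2.commTerms 1 3 = [] := by decide +kernel
  have hn1 := n1 h2 hF
  unfold wp ChevalleyDatum.commWord
  rw [hct]
  simp only [List.map_cons, List.map_nil, List.prod_cons, List.prod_nil, mul_one, pow_one]
  rcases hF t with rfl | rfl <;> rcases hF u with rfl | rfl <;>
    simp [x0, x1, hn1, h2, Int.cast_ofNat] <;> try decide

theorem c1_4 (t u : F) : x 4 u * x 1 t = x 1 t * x 4 u * wp (x (F := F)) (chevB2.commWord F 1 4 t u) := by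
  have hct : chevB2.commTerms 1 4 = [(2, 1, 1, 1), (0, 1, 2, 1)] := by decide +kernel
  have hn1 := n1 h2 hF
  unfold wp ChevalleyDatum.commWord
  rw [hct]
  simp only [List.map_cons, List.map_nil, List.prod_cons, List.prod_nil, mul_one, pow_one]
  rcases hF t with rfl | rfl <;> rcases hF u with rfl | rfl <;>
    simp [x0, x1, hn1, h2, Int.cast_ofNat] <;> try decide

theorem c1_5 (t u : F) : x 5 u * x 1 t = x 1 t * x 5 u * wp (x (F := F)) (chevB2.commWord F 1 5 t u) := by
  have hct : chevB2.commTerms 1 5 = [(3, -2, 1, 1)] := by decide +kernel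
  have hn1 := n1 h2 hF
  unfold wp ChevalleyDatum.commWord
  rw [hct]
  simp only [List.map_cons, List.map_nil, List.prod_cons, List.prod_nil, mul_one, pow_one]
  rcases hF t with rfl | rfl <;> rcases hF u with rfl | rfl <;>
    simp [x0, x1, hn1, h2, Int.cast_ofNat] <;> try decide

theorem c1_7 (t u : F) : x 7 u * x 1 t = x 1 t * x 7 u * wp (x (F := F)) (chevB2.commWord F 1 7 t u) := by
  have hct : chevB2.commTerms 1 7 = [(5, -1, 1, 1), (3, 1, 2, 1)] := by decide +kernel
  have hn1 := n1 h2 hF
  unfold wp ChevalleyDatum.commWord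
  rw [hct]
  simp only [List.map_cons, List.map_nil, List.prod_cons, List.prod_nil, mul_one, pow_one]
  rcases hF t with rfl | rfl <;> rcases hF u with rfl | rfl <;>
    simp [x0, x1, hn1, h2, Int.cast_ofNat] <;> try decide

theorem c2_0 (t u : F) : x 0 u * x 2 t = x 2 t * x 0 u * wp (x (F := F)) (chevB2.commWord F 2 0 t u) := by
  have hct : chevB2.commTerms 2 0 = [] := by decide +kernel
  have hn1 := n1 h2 hF
  unfold wp ChevalleyDatum.commWord
  rw [hct]
  simp only [List.map_cons, List.map_nil, List.prod_cons, List.prod_nil, mul_one, pow_one]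
  rcases hF t with rfl | rfl <;> rcases hF u with rfl | rfl <;>
    simp [x0, x1, hn1, h2, Int.cast_ofNat] <;> try decide

theorem c2_1 (t u : F) : x 1 u * x 2 t = x 2 t * x 1 u * wp (x (F := F)) (chevB2.commWord F 2 1 t u) := by
  have hct : chevB2.commTerms 2 1 = [(0, -2, 1, 1)] := by decide +kernel
  have hn1 := n1 h2 hF
  unfold wp ChevalleyDatum.commWord
  rw [hct]
  simp only [List.map_cons, List.map_nil, List.prod_cons, List.prod_nil, mul_one, pow_one]
  rcases hF t with rfl | rfl <;> rcases hF u with rfl | rfl <;>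
    simp [x0, x1, hn1, h2, Int.cast_ofNat] <;> try decide

theorem c2_3 (t u : F) : x 3 u * x 2 t = x 2 t * x 3 u * wp (x (F := F)) (chevB2.commWord F 2 3 t u) := by
  have hct : chevB2.commTerms 2 3 = [(1, 1, 1, 1), (0, -1, 2, 1)] := by decide +kernel
  have hn1 := n1 h2 hF
  unfold wp ChevalleyDatum.commWord
  rw [hct]
  simp only [List.map_cons, List.map_nil, List.prod_cons, List.prod_nil, mul_one, pow_one]
  rcases hF t with rfl | rfl <;> rcases hF u with rfl | rfl <;>
    simp [x0, x1, hn1, h2, Int.cast_ofNat] <;> try decide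

theorem c2_4 (t u : F) : x 4 u * x 2 t = x 2 t * x 4 u * wp (x (F := F)) (chevB2.commWord F 2 4 t u) := by
  have hct : chevB2.commTerms 2 4 = [] := by decide +kernel
  have hn1 := n1 h2 hF
  unfold wp ChevalleyDatum.commWord
  rw [hct]
  simp only [List.map_cons, List.map_nil, List.prod_cons, List.prod_nil, mul_one, pow_one]
  rcases hF t with rfl | rfl <;> rcases hF u with rfl | rfl <;>
    simp [x0, x1, hn1, h2, Int.cast_ofNat] <;> try decide

theorem c2_6 (t u : F) : x 6 u * x 2 t = x 2 t * x 6 u * wp (x (F := F)) (chevB2.commWord F 2 6 t u) := by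
  have hct : chevB2.commTerms 2 6 = [(4, -2, 1, 1)] := by decide +kernel
  have hn1 := n1 h2 hF
  unfold wp ChevalleyDatum.commWord
  rw [hct]
  simp only [List.map_cons, List.map_nil, List.prod_cons, List.prod_nil, mul_one, pow_one]
  rcases hF t with rfl | rfl <;> rcases hF u with rfl | rfl <;>
    simp [x0, x1, hn1, h2, Int.cast_ofNat] <;> try decide

theorem c2_7 (t u : F) : x 7 u * x 2 t = x 2 t * x 7 u * wp (x (F := F)) (chevB2.commWord F 2 7 t u) := by
  have hct : chevB2.commTerms 2 7 = [(6, 1, 1, 1), (4, -1, 2, 1)] := by decide +kernel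
  have hn1 := n1 h2 hF
  unfold wp ChevalleyDatum.commWord
  rw [hct]
  simp only [List.map_cons, List.map_nil, List.prod_cons, List.prod_nil, mul_one, pow_one]
  rcases hF t with rfl | rfl <;> rcases hF u with rfl | rfl <;>
    simp [x0, x1, hn1, h2, Int.cast_ofNat] <;> try decide

theorem c3_0 (t u : F) : x 0 u * x 3 t = x 3 t * x 0 u * wp (x (F := F)) (chevB2.commWord F 3 0 t u) := by
  have hct : chevB2.commTerms 3 0 = [] := by decide +kernel
  have hn1 := n1 h2 hF
  unfold wp ChevalleyDatum.commWord
  rw [hct]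
  simp only [List.map_cons, List.map_nil, List.prod_cons, List.prod_nil, mul_one, pow_one]
  rcases hF t with rfl | rfl <;> rcases hF u with rfl | rfl <;>
    simp [x0, x1, hn1, h2, Int.cast_ofNat] <;> try decide

theorem c3_1 (t u : F) : x 1 u * x 3 t = x 3 t * x 1 u * wp (x (F := F)) (chevB2.commWord F 3 1 t u) := by
  have hct : chevB2.commTerms 3 1 = [] := by decide +kernel
  have hn1 := n1 h2 hF
  unfold wp ChevalleyDatum.commWord
  rw [hct]
  simp only [List.map_cons, List.map_nil, List.prod_cons, List.prod_nil, mul_one, pow_one]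
  rcases hF t with rfl | rfl <;> rcases hF u with rfl | rfl <;>
    simp [x0, x1, hn1, h2, Int.cast_ofNat] <;> try decide

theorem c3_2 (t u : F) : x 2 u * x 3 t = x 3 t * x 2 u * wp (x (F := F)) (chevB2.commWord F 3 2 t u) := by
  have hct : chevB2.commTerms 3 2 = [(1, -1, 1, 1), (0, -1, 1, 2)] := by decide +kernel
  have hn1 := n1 h2 hF
  unfold wp ChevalleyDatum.commWord
  rw [hct]
  simp only [List.map_cons, List.map_nil, List.prod_cons, List.prod_nil, mul_one, pow_one]
  rcases hF t with rfl | rfl <;> rcases hF u with rfl | rfl <;>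
    simp [x0, x1, hn1, h2, Int.cast_ofNat] <;> try decide

theorem c3_5 (t u : F) : x 5 u * x 3 t = x 3 t * x 5 u * wp (x (F := F)) (chevB2.commWord F 3 5 t u) := by
  have hct : chevB2.commTerms 3 5 = [] := by decide +kernel
  have hn1 := n1 h2 hF
  unfold wp ChevalleyDatum.commWord
  rw [hct]
  simp only [List.map_cons, List.map_nil, List.prod_cons, List.prod_nil, mul_one, pow_one]
  rcases hF t with rfl | rfl <;> rcases hF u with rfl | rfl <;>
    simp [x0, x1, hn1, h2, Int.cast_ofNat] <;> try decide

theorem c3_6 (t u : F) : x 6 u * x 3 t = x 3 t * x 6 u * wp (x (F := F)) (chevB2.commWord F 3 6 t u) := by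
  have hct : chevB2.commTerms 3 6 = [(5, 1, 1, 1), (7, 1, 1, 2)] := by decide +kernel
  have hn1 := n1 h2 hF
  unfold wp ChevalleyDatum.commWord
  rw [hct]
  simp only [List.map_cons, List.map_nil, List.prod_cons, List.prod_nil, mul_one, pow_one]
  rcases hF t with rfl | rfl <;> rcases hF u with rfl | rfl <;>
    simp [x0, x1, hn1, h2, Int.cast_ofNat] <;> try decide

theorem c3_7 (t u : F) : x 7 u * x 3 t = x 3 t * x 7 u * wp (x (F := F)) (chevB2.commWord F 3 7 t u) := by
  have hct : chevB2.commTerms 3 7 = [] := by decide +kernel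
  have hn1 := n1 h2 hF
  unfold wp ChevalleyDatum.commWord
  rw [hct]
  simp only [List.map_cons, List.map_nil, List.prod_cons, List.prod_nil, mul_one, pow_one]
  rcases hF t with rfl | rfl <;> rcases hF u with rfl | rfl <;>
    simp [x0, x1, hn1, h2, Int.cast_ofNat] <;> try decide

theorem c4_0 (t u : F) : x 0 u * x 4 t = x 4 t * x 0 u * wp (x (F := F)) (chevB2.commWord F 4 0 t u) := by
  have hct : chevB2.commTerms 4 0 = [] := by decide +kernel
  have hn1 := n1 h2 hF
  unfold wp ChevalleyDatum.commWord
  rw [hct]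
  simp only [List.map_cons, List.map_nil, List.prod_cons, List.prod_nil, mul_one, pow_one]
  rcases hF t with rfl | rfl <;> rcases hF u with rfl | rfl <;>
    simp [x0, x1, hn1, h2, Int.cast_ofNat] <;> try decide

theorem c4_1 (t u : F) : x 1 u * x 4 t = x 4 t * x 1 u * wp (x (F := F)) (chevB2.commWord F 4 1 t u) := by
  have hct : chevB2.commTerms 4 1 = [(2, -1, 1, 1), (0, 1, 1, 2)] := by decide +kernel
  have hn1 := n1 h2 hF
  unfold wp ChevalleyDatum.commWord
  rw [hct]
  simp only [List.map_cons, List.map_nil, List.prod_cons, List.prod_nil, mul_one, pow_one]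
  rcases hF t with rfl | rfl <;> rcases hF u with rfl | rfl <;>
    simp [x0, x1, hn1, h2, Int.cast_ofNat] <;> try decide

theorem c4_2 (t u : F) : x 2 u * x 4 t = x 4 t * x 2 u * wp (x (F := F)) (chevB2.commWord F 4 2 t u) := by
  have hct : chevB2.commTerms 4 2 = [] := by decide +kernel
  have hn1 := n1 h2 hF
  unfold wp ChevalleyDatum.commWord
  rw [hct]
  simp only [List.map_cons, List.map_nil, List.prod_cons, List.prod_nil, mul_one, pow_one]
  rcases hF t with rfl | rfl <;> rcases hF u with rfl | rfl <;>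
    simp [x0, x1, hn1, h2, Int.cast_ofNat] <;> try decide

theorem c4_5 (t u : F) : x 5 u * x 4 t = x 4 t * x 5 u * wp (x (F := F)) (chevB2.commWord F 4 5 t u) := by
  have hct : chevB2.commTerms 4 5 = [(6, 1, 1, 1), (7, -1, 1, 2)] := by decide +kernel
  have hn1 := n1 h2 hF
  unfold wp ChevalleyDatum.commWord
  rw [hct]
  simp only [List.map_cons, List.map_nil, List.prod_cons, List.prod_nil, mul_one, pow_one]
  rcases hF t with rfl | rfl <;> rcases hF u with rfl | rfl <;>
    simp [x0, x1, hn1, h2, Int.cast_ofNat] <;> try decide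

theorem c4_6 (t u : F) : x 6 u * x 4 t = x 4 t * x 6 u * wp (x (F := F)) (chevB2.commWord F 4 6 t u) := by
  have hct : chevB2.commTerms 4 6 = [] := by decide +kernel
  have hn1 := n1 h2 hF
  unfold wp ChevalleyDatum.commWord
  rw [hct]
  simp only [List.map_cons, List.map_nil, List.prod_cons, List.prod_nil, mul_one, pow_one]
  rcases hF t with rfl | rfl <;> rcases hF u with rfl | rfl <;>
    simp [x0, x1, hn1, h2, Int.cast_ofNat] <;> try decide

theorem c4_7 (t u : F) : x 7 u * x 4 t = x 4 t * x 7 u * wp (x (F := F)) (chevB2.commWord F 4 7 t u) := by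
  have hct : chevB2.commTerms 4 7 = [] := by decide +kernel
  have hn1 := n1 h2 hF
  unfold wp ChevalleyDatum.commWord
  rw [hct]
  simp only [List.map_cons, List.map_nil, List.prod_cons, List.prod_nil, mul_one, pow_one]
  rcases hF t with rfl | rfl <;> rcases hF u with rfl | rfl <;>
    simp [x0, x1, hn1, h2, Int.cast_ofNat] <;> try decide

theorem c5_0 (t u : F) : x 0 u * x 5 t = x 5 t * x 0 u * wp (x (F := F)) (chevB2.commWord F 5 0 t u) := by
  have hct : chevB2.commTerms 5 0 = [(1, -1, 1, 1), (3, -1, 2, 1)] := by decide +kernel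
  have hn1 := n1 h2 hF
  unfold wp ChevalleyDatum.commWord
  rw [hct]
  simp only [List.map_cons, List.map_nil, List.prod_cons, List.prod_nil, mul_one, pow_one]
  rcases hF t with rfl | rfl <;> rcases hF u with rfl | rfl <;>
    simp [x0, x1, hn1, h2, Int.cast_ofNat] <;> try decide

theorem c5_1 (t u : F) : x 1 u * x 5 t = x 5 t * x 1 u * wp (x (F := F)) (chevB2.commWord F 5 1 t u) := by
  have hct : chevB2.commTerms 5 1 = [(3, 2, 1, 1)] := by decide +kernel
  have hn1 := n1 h2 hF
  unfold wp ChevalleyDatum.commWord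
  rw [hct]
  simp only [List.map_cons, List.map_nil, List.prod_cons, List.prod_nil, mul_one, pow_one]
  rcases hF t with rfl | rfl <;> rcases hF u with rfl | rfl <;>
    simp [x0, x1, hn1, h2, Int.cast_ofNat] <;> try decide

theorem c5_3 (t u : F) : x 3 u * x 5 t = x 5 t * x 3 u * wp (x (F := F)) (chevB2.commWord F 5 3 t u) := by
  have hct : chevB2.commTerms 5 3 = [] := by decide +kernel
  have hn1 := n1 h2 hF
  unfold wp ChevalleyDatum.commWord
  rw [hct]
  simp only [List.map_cons, List.map_nil, List.prod_cons, List.prod_nil, mul_one, pow_one]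
  rcases hF t with rfl | rfl <;> rcases hF u with rfl | rfl <;>
    simp [x0, x1, hn1, h2, Int.cast_ofNat] <;> try decide

theorem c5_4 (t u : F) : x 4 u * x 5 t = x 5 t * x 4 u * wp (x (F := F)) (chevB2.commWord F 5 4 t u) := by
  have hct : chevB2.commTerms 5 4 = [(6, -1, 1, 1), (7, -1, 2, 1)] := by decide +kernel
  have hn1 := n1 h2 hF
  unfold wp ChevalleyDatum.commWord
  rw [hct]
  simp only [List.map_cons, List.map_nil, List.prod_cons, List.prod_nil, mul_one, pow_one]
  rcases hF t with rfl | rfl <;> rcases hF u with rfl | rfl <;>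
    simp [x0, x1, hn1, h2, Int.cast_ofNat] <;> try decide

theorem c5_6 (t u : F) : x 6 u * x 5 t = x 5 t * x 6 u * wp (x (F := F)) (chevB2.commWord F 5 6 t u) := by
  have hct : chevB2.commTerms 5 6 = [(7, 2, 1, 1)] := by decide +kernel
  have hn1 := n1 h2 hF
  unfold wp ChevalleyDatum.commWord
  rw [hct]
  simp only [List.map_cons, List.map_nil, List.prod_cons, List.prod_nil, mul_one, pow_one]
  rcases hF t with rfl | rfl <;> rcases hF u with rfl | rfl <;>
    simp [x0, x1, hn1, h2, Int.cast_ofNat] <;> try decide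

theorem c5_7 (t u : F) : x 7 u * x 5 t = x 5 t * x 7 u * wp (x (F := F)) (chevB2.commWord F 5 7 t u) := by
  have hct : chevB2.commTerms 5 7 = [] := by decide +kernel
  have hn1 := n1 h2 hF
  unfold wp ChevalleyDatum.commWord
  rw [hct]
  simp only [List.map_cons, List.map_nil, List.prod_cons, List.prod_nil, mul_one, pow_one]
  rcases hF t with rfl | rfl <;> rcases hF u with rfl | rfl <;>
    simp [x0, x1, hn1, h2, Int.cast_ofNat] <;> try decide

theorem c6_0 (t u : F) : x 0 u * x 6 t = x 6 t * x 0 u * wp (x (F := F)) (chevB2.commWord F 6 0 t u) := by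
  have hct : chevB2.commTerms 6 0 = [(2, 1, 1, 1), (4, 1, 2, 1)] := by decide +kernel
  have hn1 := n1 h2 hF
  unfold wp ChevalleyDatum.commWord
  rw [hct]
  simp only [List.map_cons, List.map_nil, List.prod_cons, List.prod_nil, mul_one, pow_one]
  rcases hF t with rfl | rfl <;> rcases hF u with rfl | rfl <;>
    simp [x0, x1, hn1, h2, Int.cast_ofNat] <;> try decide

theorem c6_2 (t u : F) : x 2 u * x 6 t = x 6 t * x 2 u * wp (x (F := F)) (chevB2.commWord F 6 2 t u) := by
  have hct : chevB2.commTerms 6 2 = [(4, 2, 1, 1)] := by decide +kernel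
  have hn1 := n1 h2 hF
  unfold wp ChevalleyDatum.commWord
  rw [hct]
  simp only [List.map_cons, List.map_nil, List.prod_cons, List.prod_nil, mul_one, pow_one]
  rcases hF t with rfl | rfl <;> rcases hF u with rfl | rfl <;>
    simp [x0, x1, hn1, h2, Int.cast_ofNat] <;> try decide

theorem c6_3 (t u : F) : x 3 u * x 6 t = x 6 t * x 3 u * wp (x (F := F)) (chevB2.commWord F 6 3 t u) := by
  have hct : chevB2.commTerms 6 3 = [(5, -1, 1, 1), (7, 1, 2, 1)] := by decide +kernel
  have hn1 := n1 h2 hF
  unfold wp ChevalleyDatum.commWord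
  rw [hct]
  simp only [List.map_cons, List.map_nil, List.prod_cons, List.prod_nil, mul_one, pow_one]
  rcases hF t with rfl | rfl <;> rcases hF u with rfl | rfl <;>
    simp [x0, x1, hn1, h2, Int.cast_ofNat] <;> try decide

theorem c6_4 (t u : F) : x 4 u * x 6 t = x 6 t * x 4 u * wp (x (F := F)) (chevB2.commWord F 6 4 t u) := by
  have hct : chevB2.commTerms 6 4 = [] := by decide +kernel
  have hn1 := n1 h2 hF
  unfold wp ChevalleyDatum.commWord
  rw [hct]
  simp only [List.map_cons, List.map_nil, List.prod_cons, List.prod_nil, mul_one, pow_one]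
  rcases hF t with rfl | rfl <;> rcases hF u with rfl | rfl <;>
    simp [x0, x1, hn1, h2, Int.cast_ofNat] <;> try decide

theorem c6_5 (t u : F) : x 5 u * x 6 t = x 6 t * x 5 u * wp (x (F := F)) (chevB2.commWord F 6 5 t u) := by
  have hct : chevB2.commTerms 6 5 = [(7, -2, 1, 1)] := by decide +kernel
  have hn1 := n1 h2 hF
  unfold wp ChevalleyDatum.commWord
  rw [hct]
  simp only [List.map_cons, List.map_nil, List.prod_cons, List.prod_nil, mul_one, pow_one]
  rcases hF t with rfl | rfl <;> rcases hF u with rfl | rfl <;>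
    simp [x0, x1, hn1, h2, Int.cast_ofNat] <;> try decide

theorem c6_7 (t u : F) : x 7 u * x 6 t = x 6 t * x 7 u * wp (x (F := F)) (chevB2.commWord F 6 7 t u) := by
  have hct : chevB2.commTerms 6 7 = [] := by decide +kernel
  have hn1 := n1 h2 hF
  unfold wp ChevalleyDatum.commWord
  rw [hct]
  simp only [List.map_cons, List.map_nil, List.prod_cons, List.prod_nil, mul_one, pow_one]
  rcases hF t with rfl | rfl <;> rcases hF u with rfl | rfl <;>
    simp [x0, x1, hn1, h2, Int.cast_ofNat] <;> try decide

theorem c7_1 (t u : F) : x 1 u * x 7 t = x 7 t * x 1 u * wp (x (F := F)) (chevB2.commWord F 7 1 t u) := by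
  have hct : chevB2.commTerms 7 1 = [(5, 1, 1, 1), (3, 1, 1, 2)] := by decide +kernel
  have hn1 := n1 h2 hF
  unfold wp ChevalleyDatum.commWord
  rw [hct]
  simp only [List.map_cons, List.map_nil, List.prod_cons, List.prod_nil, mul_one, pow_one]
  rcases hF t with rfl | rfl <;> rcases hF u with rfl | rfl <;>
    simp [x0, x1, hn1, h2, Int.cast_ofNat] <;> try decide

theorem c7_2 (t u : F) : x 2 u * x 7 t = x 7 t * x 2 u * wp (x (F := F)) (chevB2.commWord F 7 2 t u) := by
  have hct : chevB2.commTerms 7 2 = [(6, -1, 1, 1), (4, -1, 1, 2)] := by decide +kernel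
  have hn1 := n1 h2 hF
  unfold wp ChevalleyDatum.commWord
  rw [hct]
  simp only [List.map_cons, List.map_nil, List.prod_cons, List.prod_nil, mul_one, pow_one]
  rcases hF t with rfl | rfl <;> rcases hF u with rfl | rfl <;>
    simp [x0, x1, hn1, h2, Int.cast_ofNat] <;> try decide

theorem c7_3 (t u : F) : x 3 u * x 7 t = x 7 t * x 3 u * wp (x (F := F)) (chevB2.commWord F 7 3 t u) := by
  have hct : chevB2.commTerms 7 3 = [] := by decide +kernel
  have hn1 := n1 h2 hF
  unfold wp ChevalleyDatum.commWord
  rw [hct]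
  simp only [List.map_cons, List.map_nil, List.prod_cons, List.prod_nil, mul_one, pow_one]
  rcases hF t with rfl | rfl <;> rcases hF u with rfl | rfl <;>
    simp [x0, x1, hn1, h2, Int.cast_ofNat] <;> try decide

theorem c7_4 (t u : F) : x 4 u * x 7 t = x 7 t * x 4 u * wp (x (F := F)) (chevB2.commWord F 7 4 t u) := by
  have hct : chevB2.commTerms 7 4 = [] := by decide +kernel
  have hn1 := n1 h2 hF
  unfold wp ChevalleyDatum.commWord
  rw [hct]
  simp only [List.map_cons, List.map_nil, List.prod_cons, List.prod_nil, mul_one, pow_one]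
  rcases hF t with rfl | rfl <;> rcases hF u with rfl | rfl <;>
    simp [x0, x1, hn1, h2, Int.cast_ofNat] <;> try decide

theorem c7_5 (t u : F) : x 5 u * x 7 t = x 7 t * x 5 u * wp (x (F := F)) (chevB2.commWord F 7 5 t u) := by
  have hct : chevB2.commTerms 7 5 = [] := by decide +kernel
  have hn1 := n1 h2 hF
  unfold wp ChevalleyDatum.commWord
  rw [hct]
  simp only [List.map_cons, List.map_nil, List.prod_cons, List.prod_nil, mul_one, pow_one]
  rcases hF t with rfl | rfl <;> rcases hF u with rfl | rfl <;>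
    simp [x0, x1, hn1, h2, Int.cast_ofNat] <;> try decide

theorem c7_6 (t u : F) : x 6 u * x 7 t = x 7 t * x 6 u * wp (x (F := F)) (chevB2.commWord F 7 6 t u) := by
  have hct : chevB2.commTerms 7 6 = [] := by decide +kernel
  have hn1 := n1 h2 hF
  unfold wp ChevalleyDatum.commWord
  rw [hct]
  simp only [List.map_cons, List.map_nil, List.prod_cons, List.prod_nil, mul_one, pow_one]
  rcases hF t with rfl | rfl <;> rcases hF u with rfl | rfl <;>
    simp [x0, x1, hn1, h2, Int.cast_ofNat] <;> try decide

theorem stR : StR chevB2 (x (F := F)) := by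
  have hn : chevB2.nroots = 8 := rfl
  have hn1 := n1 h2 hF
  have h11 : (1 : F) + 1 = 0 := by rw [one_add_one_eq_two, h2]
  refine ⟨?_, ?_, ?_⟩
  · intro r hr t u
    rw [hn] at hr
    have hs : ∀ r < 8, sg r * sg r = 1 := by decide
    rcases hF t with rfl | rfl <;> rcases hF u with rfl | rfl
    · simp [x0]
    · simp [x0, x1]
    · simp [x0, x1]
    · rw [h11, x0, x1, hs r hr]
  · intro r hr s hs h1 h2' t u
    rw [hn] at hr hs
    interval_cases r
    · interval_cases s
      · exact absurd rfl h1
      · exact c0_1 h2 hF t u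
      · exact c0_2 h2 hF t u
      · exact c0_3 h2 hF t u
      · exact c0_4 h2 hF t u
      · exact c0_5 h2 hF t u
      · exact c0_6 h2 hF t u
      · exact absurd (by decide +kernel) h2'
    · interval_cases s
      · exact c1_0 h2 hF t u
      · exact absurd rfl h1
      · exact c1_2 h2 hF t u
      · exact c1_3 h2 hF t u
      · exact c1_4 h2 hF t u
      · exact c1_5 h2 hF t u
      · exact absurd (by decide +kernel) h2'
      · exact c1_7 h2 hF t u
    · interval_cases s
      · exact c2_0 h2 hF t u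
      · exact c2_1 h2 hF t u
      · exact absurd rfl h1
      · exact c2_3 h2 hF t u
      · exact c2_4 h2 hF t u
      · exact absurd (by decide +kernel) h2'
      · exact c2_6 h2 hF t u
      · exact c2_7 h2 hF t u
    · interval_cases s
      · exact c3_0 h2 hF t u
      · exact c3_1 h2 hF t u
      · exact c3_2 h2 hF t u
      · exact absurd rfl h1
      · exact absurd (by decide +kernel) h2'
      · exact c3_5 h2 hF t u
      · exact c3_6 h2 hF t u
      · exact c3_7 h2 hF t u
    · interval_cases s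
      · exact c4_0 h2 hF t u
      · exact c4_1 h2 hF t u
      · exact c4_2 h2 hF t u
      · exact absurd (by decide +kernel) h2'
      · exact absurd rfl h1
      · exact c4_5 h2 hF t u
      · exact c4_6 h2 hF t u
      · exact c4_7 h2 hF t u
    · interval_cases s
      · exact c5_0 h2 hF t u
      · exact c5_1 h2 hF t u
      · exact absurd (by decide +kernel) h2'
      · exact c5_3 h2 hF t u
      · exact c5_4 h2 hF t u
      · exact absurd rfl h1
      · exact c5_6 h2 hF t u
      · exact c5_7 h2 hF t u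
    · interval_cases s
      · exact c6_0 h2 hF t u
      · exact absurd (by decide +kernel) h2'
      · exact c6_2 h2 hF t u
      · exact c6_3 h2 hF t u
      · exact c6_4 h2 hF t u
      · exact c6_5 h2 hF t u
      · exact absurd rfl h1
      · exact c6_7 h2 hF t u
    · interval_cases s
      · exact absurd (by decide +kernel) h2'
      · exact c7_1 h2 hF t u
      · exact c7_2 h2 hF t u
      · exact c7_3 h2 hF t u
      · exact c7_4 h2 hF t u
      · exact c7_5 h2 hF t u
      · exact c7_6 h2 hF t u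
      · exact absurd rfl h1
  · intro r hr t u ht hu
    rw [hn] at hr
    have h8 : ∀ r < 8, chevB2.neg r < 8 := by decide +kernel
    have hs : ∀ r < 8, ∀ s < 8, (sg r * sg s * sg r) * (sg r * sg s * sg r) = 1 := by decide
    rcases hF t with rfl | rfl
    · exact absurd rfl ht
    rcases hF u with rfl | rfl
    · exact absurd rfl hu
    have e : hh chevB2 (x (F := F)) r 1 = 1 := by
      unfold hh nn
      rw [inv_one, hn1, x1, x1]
      simp only [inv_one, x1, hn1]
      exact hs r hr _ (h8 r hr)
    rw [mul_one, e, mul_one]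

end

theorem main {F : Type*} [Field F] [Fintype F] (hF : Fintype.card F = 2) :
    Nonempty (↥(Cfsg.Lie.chevB2.group F) ≃* Equiv.Perm (Fin 6)) := by
  classical
  have hchar : CharP F 2 := charP_of_card_eq_prime hF
  have h2 : (2 : F) = 0 := CharTwo.two_eq_zero
  have h01 : ∀ t : F, t = 0 ∨ t = 1 := by
    intro t
    by_contra hcon
    push Not at hcon
    have h3 : ({0, 1, t} : Finset F).card = 3 := by
      rw [Finset.card_eq_three]
      exact ⟨0, 1, t, zero_ne_one, hcon.1.symm, hcon.2.symm, rfl⟩
    have h4 := Finset.card_le_univ ({0, 1, t} : Finset F)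
    rw [h3, hF] at h4
    omega
  have hgen : Subgroup.closure {g : Equiv.Perm (Fin 6) | ∃ r t, r < chevB2.nroots ∧ g = x (F := F) r t} = ⊤ := by
    set U := Subgroup.closure {g : Equiv.Perm (Fin 6) | ∃ r t, r < chevB2.nroots ∧ g = x (F := F) r t} with hU
    have hr : ∀ r, r < 8 → sg r ∈ U := fun r hr => Subgroup.subset_closure ⟨r, 1, hr, (x1 r).symm⟩
    have key : ∀ i : Fin 5, Equiv.swap i.castSucc i.succ ∈ U := by
      intro i
      fin_cases i
      · have : Equiv.swap ((0 : Fin 5).castSucc) ((0 : Fin 5).succ) = sg 7 := by decide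
        exact this ▸ (hr 7 (by norm_num))
      · have : Equiv.swap ((1 : Fin 5).castSucc) ((1 : Fin 5).succ) = sg 0 * sg 7 * sg 0 := by decide
        exact this ▸ (U.mul_mem (U.mul_mem (hr 0 (by norm_num)) (hr 7 (by norm_num))) (hr 0 (by norm_num)))
      · have : Equiv.swap ((2 : Fin 5).castSucc) ((2 : Fin 5).succ) = sg 2 * sg 7 * sg 2 := by decide
        exact this ▸ (U.mul_mem (U.mul_mem (hr 2 (by norm_num)) (hr 7 (by norm_num))) (hr 2 (by norm_num)))
      · have : Equiv.swap ((3 : Fin 5).castSucc) ((3 : Fin 5).succ) = sg 3 := by decide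
        exact this ▸ (hr 3 (by norm_num))
      · have : Equiv.swap ((4 : Fin 5).castSucc) ((4 : Fin 5).succ) = sg 4 := by decide
        exact this ▸ (hr 4 (by norm_num))
    rw [eq_top_iff]
    intro g _
    have hg : g ∈ Submonoid.closure (Set.range fun i : Fin 5 => Equiv.swap i.castSucc i.succ) := by
      rw [Equiv.Perm.mclosure_swap_castSucc_succ]; trivial
    have hle : Submonoid.closure (Set.range fun i : Fin 5 => Equiv.swap i.castSucc i.succ) ≤ U.toSubmonoid := by
      rw [Submonoid.closure_le]
      rintro _ ⟨i, rfl⟩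
      exact key i
    exact hle hg
  have hcen : Subgroup.center (Equiv.Perm (Fin 6)) = ⊥ := by
    rw [eq_bot_iff]
    intro g hg
    rw [Subgroup.mem_center_iff] at hg
    rw [Subgroup.mem_bot]
    ext i
    by_contra hne
    have hne' : g i ≠ i := fun h => hne (by rw [h]; rfl)
    obtain ⟨j, hj1, hj2⟩ : ∃ j : Fin 6, j ≠ i ∧ j ≠ g i := by
      have : ∀ a b : Fin 6, ∃ j : Fin 6, j ≠ a ∧ j ≠ b := by decide
      exact this _ _
    have h1 := congrArg (fun p : Equiv.Perm (Fin 6) => p j) (hg (Equiv.swap i j))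
    have h3 := congrArg (fun p : Equiv.Perm (Fin 6) => p i) (hg (Equiv.swap i j))
    simp only [Equiv.Perm.mul_apply, Equiv.swap_apply_left] at h3
    rw [Equiv.swap_apply_of_ne_of_ne hne' hj2.symm] at h3
    exact hj1 (g.injective h3).symm
  have hcard : Nat.card ↥(chevB2.group F) = 720 := by
    have h := Cfsg.Agent.S1060.result (F := F) hF
    have hg : Nat.gcd 2 (2 - 1) = 1 := by decide
    rw [hg, one_mul] at h
    rw [h]
    norm_num
  have hfin : Finite ↥(chevB2.group F) := Nat.finite_of_card_ne_zero (by rw [hcard]; norm_num)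
  have hc2 : Nat.card (Equiv.Perm (Fin 6) ⧸ Subgroup.center (Equiv.Perm (Fin 6))) = 720 := by
    rw [hcen]
    rw [Nat.card_congr (QuotientGroup.quotientBot (G := Equiv.Perm (Fin 6))).toEquiv, Nat.card_eq_fintype_card,
      Fintype.card_perm, Fintype.card_fin]
    rfl
  obtain ⟨e⟩ := H23.ChevModel.equiv_of_card (D := chevB2) (K := F) (H22.St.s1077 chevB2 (by simp))
    (fun r hr => H23.ModelB2.neg_lt hr) (fun r hr s hs h1 h2 => H23.ModelB2.ct hr hs) (stR h2 h01) hgen (by rw [hcard, hc2])
  exact ⟨e.trans ((QuotientGroup.quotientMulEquivOfEq hcen).trans QuotientGroup.quotientBot)⟩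

end H23.ModelS6
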