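/-
H23: the Schur multiplier of ²E₆(q): certificates.
-/
import Cfsg.Agent.Lib.H22.TwE6c
import Cfsg.Agent.Lib.H23.TwW3
import Cfsg.Agent.Lib.H23.TwR1
import Cfsg.Agent.Lib.H23.FormZ
import Cfsg.Agent.Lib.H23.SysLift2
import Cfsg.Agent.Lib.H23.StemGen
import Cfsg.Agent.Lib.H40.StemFinish
set_option autoImplicit false
set_option linter.unusedVariables false
set_option linter.unusedSectionVars false

namespace H23.MultTE6

open H22.RGD H22.Coord H22.RCCheck H22.RCComb H22.ChevTri H22.ChevRel H22.ChevSys H22.ChevMain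
open H22.ChevStd H22.ChevSolv H22.ChevUni H22.St H22.TwChev H22.TwSt H22.RCPack H22.TwTab H22.TwX
open H22.TwDat H22.TwAut H22.ChevTorus H22.TwThm H22.TwPerf H22.TwMisc H22.TwE6
open H23.WSplit H23.Lift H23.SysRes H23.TwW H23.SysLift H23.LiftPP H23.RankOne
open Cfsg.Lie (ChevalleyDatum)
open scoped MatrixGroups Matrix commutatorElement

local notation "E6" => Cfsg.Lie.chevE6
local notation "X6" => H22.PoinE6.rcxE6
local notation "F4X" => H22.PoinF4.rcxF4
local notation "Z6" => H22.ChevLex.lexE6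
local notation "W6" => certE6'
local notation "C4" => comb F4X

/-- patterns of weights -/
def okp2 (w : List ℤ) : Bool :=
  match w with
  | [a, b] => (decide (-1 ≤ a) && decide (a ≤ 1) && decide (-1 ≤ b) && decide (b ≤ 1) &&
      !(decide (a = 0) && decide (b = 0)))
  | _ => false

def lams : List (List ℤ) := [[-1, -2, -2, -3, -2, -1], [-1, -1, -2, -3, -2, -1], [-1, 0, -1, 0, 0, 0], [-1, -1, -2, -2, -2, -1],
  [0, -1, -1, -1, -1, 0], [-1, -1, -1, -2, -1, 0]]

theorem ck_all : ckAll E6 (((Cfsg.Lie.chevF4.simple 0) :: ttE6.ords.getD 0 []).map fun c => ttE6.bk.getD c []) = true := by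
  decide +kernel

theorem ck_s : ckS E6 ttE6.pi 2 okp2 lams (((Cfsg.Lie.chevF4.simple 0) :: ttE6.ords.getD 0 []).map fun c => ttE6.bk.getD c []) = true := by
  decide +kernel

/-- powers of a generator -/
theorem ok2 {F : Type*} [Field F] {q : ℕ} (hq : 3 ≤ q) {g : Fˣ} (hg : orderOf g = q ^ 2 - 1) (e : ℕ → ℤ)
    (he : okp2 ((List.range 2).map e) = true) : g ^ (∑ i ∈ Finset.range 2, (q : ℤ) ^ i * e i) ≠ 1 := by
  intro h1
  rw [← orderOf_dvd_iff_zpow_eq_one, hg] at h1
  have e1 : (((q ^ 2 - 1 : ℕ)) : ℤ) = (q : ℤ) ^ 2 - 1 := by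
    have : 1 ≤ q ^ 2 := Nat.one_le_pow _ _ (by omega)
    push_cast [Nat.cast_sub this]; ring
  rw [e1] at h1
  have e2 : ∑ i ∈ Finset.range 2, (q : ℤ) ^ i * e i = e 0 + q * e 1 := by
    rw [Finset.sum_range_succ, Finset.sum_range_succ, Finset.sum_range_zero]; ring
  rw [e2] at h1
  have e3 : (List.range 2).map e = [e 0, e 1] := rfl
  rw [e3] at he
  generalize e 0 = a at *
  generalize e 1 = b at *
  simp only [okp2, Bool.and_eq_true, decide_eq_true_eq, Bool.not_eq_true', Bool.and_eq_false_iff,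
    decide_eq_false_iff_not] at he
  have hq' : (3 : ℤ) ≤ q := by exact_mod_cast hq
  set Q : ℤ := (q : ℤ) with hQ
  obtain ⟨⟨⟨⟨h2, h3⟩, h4⟩, h5⟩, h6⟩ := he
  have hne : a + Q * b ≠ 0 := by
    intro h0
    have hb : b = -1 ∨ b = 0 ∨ b = 1 := by omega
    rcases hb with rfl | rfl | rfl
    · omega
    · simp at h0; omega
    · omega
  have h7 := Int.le_of_dvd (abs_pos.2 hne) ((dvd_abs _ _).2 h1)
  have h8 : |a + Q * b| < Q ^ 2 - 1 := by
    rw [abs_lt]
    have hb : b = -1 ∨ b = 0 ∨ b = 1 := by omega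
    rcases hb with rfl | rfl | rfl <;> constructor <;> nlinarith
  omega

end H23.MultTE6
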