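/-
H23: the Schur multiplier of ²E₆(q): rank one groups and abelian preimages.
-/
import Cfsg.Agent.Lib.H23.MultTE6
set_option autoImplicit false
set_option linter.unusedVariables false
set_option linter.unusedSectionVars false

namespace H23.MultTE6

open H22.RGD H22.Coord H22.RCCheck H22.RCComb H22.ChevTri H22.ChevRel H22.ChevSys H22.ChevMain
open H22.ChevStd H22.ChevSolv H22.ChevUni H22.St H22.TwChev H22.TwSt H22.RCPack H22.TwTab H22.TwX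
open H22.TwDat H22.TwAut H22.ChevTorus H22.TwThm H22.TwPerf H22.TwMisc H22.TwE6
open H23.WSplit H23.Lift H23.SysRes H23.TwW H23.SysLift H23.LiftPP H23.RankOne
open Cfsg.Lie (ChevalleyDatum)
open scoped MatrixGroups Matrix commutatorElement

local notation "E6" => Cfsg.Lie.chevE6
local notation "X6" => H22.PoinE6.rcxE6
local notation "F4X" => H22.PoinF4.rcxF4
local notation "Z6" => H22.ChevLex.lexE6
local notation "W6" => certE6'
local notation "C4" => comb F4X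

section fin

variable {K : Type*} [Field K] [Finite K] (R : Rel E6 K) (hm : ∀ r < (E6).nroots, ∀ c d : K, c ≠ 0 → d ≠ 0 →
      (E6).hMat K r c * (E6).hMat K r d = (E6).hMat K r (c * d))
  (φ : K →+* K) (hφ : Function.Surjective φ)

/-- the fixed group -/
noncomputable abbrev Γ₀ : Subgroup ↥((E6).group K) := (T R hm φ hφ).tw.sys.Γ

theorem hX (c : Fin ttE6.n') : XC Z6 W6 (E R hm φ hφ) c ≤ Γ₀ R hm φ hφ :=
  (T R hm φ hφ).tw.sys.X_le_Γ (longest F4X) c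

theorem hH : (St R hm).Hb ⊓ fx (A R hm φ hφ).σ ≤ Γ₀ R hm φ hφ :=
  ((T R hm φ hφ).tw.sys.H_le_B).trans (T R hm φ hφ).tw.sys.B_le_Γ

/-- the system in the fixed group -/
noncomputable def SS : Sys ↥(Γ₀ R hm φ hφ) C4 := res (T R hm φ hφ).tw.sys (hX R hm φ hφ) (hH R hm φ hφ)
  (fun i => (T R hm φ hφ).tw.sys.N_le_Γ ((T R hm φ hφ).tw.sys.n_mem_N i))

/-- the fixed field -/
abbrev Kf (φ : K →+* K) : Subfield K := φ.eqLocusField (RingHom.id K)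

/-- elements of the fixed group -/
def x2 (h2 : ∀ t : K, φ (φ t) = t) {c : Fin ttE6.n'} {r s : ℕ} (m : ∀ {g : ↥((E6).group K)}, g ∈ XC Z6 W6 (E R hm φ hφ) c ↔
    ∃ t, φ (φ t) = t ∧ g = xs R hm φ r s t) (t : K) : ↥(Γ₀ R hm φ hφ) :=
  ⟨xs R hm φ r s t, hX R hm φ hφ c (m.2 ⟨t, h2 t, rfl⟩)⟩

def x1 {c : Fin ttE6.n'} {r : ℕ} (m : ∀ {g : ↥((E6).group K)}, g ∈ XC Z6 W6 (E R hm φ hφ) c ↔
    ∃ t, φ t = t ∧ g = (St R hm).xb r t) (t : Kf φ) : ↥(Γ₀ R hm φ hφ) :=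
  ⟨(St R hm).xb r t, hX R hm φ hφ c (m.2 ⟨t, t.2, rfl⟩)⟩

theorem mem_x2 (h2 : ∀ t : K, φ (φ t) = t) {c : Fin ttE6.n'} {r s : ℕ} (m : ∀ {g : ↥((E6).group K)}, g ∈ XC Z6 W6 (E R hm φ hφ) c ↔
    ∃ t, φ (φ t) = t ∧ g = xs R hm φ r s t) (g : ↥(Γ₀ R hm φ hφ)) :
    g ∈ (SS R hm φ hφ).X c ↔ ∃ t, g = x2 R hm φ hφ h2 m t := by
  constructor
  · intro hg
    obtain ⟨t, _, e⟩ := m.1 hg
    exact ⟨t, Subtype.ext e⟩
  · rintro ⟨t, rfl⟩
    exact m.2 ⟨t, h2 t, rfl⟩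

theorem mem_x1 {c : Fin ttE6.n'} {r : ℕ} (m : ∀ {g : ↥((E6).group K)}, g ∈ XC Z6 W6 (E R hm φ hφ) c ↔
    ∃ t, φ t = t ∧ g = (St R hm).xb r t) (g : ↥(Γ₀ R hm φ hφ)) :
    g ∈ (SS R hm φ hφ).X c ↔ ∃ t, g = x1 R hm φ hφ m t := by
  constructor
  · intro hg
    obtain ⟨t, ht, e⟩ := m.1 hg
    exact ⟨⟨t, ht⟩, Subtype.ext e⟩
  · rintro ⟨t, rfl⟩
    exact m.2 ⟨t, t.2, rfl⟩

theorem r1_pair {r s : ℕ} (hr : r < (E6).nroots) (hs : s < (E6).nroots) (o : Orth (St R hm) r s) :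
    R1 (xs R hm φ r s) (xs R hm φ ((E6).neg r) ((E6).neg s)) := by
  have C := H23.ChevAll.core E6 memE6
  have a : R1 ((St R hm).xb r) ((St R hm).xb ((E6).neg r)) := H23.TwR1.r1 (St R hm) X6 Z6 W6 C ⟨r, hr⟩
  have b : R1 ((St R hm).xb s) ((St R hm).xb ((E6).neg s)) := H23.TwR1.r1 (St R hm) X6 Z6 W6 C ⟨s, hs⟩
  exact a.prod b φ (fun t u => (o t u).1) (fun t u => (o t u).2.1) (fun t u => (o t u).2.2.1)
    (fun t u => (o t u).2.2.2)

theorem r1_single {r : ℕ} (hr : r < (E6).nroots) : R1 (fun t : Kf φ => (St R hm).xb r t) (fun t : Kf φ => (St R hm).xb ((E6).neg r) t) := by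
  have C := H23.ChevAll.core E6 memE6
  have a : R1 ((St R hm).xb r) ((St R hm).xb ((E6).neg r)) := H23.TwR1.r1 (St R hm) X6 Z6 W6 C ⟨r, hr⟩
  exact a.comp (Kf φ).subtype

/-- tori commute -/
theorem hh_comm {K' : Type*} [Field K'] [Finite K'] {x y : K' → ↥(Γ₀ R hm φ hφ)} (RR : R1 x y) (i : Fin 4)
    (hxr : ∀ g, g ∈ (SS R hm φ hφ).X ((C4).simple i) ↔ ∃ t, g = x t)
    (hyr : ∀ g, g ∈ (SS R hm φ hφ).X ((C4).neg ((C4).simple i)) ↔ ∃ t, g = y t) :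
    ∀ t u : K', t ≠ 0 → u ≠ 0 → hh x y t * hh x y u = hh x y u * hh x y t := by
  intro t u ht hu
  have h1 := hh_mem_H RR (SS R hm φ hφ) i hxr hyr ht
  have h2 := hh_mem_H RR (SS R hm φ hφ) i hxr hyr hu
  apply Subtype.ext
  have := torus_comm Z6 W6 (S := St R hm) (h1 : ((hh x y t : ↥(Γ₀ R hm φ hφ)) : ↥((E6).group K)) ∈ (St R hm).Hb ⊓ fx (A R hm φ hφ).σ).1
    (h2 : ((hh x y u : ↥(Γ₀ R hm φ hφ)) : ↥((E6).group K)) ∈ (St R hm).Hb ⊓ fx (A R hm φ hφ).σ).1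
  rw [mul_inv_eq_iff_eq_mul] at this
  exact this

/-! ### abelian preimages -/

theorem chr_b (v : Kˣ) : chr (tc φ 1 v⁻¹ 1 1) 56 = (v : K) ∧ chr (tc φ 1 v⁻¹ 1 1) 36 = φ (v : K) := by
  have key : ∀ (s : ℕ) (hs : s < (E6).nroots), chr (tc φ 1 v⁻¹ 1 1) s =
      (((1 : Kˣ) ^ (E6).cartan 0 s * (1 : Kˣ) ^ (E6).cartan 1 s * (v⁻¹) ^ (E6).cartan 2 s * (1 : Kˣ) ^ (E6).cartan 3 s *
        (Units.map (φ : K →* K) v⁻¹) ^ (E6).cartan 4 s * (Units.map (φ : K →* K) 1) ^ (E6).cartan 5 s : Kˣ) : K) := by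
    intro s hs
    rw [chr_eq hs]
    congr 1
    show (∏ j : Fin 6, (tc φ 1 v⁻¹ 1 1) j ^ (E6).cartan j s) = _
    rw [Fin.prod_univ_six]
    rfl
  constructor
  · rw [key 56 (by decide)]
    have e2 : (E6).cartan 2 56 = -1 := by decide +kernel
    have e4 : (E6).cartan 4 56 = 0 := by decide +kernel
    rw [e2, e4]
    simp
  · rw [key 36 (by decide)]
    have e2 : (E6).cartan 2 36 = 0 := by decide +kernel
    have e4 : (E6).cartan 4 36 = -1 := by decide +kernel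
    rw [e2, e4]
    simp

/-- scalars on the short root group -/
theorem scal (h2 : ∀ t : K, φ (φ t) = t) (v : K) (hv : v ≠ 0) :
    ∃ τ : ↥(Γ₀ R hm φ hφ), ∀ t, τ * x2 R hm φ hφ h2 (m0 R hm φ hφ) t * τ⁻¹ = x2 R hm φ hφ h2 (m0 R hm φ hφ) (v * t) := by
  set p := (St R hm).psi X6 Z6 W6 (tc φ 1 (Units.mk0 v hv)⁻¹ 1 1) with hp
  have hp1 : p ∈ Γ₀ R hm φ hφ := by
    apply hH
    refine ⟨?_, ?_⟩
    · rw [SetLike.mem_coe, ← (St R hm).psi_range X6 Z6 W6]; exact ⟨_, rfl⟩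
    · show (A R hm φ hφ).σ _ = _
      rw [(A R hm φ hφ).σ_psi Z6 W6, τ_tc R hm φ hφ h2 1 _ (u := 1) (v := 1) (by simp) (by simp)]
      rfl
  refine ⟨⟨p, hp1⟩, fun t => Subtype.ext ?_⟩
  show p * xs R hm φ 56 36 t * p⁻¹ = xs R hm φ 56 36 (v * t)
  obtain ⟨c1, c2⟩ := chr_b φ (Units.mk0 v hv)
  have e1 := psi_x (S := St R hm) Z6 W6 (tc φ 1 (Units.mk0 v hv)⁻¹ 1 1) (show 56 < (E6).nroots by decide) t
  have e2 := psi_x (S := St R hm) Z6 W6 (tc φ 1 (Units.mk0 v hv)⁻¹ 1 1) (show 36 < (E6).nroots by decide) (φ t)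
  rw [c1, Units.val_mk0] at e1
  rw [c2, Units.val_mk0] at e2
  unfold xs
  rw [map_mul, ← e1, ← e2]
  simp [mul_assoc, hp]

section ext
variable {E' : Type*} [Group E'] {π : E' →* ↥(Γ₀ R hm φ hφ)} (h : CE π)

theorem ab_short (h2 : ∀ t : K, φ (φ t) = t) (hK : ∃ s : Finset K, 4 < s.card) :
    Ab h (SS R hm φ hφ) ((C4).simple (0 : Fin 4)) := by
  intro a ha b hb
  obtain ⟨s, rfl⟩ := (mem_x2 R hm φ hφ h2 (m0 R hm φ hφ) a).1 ha
  obtain ⟨t, rfl⟩ := (mem_x2 R hm φ hφ h2 (m0 R hm φ hφ) b).1 hb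
  refine FormZ.c_alt h (x := x2 R hm φ hφ h2 (m0 R hm φ hφ)) ?_ (scal R hm φ hφ h2) (Or.inr hK) s t
  intro s t
  exact Subtype.ext (xs_add R hm φ (o1 R hm) (by decide) (by decide) s t).symm

theorem m26 {g : ↥((E6).group K)} : g ∈ XC Z6 W6 (E R hm φ hφ) (26 : Fin 48) ↔ ∃ t, φ t = t ∧ g = (St R hm).xb 47 t :=
  X1_one Z6 W6 (E := E R hm φ hφ) (c := (26 : Fin 48)) (good_of_mem Z6 W6 (E R hm φ hφ) (0 : Fin 4) (by
    unfold Lam
    apply List.mem_cons_of_mem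
    refine ((E R hm φ hφ).mem_csF (0 : Fin 4) (26 : Fin 48)).2 ⟨?_, ?_⟩
    · show 24 ≤ 26
      norm_num
    · intro h
      have h1 := congrArg Fin.val h
      revert h1
      decide)) rfl rfl (Int.cast_one (R := K))

theorem ab_26 : Ab h (SS R hm φ hφ) (26 : Fin 48) := by
  intro a ha b hb
  obtain ⟨s, hs, es⟩ := (m26 R hm φ hφ).1 ha
  obtain ⟨t, ht, et⟩ := (m26 R hm φ hφ).1 hb
  -- b as a commutator
  have hc := (St R hm).comm 39 (by decide) 46 (by decide) (by decide) (by decide) (-t) 1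
  have e1 : (E6).commWord K 39 46 (-t) 1 = [(47, t)] := by
    have : (E6).commTerms 39 46 = [(47, 1, 1, 1)] := by decide +kernel
    unfold ChevalleyDatum.commWord
    rw [this]; simp
  rw [e1] at hc
  simp only [List.map_cons, List.map_nil, List.prod_cons, List.prod_nil, mul_one] at hc
  let k : ↥(Γ₀ R hm φ hφ) := ⟨((St R hm).xb 46 1)⁻¹, inv_mem (hX R hm φ hφ _ ((m3 R hm φ hφ).2 ⟨1, by simp, rfl⟩))⟩
  let l : ↥(Γ₀ R hm φ hφ) := ⟨((St R hm).xb 39 (-t))⁻¹, inv_mem (hX R hm φ hφ _ ((m2 R hm φ hφ).2 ⟨-t, by rw [map_neg, ht], rfl⟩))⟩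
  have e2 : b = ⁅k, l⁆ := by
    apply Subtype.ext
    refine et.trans ?_
    rw [← hc]
    show _ = ((St R hm).xb 46 1)⁻¹ * ((St R hm).xb 39 (-t))⁻¹ * ((St R hm).xb 46 1)⁻¹⁻¹ * ((St R hm).xb 39 (-t))⁻¹⁻¹
    rw [inv_inv, inv_inv]
  have es' : (a : ↥((E6).group K)) = (St R hm).xb 47 s := es
  have c1 : Commute a k := by
    apply Subtype.ext
    show (a : ↥((E6).group K)) * ((St R hm).xb 46 1)⁻¹ = ((St R hm).xb 46 1)⁻¹ * a
    rw [es']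
    exact (commute_of_c2 (St R hm) (by decide) (by decide) (by decide +kernel) s 1).inv_right.eq
  have c2 : Commute a l := by
    apply Subtype.ext
    show (a : ↥((E6).group K)) * ((St R hm).xb 39 (-t))⁻¹ = ((St R hm).xb 39 (-t))⁻¹ * a
    rw [es']
    exact (commute_of_c2 (St R hm) (by decide) (by decide) (by decide +kernel) s (-t)).inv_right.eq
  rw [e2]
  exact h.c_comm_right c1 c2

theorem ab_all (h2 : ∀ t : K, φ (φ t) = t) (hK : ∃ s : Finset K, 4 < s.card)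
    (c : Fin 48) : Ab h (SS R hm φ hφ) c := by
  have w3 : (C4).w [(2 : Fin 4)] ((C4).simple (3 : Fin 4)) = (26 : Fin 48) := by
    apply Fin.ext
    decide +kernel
  have w2 : (C4).w [(3 : Fin 4)] ((C4).simple (2 : Fin 4)) = (26 : Fin 48) := by
    apply Fin.ext
    decide +kernel
  have w1 : (C4).w [(1 : Fin 4), (0 : Fin 4)] ((C4).simple (1 : Fin 4)) = (C4).simple (0 : Fin 4) := by
    apply Fin.ext
    decide +kernel
  have hs : ∀ i : Fin 4, Ab h (SS R hm φ hφ) ((C4).simple i) := by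
    intro i
    rcases four i with rfl | rfl | rfl | rfl
    · exact ab_short R hm φ hφ h h2 hK
    · refine Ab.w_inv (SS R hm φ hφ) h [(1 : Fin 4), (0 : Fin 4)] ?_
      rw [w1]
      exact ab_short R hm φ hφ h h2 hK
    · refine Ab.w_inv (SS R hm φ hφ) h [(3 : Fin 4)] ?_
      rw [w2]
      exact ab_26 R hm φ hφ h
    · refine Ab.w_inv (SS R hm φ hφ) h [(2 : Fin 4)] ?_
      rw [w3]
      exact ab_26 R hm φ hφ h
  obtain ⟨L, i, e⟩ := exists_simple_conj F4X c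
  have := Ab.w (SS R hm φ hφ) h (hs i) L
  rw [e] at this
  exact this

end ext

end fin

end H23.MultTE6
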