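/-
H23: the Schur multiplier of ²E₆(q): upper bound.
-/
import Cfsg.Agent.Lib.H23.MultTE6b
set_option autoImplicit false
set_option linter.unusedVariables false
set_option linter.unusedSectionVars false

namespace H23.MultTE6

open H22.RGD H22.Coord H22.RCCheck H22.RCComb H22.ChevTri H22.ChevRel H22.ChevSys H22.ChevMain
open H22.ChevStd H22.ChevSolv H22.ChevUni H22.St H22.TwChev H22.TwSt H22.RCPack H22.TwTab H22.TwX
open H22.TwDat H22.TwAut H22.ChevTorus H22.TwThm H22.TwPerf H22.TwMisc H22.TwE6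
open H23.WSplit H23.Lift H23.SysRes H23.TwW H23.SysLift H23.LiftPP H23.RankOne
open Cfsg.Lie (ChevalleyDatum)
open scoped MatrixGroups Matrix commutatorElement

local notation "E6" => Cfsg.Lie.chevE6
local notation "X6" => H22.PoinE6.rcxE6
local notation "F4X" => H22.PoinF4.rcxF4
local notation "Z6" => H22.ChevLex.lexE6
local notation "W6" => certE6'
local notation "C4" => comb F4X

section fin

variable {K : Type*} [Field K] [Finite K] (R : Rel E6 K) (hm : ∀ r < (E6).nroots, ∀ c d : K, c ≠ 0 → d ≠ 0 →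
      (E6).hMat K r c * (E6).hMat K r d = (E6).hMat K r (c * d))
  (φ : K →+* K) (hφ : Function.Surjective φ)

theorem mem_Lam0 (c : Fin ttE6.n') : c ∈ Lam (E R hm φ hφ) (0 : Fin 4) ↔ (C4).pos c := by
  unfold Lam
  rw [List.mem_cons]
  constructor
  · rintro (rfl | h)
    · exact (C4).simple_pos _
    · exact (((E R hm φ hφ).mem_csF _ c).1 h).1
  · intro h
    by_cases hc : c = (C4).simple (0 : Fin 4)
    · exact Or.inl hc
    · exact Or.inr (((E R hm φ hφ).mem_csF _ c).2 ⟨h, hc⟩)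

theorem JX_eq : JX (Xs Z6 W6 (E R hm φ hφ) (Γ₀ R hm φ hφ)) (Lam (E R hm φ hφ) (0 : Fin 4)) = (SS R hm φ hφ).U := by
  apply le_antisymm
  · refine iSup_le fun s => ?_
    exact (SS R hm φ hφ).X_le_U ((mem_Lam0 R hm φ hφ s.1).1 s.2)
  · refine (SS R hm φ hφ).U_le fun r hr => ?_
    exact le_iSup (fun s : {s // s ∈ Lam (E R hm φ hφ) (0 : Fin 4)} => Xs Z6 W6 (E R hm φ hφ) (Γ₀ R hm φ hφ) s)
      ⟨r, (mem_Lam0 R hm φ hφ r).2 hr⟩

theorem card_SU (h2 : ∀ t : K, φ (φ t) = t) {q : ℕ} (hK : Nat.card K = q ^ 2)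
    (hf : Nat.card {t : K // φ t = t} = q) : Nat.card (SS R hm φ hφ).U = q ^ 36 := by
  have e1 : (SS R hm φ hφ).U = (T R hm φ hφ).tw.sys.U.subgroupOf (Γ₀ R hm φ hφ) := res_U _ _ _ _
  rw [e1]
  have hle : (T R hm φ hφ).tw.sys.U ≤ Γ₀ R hm φ hφ :=
    ((T R hm φ hφ).tw.sys.U_le_B).trans (T R hm φ hφ).tw.sys.B_le_Γ
  rw [Nat.card_congr (Subgroup.subgroupOfEquivOfLe hle).toEquiv]
  rw [← card_U R hm φ hφ h2 hK hf]
  have e2 : (SM R hm φ hφ).U = (T R hm φ hφ).tw.sys.U.map ((E6).group K).subtype := Sys.mapInj_U _ _ _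
  rw [e2]
  exact Nat.card_congr (Subgroup.equivMapOfInjective _ _ (Subgroup.subtype_injective _)).toEquiv

theorem card_SH (h2 : ∀ t : K, φ (φ t) = t) {q : ℕ} (hq0 : 1 < q) (hK : Nat.card K = q ^ 2)
    (hq : ∀ t, φ t = t ^ q) : Nat.gcd 3 (q + 1) * Nat.card (SS R hm φ hφ).H = (q ^ 2 - 1) ^ 2 * (q - 1) ^ 2 := by
  have e1 : Nat.card (SS R hm φ hφ).H = Nat.card ↥((St R hm).Hb ⊓ fx (A R hm φ hφ).σ) := res_card_H _ _ _ _
  rw [e1, card_H R hm φ hφ h2 hq0 hK hq]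

theorem card_Γ (h2 : ∀ t : K, φ (φ t) = t) {q : ℕ} (hq0 : 1 < q) (hK : Nat.card K = q ^ 2)
    (hq : ∀ t, φ t = t ^ q) : Nat.card ↥(Γ₀ R hm φ hφ) = q ^ 36 * Nat.card (SM R hm φ hφ).H * PF q := by
  rw [← (card_all R hm φ hφ h2 hq0 hK hq (G1 := (SM R hm φ hφ).Γ) rfl).1]
  have e2 : (SM R hm φ hφ).Γ = (T R hm φ hφ).tw.sys.Γ.map ((E6).group K).subtype := M_Γ (T R hm φ hφ).tw
  rw [e2]
  exact Nat.card_congr (Subgroup.equivMapOfInjective _ _ (Subgroup.subtype_injective _)).toEquiv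

theorem PF_mod (q p : ℕ) (h : p ∣ q) : PF q ≡ 1 [MOD p] := by
  have h0 : q ≡ 0 [MOD p] := (Nat.modEq_zero_iff_dvd.2 h)
  have hs : ∀ L : List (ℕ × ℕ), (L.map fun e => (0 : ℕ) ^ e.2).sum = 1 → (L.map fun e => q ^ e.2).sum ≡ 1 [MOD p] := by
    intro L hL
    rw [← hL]
    clear hL
    induction L with
    | nil => exact Nat.ModEq.refl _
    | cons a L ih =>
      simp only [List.map_cons, List.sum_cons]
      exact (h0.pow _).add ih
  have e : 1 = 1 * 1 * 1 * 1 := by norm_num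
  rw [e]
  unfold PF
  have hs' : ∀ {α : Type} (L : List (α × ℕ)), (L.map fun e => (0 : ℕ) ^ e.2).sum = 1 → (L.map fun e => q ^ e.2).sum ≡ 1 [MOD p] := by
    intro α L hL
    rw [← hL]
    clear hL
    induction L with
    | nil => exact Nat.ModEq.refl _
    | cons a L ih =>
      simp only [List.map_cons, List.sum_cons]
      exact (h0.pow _).add ih
  exact (((hs' _ (by decide +kernel)).mul (hs' _ (by decide +kernel))).mul (hs' _ (by decide +kernel))).mul (hs' _ (by decide +kernel))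

theorem index_ndvd (h2 : ∀ t : K, φ (φ t) = t) {q : ℕ} (hq0 : 1 < q) (hK : Nat.card K = q ^ 2)
    (hq : ∀ t, φ t = t ^ q) {p : ℕ} (hp : p.Prime) (hpq : p ∣ q) : ¬ p ∣ (SS R hm φ hφ).U.index := by
  have hf : Nat.card {t : K // φ t = t} = q := by
    simp only [hq]
    exact card_fixed hq0 (by norm_num) hK
  have h1 := Subgroup.card_mul_index (SS R hm φ hφ).U
  rw [card_SU R hm φ hφ h2 hK hf, card_Γ R hm φ hφ h2 hq0 hK hq, mul_assoc] at h1
  have h3 := Nat.eq_of_mul_eq_mul_left (pow_pos (by omega : 0 < q) 36) h1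
  rw [h3]
  intro hd
  have hone : ¬ p ∣ 1 := fun h => hp.one_lt.ne' (Nat.dvd_one.1 h)
  rcases (Nat.Prime.dvd_mul hp).1 hd with hd | hd
  · have h4 := (card_all R hm φ hφ h2 hq0 hK hq (G1 := (SM R hm φ hφ).Γ) rfl).2
    have h5 : p ∣ (q ^ 2 - 1) ^ 2 * (q - 1) ^ 2 := by rw [← h4]; exact Dvd.dvd.mul_left hd _
    rcases (Nat.Prime.dvd_mul hp).1 h5 with h6 | h6
    · have h7 := hp.dvd_of_dvd_pow h6
      have h8 := Nat.dvd_sub (dvd_pow hpq (two_ne_zero)) h7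
      rw [Nat.sub_sub_self (Nat.one_le_pow _ _ (by omega))] at h8
      exact hone h8
    · have h7 := hp.dvd_of_dvd_pow h6
      have h8 := Nat.dvd_sub hpq h7
      rw [Nat.sub_sub_self (by omega)] at h8
      exact hone h8
  · have h4 := PF_mod q p hpq
    have h5 := (Nat.modEq_zero_iff_dvd.2 hd).symm.trans h4
    exact hone ((Nat.modEq_zero_iff_dvd.1 h5.symm))

theorem gen_X (h2 : ∀ t : K, φ (φ t) = t) : (⨆ r, (SS R hm φ hφ).X r) = ⊤ := by
  have hle : (⨆ c, XC Z6 W6 (E R hm φ hφ) c) ≤ Γ₀ R hm φ hφ := iSup_le fun c => hX R hm φ hφ c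
  have h1 : Γ₀ R hm φ hφ ≤ ⨆ c, XC Z6 W6 (E R hm φ hφ) c := by
    refine (T R hm φ hφ).Γ_le (hfix_le R hm φ hφ h2 ?_ ?_) ?_ ?_
    · intro J; exact le_iSup (fun c => XC Z6 W6 (E R hm φ hφ) c) _
    · intro J; exact le_iSup (fun c => XC Z6 W6 (E R hm φ hφ) c) _
    · intro J; exact le_iSup (fun c => XC Z6 W6 (E R hm φ hφ) c) _
    · intro J; exact le_iSup (fun c => XC Z6 W6 (E R hm φ hφ) c) _
  have h3 : (⨆ r, (SS R hm φ hφ).X r) = (⨆ c, XC Z6 W6 (E R hm φ hφ) c).subgroupOf (Γ₀ R hm φ hφ) :=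
    sub_iSup fun c => hX R hm φ hφ c
  rw [h3, le_antisymm hle h1, Subgroup.subgroupOf_self]

/-- the main estimate for coprime kernels -/
theorem ker_dvd {E' : Type*} [Group E'] [Finite E'] {π : E' →* ↥(Γ₀ R hm φ hφ)} (h : CE π)
    (hst : π.ker ≤ commutator E') (h2 : ∀ t : K, φ (φ t) = t) {q : ℕ} (hq0 : 1 < q) (hK : Nat.card K = q ^ 2)
    (hq : ∀ t, φ t = t ^ q) {p : ℕ} [Fact p.Prime] {f : ℕ} (hpq : q = p ^ f)
    (hcop : (Nat.card π.ker).Coprime p) : Nat.card π.ker ∣ Nat.gcd 3 (q + 1) := by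
  have hf : Nat.card {t : K // φ t = t} = q := by
    simp only [hq]
    exact card_fixed hq0 (by norm_num) hK
  have hU : IsPGroup p (SS R hm φ hφ).U :=
    IsPGroup.of_card (n := f * 36) (by rw [card_SU R hm φ hφ h2 hK hf, hpq, ← pow_mul])
  obtain ⟨a, ha⟩ := exists_pow_ne (K := K) (n := 2) (by norm_num) (by
    rw [hK]
    have : 2 ^ 2 ≤ q ^ 2 := Nat.pow_le_pow_left hq0 2
    omega)
  have hperf := StemGen.perfect_sub (perf R hm φ hφ h2 ha)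
  have hE := StemGen.stem_perfect h.surj hperf hst
  have hV := StemGen.isP_V (SS R hm φ hφ) (longest F4X) hU
  have R0 : R1 (x2 R hm φ hφ h2 (m0 R hm φ hφ)) (x2 R hm φ hφ h2 (n0 R hm φ hφ)) :=
    (r1_pair R hm φ (by decide) (by decide) (o1 R hm)).res _ _
  have R1' : R1 (x2 R hm φ hφ h2 (m1 R hm φ hφ)) (x2 R hm φ hφ h2 (n1 R hm φ hφ)) :=
    (r1_pair R hm φ (by decide) (by decide) (o2 R hm)).res _ _
  have R2 : R1 (x1 R hm φ hφ (m2 R hm φ hφ)) (x1 R hm φ hφ (n2 R hm φ hφ)) :=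
    (r1_single R hm φ (r := 39) (by decide)).res _ _
  have R3 : R1 (x1 R hm φ hφ (m3 R hm φ hφ)) (x1 R hm φ hφ (n3 R hm φ hφ)) :=
    (r1_single R hm φ (r := 46) (by decide)).res _ _
  have eKf : Nat.card (Kf φ) = q := hf
  have key := StemGen.card_dvd' h hcop (SS R hm φ hφ) hU (longest F4X) (gen_X R hm φ hφ h2) hE
    (c := (![q ^ 2 - 1, q ^ 2 - 1, q - 1, q - 1] : Fin 4 → ℕ)) (by
      intro i
      rcases four i with rfl | rfl | rfl | rfl
      · show _ ∣ q ^ 2 - 1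
        rw [← hK]
        exact KK_card_dvd h hcop R0 (hh_comm R hm φ hφ R0 0 (mem_x2 R hm φ hφ h2 (m0 R hm φ hφ)) (mem_x2 R hm φ hφ h2 (n0 R hm φ hφ)))
          (SS R hm φ hφ) (0 : Fin 4) (mem_x2 R hm φ hφ h2 (m0 R hm φ hφ)) (mem_x2 R hm φ hφ h2 (n0 R hm φ hφ)) hU hV
      · show _ ∣ q ^ 2 - 1
        rw [← hK]
        exact KK_card_dvd h hcop R1' (hh_comm R hm φ hφ R1' 1 (mem_x2 R hm φ hφ h2 (m1 R hm φ hφ)) (mem_x2 R hm φ hφ h2 (n1 R hm φ hφ)))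
          (SS R hm φ hφ) (1 : Fin 4) (mem_x2 R hm φ hφ h2 (m1 R hm φ hφ)) (mem_x2 R hm φ hφ h2 (n1 R hm φ hφ)) hU hV
      · show _ ∣ q - 1
        rw [← eKf]
        exact KK_card_dvd h hcop R2 (hh_comm R hm φ hφ R2 2 (mem_x1 R hm φ hφ (m2 R hm φ hφ)) (mem_x1 R hm φ hφ (n2 R hm φ hφ)))
          (SS R hm φ hφ) (2 : Fin 4) (mem_x1 R hm φ hφ (m2 R hm φ hφ)) (mem_x1 R hm φ hφ (n2 R hm φ hφ)) hU hV
      · show _ ∣ q - 1
        rw [← eKf]
        exact KK_card_dvd h hcop R3 (hh_comm R hm φ hφ R3 3 (mem_x1 R hm φ hφ (m3 R hm φ hφ)) (mem_x1 R hm φ hφ (n3 R hm φ hφ)))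
          (SS R hm φ hφ) (3 : Fin 4) (mem_x1 R hm φ hφ (m3 R hm φ hφ)) (mem_x1 R hm φ hφ (n3 R hm φ hφ)) hU hV)
  have e2 : ∏ i : Fin 4, (![q ^ 2 - 1, q ^ 2 - 1, q - 1, q - 1] : Fin 4 → ℕ) i = (q ^ 2 - 1) ^ 2 * (q - 1) ^ 2 := by
    rw [Fin.prod_univ_four]
    show (q ^ 2 - 1) * (q ^ 2 - 1) * (q - 1) * (q - 1) = _
    ring
  have key' : Nat.card π.ker * Nat.card (SS R hm φ hφ).H ∣ ∏ i : Fin 4, (![q ^ 2 - 1, q ^ 2 - 1, q - 1, q - 1] : Fin 4 → ℕ) i := key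
  rw [e2, ← card_SH R hm φ hφ h2 hq0 hK hq] at key'
  exact Nat.dvd_of_mul_dvd_mul_right Nat.card_pos key'

/-- `q ≥ 3` -/
theorem cop_ge3 {E' : Type*} [Group E'] [Finite E'] {π : E' →* ↥(Γ₀ R hm φ hφ)} (h : CE π)
    (hst : π.ker ≤ commutator E') (h2 : ∀ t : K, φ (φ t) = t) {q : ℕ} (hq0 : 3 ≤ q) (hK : Nat.card K = q ^ 2)
    (hq : ∀ t, φ t = t ^ q) {p : ℕ} (hp : p.Prime) (hpq : p ∣ q) : (Nat.card π.ker).Coprime p := by
  obtain ⟨g, hg⟩ := IsCyclic.exists_generator (α := Kˣ)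
  have hord : orderOf g = q ^ 2 - 1 := by
    rw [orderOf_eq_card_of_forall_mem_zpowers hg, Nat.card_units, hK]
  have hbig : ∃ s : Finset K, 4 < s.card := by
    haveI := Fintype.ofFinite K
    refine ⟨Finset.univ, ?_⟩
    rw [Finset.card_univ, ← Nat.card_eq_fintype_card, hK]
    have : 3 ^ 2 ≤ q ^ 2 := Nat.pow_le_pow_left hq0 2
    omega
  have hgq : g ^ q ^ 2 = g := by
    have h1 : q ^ 2 = orderOf g + 1 := by
      rw [hord]
      have : 1 ≤ q ^ 2 := Nat.one_le_pow _ _ (by omega)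
      omega
    rw [h1, pow_succ, pow_orderOf_eq_one, one_mul]
  have hlam : (Lam (E R hm φ hφ) (0 : Fin 4)).map (fun c : Fin ttE6.n' => ttE6.bk.getD c []) =
      ((Cfsg.Lie.chevF4.simple 0) :: ttE6.ords.getD 0 []).map fun c => ttE6.bk.getD c [] := by
    rw [← bk_map (E := E R hm φ hφ)]
    exact (E R hm φ hφ).blocks_val (0 : Fin 4)
  have hch := chain_tw Z6 W6 (E R hm φ hφ) (0 : Fin 4) (hX R hm φ hφ) (hH R hm φ hφ) h (by rw [hlam]; exact ck_all)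
    (pi := ttE6.pi) (k := 2) (q := q) (okp := okp2) (lams := lams) (by rw [hlam]; exact ck_s)
    (by
      intro i
      have : ∀ i : Fin 6, ((A R hm φ hφ).π i : ℕ) = ttE6.pi.getD i 0 := by intro i; fin_cases i <;> rfl
      exact this i)
    (by
      intro i
      have : ∀ i : Fin 6, itr ttE6.pi 2 i = i := by decide
      exact this i)
    (fun r t => hq t) g hgq (fun e he => ok2 hq0 hord e he)
    (fun c hc => ab_all R hm φ hφ h h2 hbig c)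
  refine hch.coprime h hst hp ?_
  rw [JX_eq]
  exact index_ndvd R hm φ hφ h2 (by omega) hK hq hp hpq

/-- the upper bound -/
theorem upper {E' : Type*} [Group E'] [Finite E'] {π : E' →* ↥(Γ₀ R hm φ hφ)} (h : CE π)
    (hst : π.ker ≤ commutator E') (h2 : ∀ t : K, φ (φ t) = t) {q : ℕ} (hq0 : IsPrimePow q) (hq2 : q ≠ 2) (hK : Nat.card K = q ^ 2)
    (hq : ∀ t, φ t = t ^ q) : Nat.card π.ker ∣ Nat.gcd 3 (q + 1) := by
  have hq1 := hq0.one_lt
  obtain ⟨p, f, hp, hf, rfl⟩ := (isPrimePow_nat_iff q).1 hq0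
  haveI : Fact p.Prime := ⟨hp⟩
  refine ker_dvd R hm φ hφ h hst h2 hq1 hK hq rfl ?_
  exact cop_ge3 R hm φ hφ h hst h2 (by omega) hK hq hp (dvd_pow_self p hf.ne')

end fin

end H23.MultTE6
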