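/-
H23: the Schur multiplier of ²E₆(q): the cover.
-/
import Cfsg.Agent.Lib.H23.MultTE6c
import Cfsg.Agent.Lib.H23.CenterE
set_option autoImplicit false
set_option linter.unusedVariables false
set_option linter.unusedSectionVars false

universe u

namespace H23.RankOne
open scoped commutatorElement

/-- root elements in the commutator subgroup -/
theorem R1.mem_comm {K : Type*} [Field K] {G : Type*} [Group G] {x y : K → G} (R : R1 x y) {L : Subgroup G}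
    (hx : ∀ t, x t ∈ L) (hy : ∀ t, y t ∈ L) {a : K} (ha0 : a ≠ 0) (ha : a ^ 2 ≠ 1) (t : K) :
    x t ∈ ⁅L, L⁆ ∧ y t ∈ ⁅L, L⁆ := by
  have hnn : ∀ t, nn x y t ∈ L := fun t => L.mul_mem (L.mul_mem (hx _) (hy _)) (hx _)
  have hh' : hh x y a ∈ L := L.mul_mem (hnn _) (hnn _)
  have hne : a ^ 2 - 1 ≠ 0 := sub_ne_zero.2 ha
  have hne' : (a ^ 2)⁻¹ - 1 ≠ 0 := by
    intro h
    apply ha
    have := sub_eq_zero.1 h
    exact inv_eq_one.1 this
  constructor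
  · have e : ⁅hh x y a, x (t / (a ^ 2 - 1))⁆ = x t := by
      rw [commutatorElement_def, R.h_x ha0]
      have e4 : a ^ 2 * (t / (a ^ 2 - 1)) = t + t / (a ^ 2 - 1) := by field_simp; ring
      rw [e4, ← R.xadd, mul_inv_cancel_right]
    rw [← e]
    exact Subgroup.commutator_mem_commutator hh' (hx _)
  · have e : ⁅hh x y a, y (t / ((a ^ 2)⁻¹ - 1))⁆ = y t := by
      rw [commutatorElement_def, R.h_y ha0]
      have e4 : (a ^ 2)⁻¹ * (t / ((a ^ 2)⁻¹ - 1)) = t + t / ((a ^ 2)⁻¹ - 1) := by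
        generalize (a ^ 2)⁻¹ = b at *
        field_simp; ring
      rw [e4, ← R.yadd, mul_inv_cancel_right]
    rw [← e]
    exact Subgroup.commutator_mem_commutator hh' (hy _)

theorem R1.hh_mem_comm {K : Type*} [Field K] {G : Type*} [Group G] {x y : K → G} (R : R1 x y) {L : Subgroup G}
    (hx : ∀ t, x t ∈ L) (hy : ∀ t, y t ∈ L) {a : K} (ha0 : a ≠ 0) (ha : a ^ 2 ≠ 1) (t : K) :
    hh x y t ∈ ⁅L, L⁆ := by
  have h1 := fun t => (R.mem_comm hx hy ha0 ha t).1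
  have h2 := fun t => (R.mem_comm hx hy ha0 ha t).2
  have hnn : ∀ t, nn x y t ∈ ⁅L, L⁆ := fun t => Subgroup.mul_mem _ (Subgroup.mul_mem _ (h1 _) (h2 _)) (h1 _)
  exact Subgroup.mul_mem _ (hnn _) (hnn _)

end H23.RankOne

namespace H23.MultTE6

section st
open scoped commutatorElement
open Cfsg.Lie (ChevalleyDatum)
open H22.RGD H22.Coord H22.RCCheck H22.RCComb H22.ChevTri H22.ChevRel H22.ChevSys H22.ChevMain
open H22.ChevStd H22.ChevSolv H22.ChevUni H22.St H22.ChevTorus H22.ChevTorusCard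
open H23.ChevSLTheory H23.ChevSLTheory.SLData H23.Cv H23.LiftE H23.SubE8 H23.Mult H23.CenterE

local notation "E6" => Cfsg.Lie.chevE6
local notation "X6" => H22.PoinE6.rcxE6
local notation "Z6" => H22.ChevLex.lexE6
local notation "W6" => H22.TwE6.certE6'

variable {K : Type u} [Field K] [Finite K]

/-- the Steinberg group as a `StG` with injective torus -/
theorem exists_S (R : H22.ChevRel.Rel E6 K) : ∃ S : StG R ((E6).SteinbergGroup K), Function.Injective (S.psi X6 Z6 W6) := by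
  have hD : E6 ∈ L7 := by simp
  have hD' : Cfsg.Lie.chevE8 ∈ L7 := by simp
  obtain ⟨X', ⟨Z'⟩, W'⟩ := H22.StTab.exists_all hD'
  have R' := H22.ChevAll.rel Cfsg.Lie.chevE8 hD' K
  let S := stGof R (θ₀ R (X6).rc (hmul_all E6 hD)) (θ₀_gen R (X6).rc (hmul_all E6 hD))
  let S' := stGof R' (θ₀ R' X'.rc (hmul_all _ hD')) (θ₀_gen R' X'.rc (hmul_all _ hD'))
  obtain ⟨ρ, hρ⟩ := H23.ChevExc.exists_lift (((embE6).ab (st_ab (K := K) hD')).stR hD) (Cv.neg_lt hD) (ct_lt hD)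
  exact ⟨S, psi_inj hD embE6 simpE6 S (fun _ _ => rfl) S' (fun _ _ => rfl) X6 Z6 W6 X' Z' W' ρ hρ ker_chi_E8⟩

end st

section low
open H22.RGD H22.Coord H22.RCCheck H22.RCComb H22.ChevTri H22.ChevRel H22.ChevSys H22.ChevMain
open H22.ChevStd H22.ChevSolv H22.ChevUni H22.St H22.TwChev H22.TwSt H22.RCPack H22.TwTab H22.TwX
open H22.TwDat H22.TwAut H22.ChevTorus H22.TwThm H22.TwPerf H22.TwMisc H22.TwE6
open H23.WSplit H23.Lift H23.SysRes H23.TwW H23.SysLift H23.LiftPP H23.RankOne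
open Cfsg.Lie (ChevalleyDatum)
open scoped MatrixGroups Matrix commutatorElement

local notation "E6" => Cfsg.Lie.chevE6
local notation "X6" => H22.PoinE6.rcxE6
local notation "Z6" => H22.ChevLex.lexE6
local notation "W6" => certE6'

variable {K : Type u} [Field K] {R : Rel E6 K} {Gs : Type u} [Group Gs] (S : StG R Gs) (φ : K →+* K)

/-- twisted pairs -/
def xp (r s : ℕ) (t : K) : Gs := S.xb r t * S.xb s (φ t)

theorem or0 : Orth S 56 36 := orth_of S (X6).rc (by decide) (by decide) (by decide +kernel)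
theorem or1 : Orth S 42 37 := orth_of S (X6).rc (by decide) (by decide) (by decide +kernel)

theorem r1_xp {r s : ℕ} (hr : r < (E6).nroots) (hs : s < (E6).nroots) (o : Orth S r s) :
    R1 (xp S φ r s) (xp S φ ((E6).neg r) ((E6).neg s)) := by
  have C := H23.ChevAll.core E6 memE6
  have a : R1 (S.xb r) (S.xb ((E6).neg r)) := H23.TwR1.r1 S X6 Z6 W6 C ⟨r, hr⟩
  have b : R1 (S.xb s) (S.xb ((E6).neg s)) := H23.TwR1.r1 S X6 Z6 W6 C ⟨s, hs⟩
  exact a.prod b φ (fun t u => (o t u).1) (fun t u => (o t u).2.1) (fun t u => (o t u).2.2.1)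
    (fun t u => (o t u).2.2.2)

theorem hh_xp {r s : ℕ} (hr : r < (E6).nroots) (hs : s < (E6).nroots) (o : Orth S r s) (t : K) :
    hh (xp S φ r s) (xp S φ ((E6).neg r) ((E6).neg s)) t = S.hb r t * S.hb s (φ t) := by
  rw [← H23.TwR1.hh_eq, ← H23.TwR1.hh_eq]
  exact hh_prod φ (fun t u => (o t u).1) (fun t u => (o t u).2.1) (fun t u => (o t u).2.2.1)
    (fun t u => (o t u).2.2.2) t

theorem hb_one' {r : ℕ} (hr : r < (E6).nroots) : S.hb r 1 = 1 := by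
  have h := S.hb_mul hr (one_ne_zero (α := K)) (one_ne_zero (α := K))
  rw [mul_one] at h
  exact mul_eq_left.1 h

/-- the words -/
def gW (q : ℕ) : Set Gs := {g | ∃ w ∈ Cfsg.Lie.e6Words K q, g = S.wb w}

theorem word_lt {q : ℕ} {w : List (ℕ × K)} (hw : w ∈ Cfsg.Lie.e6Words K q) : ∀ p ∈ w, p.1 < (E6).nroots := by
  rcases hw with ⟨t, ht, r, hr, rfl⟩ | ⟨t, rs, hrs, rfl⟩
  · intro p hp
    rw [List.mem_singleton] at hp
    subst hp
    have : ∀ r ∈ [Cfsg.Lie.e6p2, Cfsg.Lie.e6m2, Cfsg.Lie.e6p4, Cfsg.Lie.e6m4], r < (E6).nroots := by decide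
    exact this r hr
  · intro p hp
    have : ∀ rs ∈ [(Cfsg.Lie.e6p1, Cfsg.Lie.e6p6), (Cfsg.Lie.e6m1, Cfsg.Lie.e6m6), (Cfsg.Lie.e6p3, Cfsg.Lie.e6p5),
      (Cfsg.Lie.e6m3, Cfsg.Lie.e6m5)], rs.1 < (E6).nroots ∧ rs.2 < (E6).nroots := by decide
    obtain ⟨h1, h2⟩ := this rs hrs
    simp only [List.mem_cons, List.not_mem_nil, or_false] at hp
    rcases hp with rfl | rfl
    · exact h1
    · exact h2

/-- the subgroup generated by the words maps onto ²E₆(q) -/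
theorem map_gW (q : ℕ) : (Subgroup.closure (gW S q)).map S.θ = Cfsg.Lie.twistedE6 K q := by
  unfold Cfsg.Lie.twistedE6 ChevalleyDatum.genSubgroup
  rw [MonoidHom.map_closure]
  congr 1
  ext g
  constructor
  · rintro ⟨_, ⟨w, hw, rfl⟩, rfl⟩
    refine ⟨w, hw, ?_⟩
    rw [S.θ_wb w (word_lt hw), wg_val]
  · rintro ⟨w, hw, hg⟩
    refine ⟨S.wb w, ⟨w, hw, rfl⟩, ?_⟩
    apply Units.ext
    rw [hg, S.θ_wb w (word_lt hw), wg_val]

theorem xp_mem {q : ℕ} (hq : ∀ t, φ t = t ^ q) {r s : ℕ} (hrs : (r, s) ∈ [(Cfsg.Lie.e6p1, Cfsg.Lie.e6p6), (Cfsg.Lie.e6m1, Cfsg.Lie.e6m6),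
    (Cfsg.Lie.e6p3, Cfsg.Lie.e6p5), (Cfsg.Lie.e6m3, Cfsg.Lie.e6m5)]) (t : K) : xp S φ r s t ∈ Subgroup.closure (gW S q) := by
  apply Subgroup.subset_closure
  refine ⟨[(r, t), (s, t ^ q)], Or.inr ⟨t, (r, s), hrs, rfl⟩, ?_⟩
  unfold xp
  rw [hq]
  simp [StG.wb]

/-- the central element -/
theorem z_mem {q : ℕ} (hq : ∀ t, φ t = t ^ q) {a : K} (ha0 : a ≠ 0) (ha : a ^ 2 ≠ 1) {ω : Kˣ} (h3 : ω ^ 3 = 1) (hωq : ω ^ q = ω ^ 2) :
    S.psi X6 Z6 W6 (kz ω) ∈ ⁅Subgroup.closure (gW S q), Subgroup.closure (gW S q)⁆ := by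
  have hL1 : ([0, 5, 2, 4, 1, 3] : List (Fin 6)).Nodup := by decide
  have hL2 : ∀ i : Fin 6, i ∈ ([0, 5, 2, 4, 1, 3] : List (Fin 6)) := by decide
  have e := psi_list (S := S) (X := X6) Z6 W6 (([0, 5, 2, 4, 1, 3] : List (Fin 6))) hL1 hL2 (kz ω)
  have e' : S.psi X6 Z6 W6 (kz ω) = S.hb 56 (ω : K) * S.hb 36 ((ω ^ 2 : Kˣ) : K) * (S.hb 42 ((ω ^ 2 : Kˣ) : K) * S.hb 37 (ω : K)) := by
    rw [e]
    show S.hb 56 (ω : K) * (S.hb 36 ((ω ^ 2 : Kˣ) : K) * (S.hb 42 ((ω ^ 2 : Kˣ) : K) * (S.hb 37 (ω : K) *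
      (S.hb 46 ((1 : Kˣ) : K) * (S.hb 39 ((1 : Kˣ) : K) * 1))))) = _
    rw [Units.val_one, hb_one' S (by decide), hb_one' S (by decide)]
    simp only [mul_one, mul_assoc]
  have p1 : φ (ω : K) = ((ω ^ 2 : Kˣ) : K) := by rw [hq, ← hωq, Units.val_pow_eq_pow_val]
  have p2 : φ ((ω ^ 2 : Kˣ) : K) = (ω : K) := by
    have : (ω ^ 2) ^ 2 = ω := by
      calc (ω ^ 2) ^ 2 = ω ^ 3 * ω := by rw [← pow_mul, ← pow_succ]
        _ = ω := by rw [h3, one_mul]
    rw [Units.val_pow_eq_pow_val, map_pow, p1, ← Units.val_pow_eq_pow_val, this]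
  have h1 := hh_xp S φ (by decide) (by decide) (or0 S) (ω : K)
  have h2 := hh_xp S φ (by decide) (by decide) (or1 S) ((ω ^ 2 : Kˣ) : K)
  rw [p1] at h1
  rw [p2] at h2
  rw [e', ← h1, ← h2]
  have m1 : (E6).neg 56 = 15 := by decide +kernel
  have m2 : (E6).neg 36 = 35 := by decide +kernel
  have m3 : (E6).neg 42 = 29 := by decide +kernel
  have m4 : (E6).neg 37 = 34 := by decide +kernel
  refine Subgroup.mul_mem _ ?_ ?_
  · refine (r1_xp S φ (by decide) (by decide) (or0 S)).hh_mem_comm (fun t => xp_mem S φ hq (by decide) t) ?_ ha0 ha _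
    rw [m1, m2]
    exact fun t => xp_mem S φ hq (by decide) t
  · refine (r1_xp S φ (by decide) (by decide) (or1 S)).hh_mem_comm (fun t => xp_mem S φ hq (by decide) t) ?_ ha0 ha _
    rw [m3, m4]
    exact fun t => xp_mem S φ hq (by decide) t

end low

end H23.MultTE6
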