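/-
H23: the Schur multiplier of ²E₆(q).
-/
import Cfsg.Agent.Lib.H23.MultTE6d
set_option autoImplicit false
set_option linter.unusedVariables false
set_option linter.unusedSectionVars false

universe u

namespace H23.MultTE6

open H22.RGD H22.Coord H22.RCCheck H22.RCComb H22.ChevTri H22.ChevRel H22.ChevSys H22.ChevMain
open H22.ChevStd H22.ChevSolv H22.ChevUni H22.St H22.TwChev H22.TwSt H22.RCPack H22.TwTab H22.TwX
open H22.TwDat H22.TwAut H22.ChevTorus H22.TwThm H22.TwPerf H22.TwMisc H22.TwE6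
open H23.WSplit H23.Lift H23.SysRes H23.TwW H23.SysLift H23.LiftPP H23.RankOne
open Cfsg.Lie (ChevalleyDatum)
open scoped MatrixGroups Matrix commutatorElement

local notation "E6" => Cfsg.Lie.chevE6
local notation "X6" => H22.PoinE6.rcxE6
local notation "Z6" => H22.ChevLex.lexE6
local notation "W6" => certE6'

theorem mem_commutator_of {G : Type*} [Group G] {L : Subgroup G} {x : L} (h : (x : G) ∈ ⁅L, L⁆) : x ∈ commutator L := by
  have e : (commutator L).map L.subtype = ⁅L, L⁆ := by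
    rw [commutator_def, Subgroup.map_commutator, ← MonoidHom.range_eq_map, Subgroup.range_subtype]
  rw [← e] at h
  obtain ⟨y, hy, hxy⟩ := h
  have : y = x := Subtype.ext hxy
  rw [← this]; exact hy

theorem lower {K : Type u} [Field K] [Fintype K] {q : ℕ} (hq : IsPrimePow q) (hK : Fintype.card K = q ^ 2) (h3 : 3 ∣ q + 1) :
    ∃ (Γ : Type u) (_ : Group Γ) (_ : Finite Γ) (σ : Γ →* ↥(Cfsg.Lie.twistedE6 K q)), Cfsg.IsStemExtension σ ∧
      Nonempty (σ.ker ≃* Multiplicative (ZMod 3)) := by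
  have hK' : Nat.card K = q ^ 2 := by rw [Nat.card_eq_fintype_card]; exact hK
  have hq1 := hq.one_lt
  obtain ⟨φ, hφ, hφq⟩ := exists_frob hq (by norm_num : (2 : ℕ) ≠ 0) hK'
  obtain ⟨S, hinj⟩ := exists_S (RR K)
  have hfin : Finite ((E6).SteinbergGroup K) := H23.Mult.finite_st (by simp)
  -- the cube root of one
  have h3' : 3 ∣ q ^ 2 - 1 := by
    obtain ⟨n, rfl⟩ : ∃ n, q = n + 1 := ⟨q - 1, by omega⟩
    refine h3.trans ⟨n, ?_⟩
    apply Nat.sub_eq_of_eq_add; ring
  obtain ⟨ω, hω⟩ : ∃ ω : Kˣ, orderOf ω = 3 := by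
    haveI : Fact (Nat.Prime 3) := ⟨Nat.prime_three⟩
    apply exists_prime_orderOf_dvd_card' 3
    rw [Nat.card_units, hK']; exact h3'
  have hω3 : ω ^ 3 = 1 := by rw [← hω]; exact pow_orderOf_eq_one ω
  have hω1 : ω ≠ 1 := by
    intro h; rw [h, orderOf_one] at hω; omega
  have hωq : ω ^ q = ω ^ 2 := by
    obtain ⟨m, hm⟩ := h3
    have h1 : ω ^ q * ω = ω ^ 2 * ω := by rw [← pow_succ, hm, pow_mul, hω3, one_pow, ← pow_succ, hω3]
    exact mul_right_cancel h1
  obtain ⟨a, ha⟩ := exists_pow_ne (K := K) (n := 2) (by norm_num) (by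
    rw [hK']
    have : 2 ^ 2 ≤ q ^ 2 := Nat.pow_le_pow_left hq1 2
    omega)
  have hz := z_mem S φ hφq (a := (a : K)) a.ne_zero ha hω3 hωq
  set L := Subgroup.closure (gW S q) with hL
  set z := S.psi X6 Z6 W6 (kz ω) with hzd
  have hz1 : z ≠ 1 := by
    intro h
    have h1 : kz ω = 1 := hinj (by rw [map_one]; exact h)
    apply hω1
    have := congrFun h1 (jj 0)
    exact this
  have hzc : z ∈ Subgroup.center ((E6).SteinbergGroup K) := by
    rw [S.center_eq X6 Z6 W6]
    exact ⟨kz ω, kz_mem hω3, rfl⟩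
  have hcard : Nat.card (Subgroup.center ((E6).SteinbergGroup K)) = 3 := by
    have := H23.CenterE.s1079 (K := K) hK (Cfsg.Lie.chevE6, 3) (by simp)
    rw [this]
    exact Nat.gcd_eq_left h3'
  -- the centre is generated by `z`
  have hgen : ∀ x ∈ Subgroup.center ((E6).SteinbergGroup K), x ∈ Subgroup.zpowers z := by
    haveI : Fact (Nat.Prime 3) := ⟨Nat.prime_three⟩
    intro x hx
    have h1 := mem_zpowers_of_prime_card (p := 3) hcard (g := (⟨z, hzc⟩ : Subgroup.center ((E6).SteinbergGroup K)))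
      (g' := ⟨x, hx⟩) (fun h => hz1 (congrArg Subtype.val h))
    obtain ⟨k, hk⟩ := h1
    exact ⟨k, congrArg Subtype.val hk⟩
  have hmap := map_gW S q
  let σ : L →* ↥(Cfsg.Lie.twistedE6 K q) := (S.θ.comp L.subtype).codRestrict _ (fun x => by
    rw [← hmap]; exact ⟨x, x.2, rfl⟩)
  have hσval : ∀ x : L, ((σ x : ↥(Cfsg.Lie.twistedE6 K q)) : GL (E6).Idx K) = S.θ x := fun x => rfl
  have hker : ∀ x : L, x ∈ σ.ker ↔ (x : (E6).SteinbergGroup K) ∈ Subgroup.center ((E6).SteinbergGroup K) := by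
    intro x
    rw [← S.ker_eq_center X6 Z6 W6, MonoidHom.mem_ker, MonoidHom.mem_ker]
    constructor
    · intro h; rw [← hσval, h]; rfl
    · intro h; apply Subtype.ext; rw [hσval, h]; rfl
  have hLL : ⁅L, L⁆ ≤ L := by
    rw [Subgroup.commutator_le]
    intro a ha b hb
    exact L.mul_mem (L.mul_mem (L.mul_mem ha hb) (L.inv_mem ha)) (L.inv_mem hb)
  have hstem : Cfsg.IsStemExtension σ := by
    refine ⟨?_, ?_, ?_⟩
    · rintro ⟨g, hg⟩
      rw [← hmap] at hg
      obtain ⟨x, hx, e⟩ := hg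
      exact ⟨⟨x, hx⟩, Subtype.ext e⟩
    · intro x hx
      rw [Subgroup.mem_center_iff]
      intro g
      apply Subtype.ext
      exact Subgroup.mem_center_iff.1 ((hker x).1 hx) g
    · intro x hx
      apply mem_commutator_of
      obtain ⟨k, hk⟩ := hgen _ ((hker x).1 hx)
      rw [← hk]
      exact Subgroup.zpow_mem _ hz k
  have hcσ : Nat.card σ.ker = 3 := by
    rw [← hcard]
    refine Nat.card_congr (Equiv.ofBijective (fun x => ⟨(x.1 : (E6).SteinbergGroup K), (hker x.1).1 x.2⟩) ⟨?_, ?_⟩)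
    · intro x y h
      apply Subtype.ext; apply Subtype.ext
      simp only [Subtype.mk.injEq] at h
      exact h
    · rintro ⟨c, hc⟩
      have hcL : c ∈ L := by
        obtain ⟨k, hk⟩ := hgen c hc
        rw [← hk]
        exact Subgroup.zpow_mem _ (hLL hz) k
      exact ⟨⟨⟨c, hcL⟩, (hker _).2 hc⟩, rfl⟩
  refine ⟨L, inferInstance, inferInstance, σ, hstem, ⟨?_⟩⟩
  haveI : Fact (Nat.Prime 3) := ⟨Nat.prime_three⟩
  exact mulEquivOfPrimeCardEq (p := 3) hcσ (by rw [Nat.card_congr Multiplicative.toAdd, Nat.card_zmod])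

theorem s2108 {K : Type u} [Field K] [Fintype K] {q : ℕ} (hq : IsPrimePow q) (hK : Fintype.card K = q ^ 2) (h2q : q ≠ 2) :
    Cfsg.HasCyclicSchurMultiplier ↥(Cfsg.Lie.twistedE6 K q) (Nat.gcd 3 (q + 1)) := by
  have hK' : Nat.card K = q ^ 2 := by rw [Nat.card_eq_fintype_card]; exact hK
  obtain ⟨φ, hφ, hφq⟩ := exists_frob hq (by norm_num : (2 : ℕ) ≠ 0) hK'
  have h2 : ∀ t : K, φ (φ t) = t := by
    intro t
    rw [hφq, hφq, ← pow_mul]
    have := FiniteField.pow_card t
    rwa [hK, show q ^ 2 = q * q by ring] at this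
  have hG := Γ_eq (RR K) (H22.St.hmul_all _ memE6) φ hφ h2 hφq
  have hM := M_Γ (T (RR K) (H22.St.hmul_all _ memE6) φ hφ).tw
  let e : ↥(Γ₀ (RR K) (H22.St.hmul_all _ memE6) φ hφ) ≃* ↥(Cfsg.Lie.twistedE6 K q) :=
    (Subgroup.equivMapOfInjective _ ((E6).group K).subtype (Subgroup.subtype_injective _)).trans
      (MulEquiv.subgroupCongr (hM.symm.trans hG))
  haveI : Finite ↥(Cfsg.Lie.twistedE6 K q) := Finite.of_equiv _ e.toEquiv
  have hg13 : Nat.gcd 3 (q + 1) = 1 ∨ Nat.gcd 3 (q + 1) = 3 := (Nat.dvd_prime Nat.prime_three).1 (Nat.gcd_dvd_left 3 (q + 1))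
  have hup : ∀ (Γ : Type u) [Group Γ] [Finite Γ] (σ : Γ →* ↥(Cfsg.Lie.twistedE6 K q)), Cfsg.IsStemExtension σ →
      ∃ π : Multiplicative (ZMod (Nat.gcd 3 (q + 1))) →* σ.ker, Function.Surjective π := by
    intro Γ _ _ σ hσ
    have hker : (e.symm.toMonoidHom.comp σ).ker = σ.ker := by
      ext x
      simp [MonoidHom.mem_ker]
    have hCE : CE (e.symm.toMonoidHom.comp σ) := by
      refine ⟨?_, ?_⟩
      · exact e.symm.surjective.comp hσ.1
      · rw [hker]; exact hσ.2.1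
    have h1 := upper (RR K) (H22.St.hmul_all _ memE6) φ hφ hCE (by rw [hker]; exact hσ.2.2) h2 hq h2q hK' hφq
    rw [hker] at h1
    have hcy : IsCyclic σ.ker := by
      rcases hg13 with h | h
      · rw [h] at h1
        haveI := (Nat.card_eq_one_iff_unique.1 (Nat.dvd_one.1 h1)).1
        exact isCyclic_of_subsingleton
      · rw [h] at h1
        haveI : Fact (Nat.Prime 3) := ⟨Nat.prime_three⟩
        rcases (Nat.dvd_prime Nat.prime_three).1 h1 with h4 | h4
        · haveI := (Nat.card_eq_one_iff_unique.1 h4).1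
          exact isCyclic_of_subsingleton
        · exact isCyclic_of_prime_card h4
    exact H40.StemFinish.exists_surj_of_isCyclic h1
  refine ⟨?_, fun Γ _ _ σ hσ => hup Γ σ hσ⟩
  rcases hg13 with h | h
  · rw [h]
    exact H40.StemFinish.exists_stem_one _
  · rw [h]
    exact lower hq hK (by rw [← h]; exact Nat.gcd_dvd_right 3 (q + 1))

end H23.MultTE6
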