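/-
H23: projective representations in the natural characteristic lift to the Steinberg cover.
-/
import Cfsg.Agent.Lib.H23.LiftPP
set_option autoImplicit false
set_option linter.unusedVariables false

namespace H23.ProjLift

open scoped commutatorElement
open H23.Lift H23.Cv H23.LiftT H23.LiftGrp H23.LiftApp H23.LiftTr H23.LiftPP
open Cfsg.Lie (ChevalleyDatum)

theorem group_finite {D : ChevalleyDatum} {K : Type*} [Field K] [Finite K] : Finite ↥(D.group K) := inferInstance

/-- scalar matrices of determinant one have order prime to the characteristic -/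
theorem scalar_pow {L : Type*} [Field L] {p : ℕ} [Fact p.Prime] [CharP L p] (n : ℕ) : ∃ m : ℕ, 0 < m ∧ m.Coprime p ∧
    ∀ g : GL (Fin n) L, g ∈ Subgroup.center (GL (Fin n) L) → (g : Matrix (Fin n) (Fin n) L).det = 1 → g ^ m = 1 := by
  have hp : p.Prime := Fact.out
  rcases Nat.eq_zero_or_pos n with rfl | hn
  · exact ⟨1, one_pos, Nat.coprime_one_left p, fun g _ _ => Subsingleton.elim _ _⟩
  obtain ⟨a, m, hm, he⟩ := Nat.exists_eq_pow_mul_and_not_dvd hn.ne' p hp.ne_one
  have hm0 : 0 < m := Nat.pos_of_ne_zero (by rintro rfl; exact hm (dvd_zero _))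
  refine ⟨m, hm0, ((Nat.Prime.coprime_iff_not_dvd hp).2 hm).symm, fun g hg hdet => ?_⟩
  rw [Matrix.GeneralLinearGroup.center_eq_range_scalar] at hg
  obtain ⟨c, rfl⟩ := hg
  have h1 : (c : L) ^ n = 1 := by
    have e : ((Matrix.GeneralLinearGroup.scalar (Fin n) c : GL (Fin n) L) : Matrix (Fin n) (Fin n) L) = Matrix.scalar (Fin n) (c : L) := rfl
    rw [e, Matrix.scalar_apply, Matrix.det_diagonal, Finset.prod_const, Finset.card_univ, Fintype.card_fin] at hdet
    exact hdet
  have h2 : (c : L) ^ m = 1 := by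
    rw [he, mul_comm, pow_mul] at h1
    have h3 : ((c : L) ^ m - 1) ^ p ^ a = 0 := by
      rw [sub_pow_char_pow, h1, one_pow, sub_self]
    exact sub_eq_zero.1 (pow_eq_zero_iff (pow_pos hp.pos a).ne' |>.1 h3)
  rw [← map_pow]
  have : c ^ m = 1 := Units.ext (by rw [Units.val_pow_eq_pow_val, h2]; rfl)
  rw [this, map_one]

theorem s2399 {K : Type*} [Field K] {D : ChevalleyDatum} (hD : D ∈ L7) (hK : D ∈ [Cfsg.Lie.chevB2, Cfsg.Lie.chevG2] → ∃ x : K, x ≠ 0 ∧ x ≠ 1)
    (θ : D.SteinbergCover K →* ↥(D.group K))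
    (hθ : ∀ (r : ℕ) (t : K), r < D.nroots → ((θ (D.scGen K r t) : GL D.Idx K) : Matrix D.Idx D.Idx K) = D.x K r t)
    {L : Type*} [Field L] (hL : ringChar L = ringChar K) {n : ℕ}
    (φ : ↥(D.group K) →* GL (Fin n) L ⧸ Subgroup.center (GL (Fin n) L)) :
    ∃! ψ : D.SteinbergCover K →* GL (Fin n) L, (QuotientGroup.mk' (Subgroup.center (GL (Fin n) L))).comp ψ = φ.comp θ := by
  have hπ1 : CE (QuotientGroup.mk' (Subgroup.center (GL (Fin n) L))) :=
    ⟨QuotientGroup.mk'_surjective _, by rw [QuotientGroup.ker_mk']⟩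
  have hP := s2395 (K := K) D hD hK
  by_cases hbig : ∃ s : Finset K, 4 < s.card
  · exact s2398 hbig hD _ hπ1.surj hπ1.central (φ.comp θ)
  -- finite field
  have hfin : Finite K := by
    by_contra hinf
    rw [not_finite_iff_infinite] at hinf
    obtain ⟨s, hs⟩ := Infinite.exists_subset_card_eq K 5
    exact hbig ⟨s, by omega⟩
  have huniq : ∀ ψ ψ' : D.SteinbergCover K →* GL (Fin n) L,
      (QuotientGroup.mk' (Subgroup.center (GL (Fin n) L))).comp ψ = φ.comp θ →
      (QuotientGroup.mk' (Subgroup.center (GL (Fin n) L))).comp ψ' = φ.comp θ → ψ = ψ' := by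
    intro ψ ψ' h1 h2
    apply hom_eq_of_central hP
    intro q
    apply hπ1.central
    rw [MonoidHom.mem_ker, map_mul, map_inv, ← MonoidHom.comp_apply, ← MonoidHom.comp_apply, h1, h2, mul_inv_cancel]
  set p := ringChar K with hpdef
  haveI hcK : CharP K p := ringChar.charP K
  have hp : p.Prime := by
    rcases CharP.char_is_prime_or_zero K p with h | h
    · exact h
    · exfalso
      rw [h] at hcK
      haveI := CharP.charP_to_charZero K
      exact not_finite K
  haveI : Fact p.Prime := ⟨hp⟩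
  haveI : CharP L p := by rw [← hL]; exact ringChar.charP L
  -- the pullback
  let π₁ := QuotientGroup.mk' (Subgroup.center (GL (Fin n) L))
  let E' := pb π₁ φ
  have hce := ce_pb π₁ φ hπ1
  let P' := commutator ↥E'
  have A := LiftGrp.ab hD (x := fun r t => θ (D.scGen K r t)) (fun r hr t => hθ r t hr)
  have hgen := LiftGrp.x_closure hD (x := fun r t => θ (D.scGen K r t)) (fun r hr t => hθ r t hr)
  have hGp := perfect_of_fam hD hP A hgen
  let ρ : ↥P' →* ↥(D.group K) := ((MonoidHom.snd (GL (Fin n) L) _).comp E'.subtype).comp P'.subtype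
  have hsurj : Function.Surjective ρ := by
    intro g
    have h1 : Subgroup.map ((MonoidHom.snd (GL (Fin n) L) _).comp E'.subtype) (commutator ↥E') = commutator ↥(D.group K) := by
      rw [commutator_def, Subgroup.map_commutator, ← MonoidHom.range_eq_map, MonoidHom.range_eq_top.2 hce.surj, commutator_def]
    rw [hGp] at h1
    have hg : g ∈ Subgroup.map ((MonoidHom.snd (GL (Fin n) L) _).comp E'.subtype) (commutator ↥E') := by
      rw [h1]; exact Subgroup.mem_top _
    obtain ⟨e, he, rfl⟩ := hg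
    exact ⟨⟨e, he⟩, rfl⟩
  have hce' : CE ρ := by
    refine ⟨hsurj, ?_⟩
    intro e he
    rw [Subgroup.mem_center_iff]
    intro g
    have h1 : (e : ↥E') ∈ Subgroup.center ↥E' := hce.central he
    exact Subtype.ext (Subgroup.mem_center_iff.1 h1 g)
  obtain ⟨m, hm0, hmp, hm⟩ := scalar_pow (L := L) (p := p) n
  -- determinants of elements of P'
  have hdet : ∀ e : ↥P', (((e : ↥E') : GL (Fin n) L × ↥(D.group K)).1 : Matrix (Fin n) (Fin n) L).det = 1 := by
    intro e
    let δ : ↥E' →* Lˣ := (Matrix.GeneralLinearGroup.det.comp (MonoidHom.fst (GL (Fin n) L) _)).comp E'.subtype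
    have h1 : commutator ↥E' ≤ δ.ker := Abelianization.commutator_subset_ker δ
    have h2 := h1 e.2
    rw [MonoidHom.mem_ker] at h2
    exact congrArg Units.val h2
  have hker : ∀ e ∈ ρ.ker, ∃ g : GL (Fin n) L, g ∈ Subgroup.center (GL (Fin n) L) ∧
      ((e : ↥E') : GL (Fin n) L × ↥(D.group K)) = (g, 1) := by
    intro e he
    have h2 : ((e : ↥E') : GL (Fin n) L × ↥(D.group K)).2 = 1 := he
    have h1 : π₁ ((e : ↥E') : GL (Fin n) L × ↥(D.group K)).1 = φ ((e : ↥E') : GL (Fin n) L × ↥(D.group K)).2 := (e : ↥E').2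
    rw [h2, map_one] at h1
    exact ⟨_, hπ1.central h1, Prod.ext rfl h2⟩
  have hkm : ∀ e ∈ ρ.ker, e ^ m = 1 := by
    intro e he
    obtain ⟨g, hg, e1⟩ := hker e he
    have h1 := hdet e
    rw [e1] at h1
    apply Subtype.ext; apply Subtype.ext
    rw [Subgroup.coe_pow, Subgroup.coe_pow, e1]
    exact Prod.ext (hm g hg h1) (one_pow m)
  have hkf : Finite ρ.ker := by
    haveI : NeZero m := ⟨hm0.ne'⟩
    -- inject into the roots of unity
    rcases Nat.eq_zero_or_pos n with h0 | hn
    · subst h0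
      have : Subsingleton ρ.ker := by
        refine ⟨fun a b => ?_⟩
        apply Subtype.ext; apply Subtype.ext; apply Subtype.ext
        obtain ⟨g, hg, e1⟩ := hker a.1 a.2
        obtain ⟨g', hg', e1'⟩ := hker b.1 b.2
        rw [e1, e1', Subsingleton.elim g g']
      infer_instance
    · have i0 : Fin n := ⟨0, hn⟩
      let f : ρ.ker → {c : L // c ^ m = 1} := fun a => ⟨(((a : ↥P') : ↥E') : GL (Fin n) L × ↥(D.group K)).1 i0 i0, by
        obtain ⟨g, hg, e1⟩ := hker a.1 a.2
        have h1 := hkm a.1 a.2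
        have h2 : g ^ m = 1 := by
          have := congrArg (fun e : ↥P' => ((e : ↥E') : GL (Fin n) L × ↥(D.group K)).1) h1
          simp only [Subgroup.coe_pow, Prod.pow_fst, Subgroup.coe_one, Prod.fst_one] at this
          rwa [e1] at this
        rw [e1]
        rw [Matrix.GeneralLinearGroup.center_eq_range_scalar] at hg
        obtain ⟨c, rfl⟩ := hg
        rw [← map_pow] at h2
        have e3 : ∀ c : Lˣ, (Matrix.GeneralLinearGroup.scalar (Fin n) c : GL (Fin n) L) i0 i0 = c := by
          intro c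
          show (Matrix.scalar (Fin n) (c : L)) i0 i0 = c
          rw [Matrix.scalar_apply, Matrix.diagonal_apply_eq]
        have h3 := e3 (c ^ m)
        rw [h2] at h3
        show ((Matrix.GeneralLinearGroup.scalar (Fin n) c : GL (Fin n) L) i0 i0) ^ m = 1
        rw [e3, ← Units.val_pow_eq_pow_val, ← h3]
        show (1 : Matrix (Fin n) (Fin n) L) i0 i0 = 1
        rw [Matrix.one_apply_eq]⟩
      have hf : Function.Injective f := by
        intro a b hab
        obtain ⟨g, hg, e1⟩ := hker a.1 a.2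
        obtain ⟨g', hg', e1'⟩ := hker b.1 b.2
        have h1 := congrArg Subtype.val hab
        simp only [f] at h1
        rw [e1, e1'] at h1
        rw [Matrix.GeneralLinearGroup.center_eq_range_scalar] at hg hg'
        obtain ⟨c, rfl⟩ := hg
        obtain ⟨c', rfl⟩ := hg'
        have e3 : ∀ c : Lˣ, (Matrix.GeneralLinearGroup.scalar (Fin n) c : GL (Fin n) L) i0 i0 = c := by
          intro c
          show (Matrix.scalar (Fin n) (c : L)) i0 i0 = c
          rw [Matrix.scalar_apply, Matrix.diagonal_apply_eq]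
        have h2 : (c : L) = c' := by rw [← e3 c, ← e3 c']; exact h1
        have h3 : c = c' := Units.ext h2
        apply Subtype.ext; apply Subtype.ext; apply Subtype.ext
        rw [e1, e1', h3]
      have : Finite {c : L // c ^ m = 1} := by
        classical
        have hs : Set.Finite {c : L | c ^ m = 1} := by
          have : {c : L | c ^ m = 1} ⊆ ((Polynomial.nthRoots m (1 : L)).toFinset : Set L) := by
            intro c hc
            rw [Finset.mem_coe, Multiset.mem_toFinset, Polynomial.mem_nthRoots hm0]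
            exact hc
          exact Set.Finite.subset (Finset.finite_toSet _) this
        exact hs.to_subtype
      exact Finite.of_injective f hf
  have hPf : Finite ↥P' := by
    have : Finite (↥P' ⧸ ρ.ker) := by
      have e := (QuotientGroup.quotientKerEquivRange ρ).toEquiv
      exact Finite.of_equiv _ e.symm
    exact Finite.of_subgroup_quotient ρ.ker
  have hcop : (Nat.card ρ.ker).Coprime p := by
    rw [Nat.coprime_comm, Nat.Prime.coprime_iff_not_dvd hp]
    intro hdvd
    obtain ⟨z, hz⟩ := exists_prime_orderOf_dvd_card' p hdvd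
    have h1 : z ^ m = 1 := Subtype.ext (hkm z.1 z.2)
    have h2 := orderOf_dvd_of_pow_eq_one h1
    rw [hz] at h2
    have h3 := Nat.dvd_gcd h2 (dvd_refl p)
    rw [hmp.gcd_eq_one] at h3
    exact hp.one_lt.ne' (Nat.dvd_one.1 h3)
  obtain ⟨y, Ay, hy⟩ := lift_pp hD (x := fun r t => θ (D.scGen K r t)) (fun r hr t => hθ r t hr) hce' hcop
  obtain ⟨ψ, hψ⟩ := exists_lift (((Ay.map P'.subtype).map E'.subtype).map (MonoidHom.fst _ _)) (ct_lt hD)
  have hψ1 : π₁.comp ψ = φ.comp θ := by
    apply hom_ext
    intro r hr t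
    rw [MonoidHom.comp_apply, hψ r hr]
    have h1 : π₁ (((y r t : ↥P') : ↥E') : GL (Fin n) L × ↥(D.group K)).1 = φ (((y r t : ↥P') : ↥E') : GL (Fin n) L × ↥(D.group K)).2 :=
      (((y r t : ↥P') : ↥E')).2
    have h2 : (((y r t : ↥P') : ↥E') : GL (Fin n) L × ↥(D.group K)).2 = θ (D.scGen K r t) := hy r hr t
    rw [h2] at h1
    exact h1
  exact ⟨ψ, hψ1, fun ψ' hψ' => huniq ψ' ψ hψ' hψ1⟩

end H23.ProjLift
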