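/-
H23: stem extensions of the small Ree groups: the 3-part.
-/
import Cfsg.Agent.Lib.H23.DegC
import Cfsg.Agent.Lib.H24.ReeTor8
import Cfsg.Agent.Lib.H24.ReeCnt2
import Cfsg.Agent.Lib.H24.ReeGen
set_option autoImplicit false
set_option linter.unusedVariables false
set_option linter.unusedSectionVars false

namespace H23.ReeMult

open scoped commutatorElement MatrixGroups
open Cfsg.Lie H24.ReeGrp H24.ReeStr H24.ReeUni H24.ReeSyl H24.ReePts H24.ReeAct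
open H23.Lift H23.Deg H23.WSplit

variable {K : Type*} [Field K] {e : ℕ} [RF K e] [Finite K]

theorem uG_zero : (uG 0 0 0 : G1 K e) = 1 := by
  have := uG_mul (K := K) (e := e) 0 0 0 0 0 0
  simp only [map_zero, mul_zero, zero_mul, add_zero, sub_zero] at this
  exact mul_eq_left.1 this

theorem comm_of {G : Type*} [Group G] {a b r : G} (h : a * b = r * (b * a)) : ⁅a, b⁆ = r := by
  rw [commutatorElement_def, h]; group

/-- the subgroup of elements `(0, u, v)` -/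
def B1 (K : Type*) [Field K] (e : ℕ) [RF K e] [Finite K] : Subgroup (G1 K e) where
  carrier := {g | ∃ u v : K, g = uG 0 u v}
  one_mem' := ⟨0, 0, uG_zero.symm⟩
  mul_mem' := by
    rintro _ _ ⟨u, v, rfl⟩ ⟨u', v', rfl⟩
    exact ⟨u + u', v + v', by rw [uG_mul]; simp⟩
  inv_mem' := by
    rintro _ ⟨u, v, rfl⟩
    refine ⟨-u, -v, ?_⟩
    rw [inv_eq_iff_mul_eq_one, uG_mul]
    simp only [map_zero, mul_zero, zero_mul, add_zero, sub_zero, add_neg_cancel]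
    exact uG_zero

/-- the subgroup of elements `(0, u, 0)` -/
def D1 (K : Type*) [Field K] (e : ℕ) [RF K e] [Finite K] : Subgroup (G1 K e) where
  carrier := {g | ∃ u : K, g = uG 0 u 0}
  one_mem' := ⟨0, uG_zero.symm⟩
  mul_mem' := by
    rintro _ _ ⟨u, rfl⟩ ⟨u', rfl⟩
    exact ⟨u + u', by rw [uG_mul]; simp⟩
  inv_mem' := by
    rintro _ ⟨u, rfl⟩
    refine ⟨-u, ?_⟩
    rw [inv_eq_iff_mul_eq_one, uG_mul]
    simp only [map_zero, mul_zero, zero_mul, add_zero, sub_zero, add_neg_cancel]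
    exact uG_zero

/-- the centre of the Sylow subgroup -/
def C1 (K : Type*) [Field K] (e : ℕ) [RF K e] [Finite K] : Subgroup (G1 K e) where
  carrier := {g | ∃ v : K, g = uG 0 0 v}
  one_mem' := ⟨0, uG_zero.symm⟩
  mul_mem' := by
    rintro _ _ ⟨u, rfl⟩ ⟨u', rfl⟩
    exact ⟨u + u', by rw [uG_mul]; simp⟩
  inv_mem' := by
    rintro _ ⟨u, rfl⟩
    refine ⟨-u, ?_⟩
    rw [inv_eq_iff_mul_eq_one, uG_mul]
    simp only [map_zero, mul_zero, zero_mul, add_zero, sub_zero, add_neg_cancel]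
    exact uG_zero

theorem mem_B1 {g : G1 K e} : g ∈ B1 K e ↔ ∃ u v : K, g = uG 0 u v := Iff.rfl
theorem mem_D1 {g : G1 K e} : g ∈ D1 K e ↔ ∃ u : K, g = uG 0 u 0 := Iff.rfl
theorem mem_C1 {g : G1 K e} : g ∈ C1 K e ↔ ∃ v : K, g = uG 0 0 v := Iff.rfl

theorem C1_le : C1 K e ≤ B1 K e := fun _ ⟨v, h⟩ => ⟨0, v, h⟩
theorem D1_le : D1 K e ≤ B1 K e := fun _ ⟨v, h⟩ => ⟨v, 0, h⟩
theorem B1_le : B1 K e ≤ U1 K e := by
  rintro _ ⟨u, v, rfl⟩; exact uG_mem _ _ _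

/-! ### commutators -/

theorem cen_C (t u v w : K) : Commute (uG t u v : G1 K e) (uG 0 0 w) := by
  show _ * _ = _ * _
  rw [uG_mul, uG_mul]
  simp [add_comm]

theorem comm_B (u v u' v' : K) : Commute (uG 0 u v : G1 K e) (uG 0 u' v') := by
  show _ * _ = _ * _
  rw [uG_mul, uG_mul]
  simp [add_comm]

theorem comm_XB (t u : K) : ⁅(uG t 0 0 : G1 K e), uG 0 u 0⁆ = uG 0 0 (t * u) := by
  apply comm_of
  rw [uG_mul, uG_mul, uG_mul]
  simp

/-- every element of the Sylow subgroup -/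
theorem split1 (t u v : K) : (uG t u v : G1 K e) = uG t 0 0 * uG 0 u v := by
  rw [uG_mul]; simp

theorem split2 (u v : K) : (uG 0 u v : G1 K e) = uG 0 u 0 * uG 0 0 v := by
  rw [uG_mul]; simp

theorem X_add (s t : K) : ∃ r ∈ B1 K e, (uG (s + t) 0 0 : G1 K e) = uG s 0 0 * uG t 0 0 * r := by
  obtain ⟨u, v, h1⟩ : ∃ u v, (uG s 0 0 * uG t 0 0 : G1 K e) = uG (s + t) u v := ⟨_, _, uG_mul _ _ _ _ _ _⟩
  rw [split1 (s + t)] at h1
  refine ⟨(uG 0 u v)⁻¹, (B1 K e).inv_mem ⟨u, v, rfl⟩, ?_⟩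
  rw [h1, mul_assoc, mul_inv_cancel, mul_one]

theorem comm_U {a b : G1 K e} (ha : a ∈ U1 K e) (hb : b ∈ U1 K e) : ⁅a, b⁆ ∈ B1 K e := by
  have hc : ∀ g ∈ U1 K e, ∀ k ∈ U1 K e, g * k * (k * g)⁻¹ ∈ B1 K e := by
    intro g hg k hk
    obtain ⟨t, u, v, rfl⟩ := mem_U1_iff.1 hg
    obtain ⟨t', u', v', rfl⟩ := mem_U1_iff.1 hk
    obtain ⟨a, b, c, h1⟩ := mem_U1_iff.1 ((U1 K e).mul_mem ((U1 K e).mul_mem hg hk) ((U1 K e).inv_mem ((U1 K e).mul_mem hk hg)))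
    rw [h1]
    have h2 : (uG t u v : G1 K e) * uG t' u' v' = uG a b c * (uG t' u' v' * uG t u v) := by rw [← h1]; group
    rw [uG_mul, uG_mul, uG_mul] at h2
    have h3 := (uG_inj h2).1
    have : a = 0 := by
      have : a + (t' + t) = 0 + (t + t') := by rw [← h3]; ring
      rw [add_comm t t'] at this
      exact add_right_cancel this
    rw [this]
    exact ⟨b, c, rfl⟩
  have := hc a ha b hb
  rw [mul_inv_rev] at this
  rw [commutatorElement_def]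
  have e1 : a * b * (a⁻¹ * b⁻¹) = a * b * a⁻¹ * b⁻¹ := by group
  rwa [e1] at this

theorem comm_UB {a b : G1 K e} (ha : a ∈ U1 K e) (hb : b ∈ B1 K e) : ⁅a, b⁆ ∈ C1 K e := by
  obtain ⟨t, u, v, rfl⟩ := mem_U1_iff.1 ha
  obtain ⟨u', v', rfl⟩ := hb
  refine ⟨t * u', comm_of ?_⟩
  rw [uG_mul, uG_mul, uG_mul]
  simp only [map_zero, mul_zero, zero_mul, add_zero, sub_zero, zero_add]
  congr 1 <;> ring

/-! ### the torus -/

theorem exists_tau {c : K} (hc : c ≠ 0) : ∃ l : Kˣ, ∀ t u v : K, (hT l * uG t u v * (hT l)⁻¹ : G1 K e) =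
    uG (c * t) (c * ph K e c * u) (c * c * ph K e c * v) := by
  obtain ⟨l, hl⟩ := H24.ReeGen.exists_weight (e := e) hc
  refine ⟨l, fun t u v => ?_⟩
  have h0 : (l : K) ≠ 0 := l.ne_zero
  have h1 : ph K e (l : K) ≠ 0 := by simp
  have h2 : ph K e c = (l : K) ^ 6 / ph K e l ^ 3 := by
    rw [← hl, map_div₀, map_pow, map_pow, ph_ph]
    congr 1; ring
  rw [hT_conj, hl]
  congr 1
  · rw [h2, ← hl]; field_simp
  · rw [h2, ← hl]; field_simp

theorem exists_tauC {c : K} (hc : c ≠ 0) : ∃ l : Kˣ, ∀ v : K, (hT l * uG 0 0 v * (hT l)⁻¹ : G1 K e) = uG 0 0 (c * v) := by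
  refine ⟨Units.mk0 (th K e c) (by simpa using hc), fun v => ?_⟩
  rw [hT_conj, Units.val_mk0, ph_th]
  simp

section
variable {E : Type*} [Group E] {π : E →* G1 K e} (h : CE π)

theorem cCC {a b : G1 K e} (ha : a ∈ C1 K e) (hb : b ∈ C1 K e) : h.c a b = 1 := by
  obtain ⟨v, rfl⟩ := ha
  obtain ⟨w, rfl⟩ := hb
  exact FormZ.c_alt h (x := fun v : K => (uG 0 0 v : G1 K e)) (fun s t => by rw [uG_mul]; simp)
    (fun c hc => by
      obtain ⟨l, hl⟩ := exists_tauC (e := e) hc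
      exact ⟨hT l, hl⟩) (Or.inl (H24.ReeFour.two_ne' (e := e))) v w

theorem degP1 : Deg 1 (fun c : K => c) := deg_id
theorem degP2 : Deg 2 (fun c : K => c * ph K e c) := deg_mul deg_id (deg_ringHom (ph K e))
theorem degP3 : Deg 3 (fun c : K => c * c * ph K e c) := deg_mul (deg_mul deg_id deg_id) (deg_ringHom (ph K e))

theorem B_add (s t : K) : (uG 0 (s + t) 0 : G1 K e) = uG 0 s 0 * uG 0 t 0 := by rw [uG_mul]; simp
theorem C_add (s t : K) : (uG 0 0 (s + t) : G1 K e) = uG 0 0 s * uG 0 0 t := by rw [uG_mul]; simp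

theorem tauB {c : K} (hc : c ≠ 0) : ∃ l : Kˣ, (∀ s, hT l * uG s 0 0 * (hT l)⁻¹ = (uG (c * s) 0 0 : G1 K e)) ∧
    (∀ s, hT l * uG 0 s 0 * (hT l)⁻¹ = (uG 0 (c * ph K e c * s) 0 : G1 K e)) ∧
    ∀ s, hT l * uG 0 0 s * (hT l)⁻¹ = (uG 0 0 (c * c * ph K e c * s) : G1 K e) := by
  obtain ⟨l, hl⟩ := exists_tau (e := e) hc
  exact ⟨l, fun s => by rw [hl]; simp, fun s => by rw [hl]; simp, fun s => by rw [hl]; simp⟩

variable (hW : Wide K 6)
include hW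

theorem cDD (s t : K) : h.c (uG 0 s 0) (uG 0 t 0) = 1 :=
  c_form_bot h (A := B1 K e) (B := B1 K e)
    (by
      rintro _ ⟨u, v, rfl⟩ _ ⟨u', v', rfl⟩
      exact commutatorElement_eq_one_iff_commute.2 (comm_B _ _ _ _))
    (x := fun s : K => (uG 0 s 0 : G1 K e)) (y := fun s : K => (uG 0 s 0 : G1 K e))
    (fun s => ⟨s, 0, rfl⟩) (fun s => ⟨s, 0, rfl⟩)
    (fun s t => ⟨1, one_mem _, by rw [B_add, mul_one], fun u => h.c_one_left _⟩)
    (fun s t => ⟨1, one_mem _, by rw [B_add, mul_one], fun u => h.c_one_right _⟩)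
    degP2 degP2 (by simp) (by simp) (by simp) (hW.mono (by norm_num))
    (fun c hc => by
      obtain ⟨l, h1, h2, h3⟩ := tauB (e := e) hc
      exact ⟨hT l, h2, h2⟩) s t

theorem cDC (s t : K) : h.c (uG 0 s 0) (uG 0 0 t) = 1 :=
  c_form_bot h (A := B1 K e) (B := B1 K e)
    (by
      rintro _ ⟨u, v, rfl⟩ _ ⟨u', v', rfl⟩
      exact commutatorElement_eq_one_iff_commute.2 (comm_B _ _ _ _))
    (x := fun s : K => (uG 0 s 0 : G1 K e)) (y := fun s : K => (uG 0 0 s : G1 K e))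
    (fun s => ⟨s, 0, rfl⟩) (fun s => ⟨0, s, rfl⟩)
    (fun s t => ⟨1, one_mem _, by rw [B_add, mul_one], fun u => h.c_one_left _⟩)
    (fun s t => ⟨1, one_mem _, by rw [C_add, mul_one], fun u => h.c_one_right _⟩)
    degP2 degP3 (by simp) (by simp) (by simp) (hW.mono (by norm_num))
    (fun c hc => by
      obtain ⟨l, h1, h2, h3⟩ := tauB (e := e) hc
      exact ⟨hT l, h2, h3⟩) s t

theorem cBB {a b : G1 K e} (ha : a ∈ B1 K e) (hb : b ∈ B1 K e) : h.c a b = 1 := by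
  obtain ⟨u, v, rfl⟩ := ha
  obtain ⟨u', v', rfl⟩ := hb
  have h1 : ∀ u u' v', h.c (uG 0 u 0 : G1 K e) (uG 0 u' v') = 1 := by
    intro u u' v'
    rw [split2 u' v', h.c_mul_right_of_comm (cen_C _ _ _ _), cDD h hW, cDC h hW, one_mul]
  have h2 : ∀ v u' v', h.c (uG 0 0 v : G1 K e) (uG 0 u' v') = 1 := by
    intro v u' v'
    rw [split2 u' v', h.c_mul_right_of_comm (cen_C _ _ _ _), h.c_comm_iff.1 (cDC h hW u' v), one_mul]
    exact cCC h ⟨_, rfl⟩ ⟨_, rfl⟩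
  rw [split2 u v, h.c_mul_left_of_comm ((cen_C _ _ _ _).symm), h1, h2, one_mul]

theorem cXC (s t : K) : h.c (uG s 0 0) (uG 0 0 t) = 1 :=
  c_form_bot h (A := U1 K e) (B := C1 K e)
    (by
      rintro a ha _ ⟨w, rfl⟩
      obtain ⟨t, u, v, rfl⟩ := mem_U1_iff.1 ha
      exact commutatorElement_eq_one_iff_commute.2 (cen_C _ _ _ _))
    (x := fun s : K => (uG s 0 0 : G1 K e)) (y := fun s : K => (uG 0 0 s : G1 K e))
    (fun s => uG_mem _ _ _) (fun s => ⟨s, rfl⟩)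
    (fun s t => by
      obtain ⟨r, hr, e1⟩ := X_add (e := e) s t
      exact ⟨r, B1_le hr, e1, fun u => cBB h hW hr (C1_le ⟨u, rfl⟩)⟩)
    (fun s t => ⟨1, one_mem _, by rw [C_add, mul_one], fun u => h.c_one_right _⟩)
    degP1 degP3 (by simp) (by simp) (by simp) (hW.mono (by norm_num))
    (fun c hc => by
      obtain ⟨l, h1, h2, h3⟩ := tauB (e := e) hc
      exact ⟨hT l, h1, h3⟩) s t

theorem cUC {a b : G1 K e} (ha : a ∈ U1 K e) (hb : b ∈ C1 K e) : h.c a b = 1 := by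
  obtain ⟨t, u, v, rfl⟩ := mem_U1_iff.1 ha
  obtain ⟨w, rfl⟩ := hb
  rw [split1 t u v, h.c_mul_left_of_comm (cen_C _ _ _ _), cXC h hW, cBB h hW ⟨u, v, rfl⟩ (C1_le ⟨w, rfl⟩), one_mul]

omit hW in
/-- a torus element without fixed points -/
theorem exists_fpf (hK2 : ∃ l : Kˣ, l ^ 2 ≠ 1) : ∃ l : Kˣ, (∀ g ∈ B1 K e, hT l * g * (hT l)⁻¹ = g → g = 1) := by
  obtain ⟨l, hl⟩ := hK2
  refine ⟨l, ?_⟩
  rintro _ ⟨u, v, rfl⟩ h1
  rw [hT_conj] at h1
  obtain ⟨-, h2, h3⟩ := uG_inj h1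
  have h4 : (hT l : G1 K e) • (some (0, u, v) : Pt K) = some (0, u, v) := by
    rw [(hT_smul l 0 u v).1, h2, h3, mul_zero]
  obtain ⟨-, h5, h6⟩ := hT_fix_some h4
  have hl1 : l ≠ 1 := fun h => hl (by rw [h, one_pow])
  have hl2 : l ≠ -1 := fun h => hl (by rw [h]; simp)
  have hu : u = 0 := by rcases h5 with h | h | h; exacts [h, absurd h hl1, absurd h hl2]
  have hv : v = 0 := by rcases h6 with h | h; exacts [h, absurd h hl1]
  rw [hu, hv, uG_zero]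

omit hW in
theorem torB (l : Kˣ) : ∀ g ∈ B1 K e, hT l * g * (hT l)⁻¹ ∈ B1 K e := by
  rintro _ ⟨u, v, rfl⟩
  rw [hT_conj, mul_zero]; exact ⟨_, _, rfl⟩

omit hW in
theorem torC (l : Kˣ) : ∀ g ∈ C1 K e, hT l * g * (hT l)⁻¹ ∈ C1 K e := by
  rintro _ ⟨v, rfl⟩
  rw [hT_conj, mul_zero, mul_zero]; exact ⟨_, rfl⟩

omit hW in
theorem tor_comm (l l' : Kˣ) : (hT l * hT l' * (hT l)⁻¹ : G1 K e) = hT l' := by
  rw [← hT_mul, mul_comm l l', hT_mul, mul_inv_cancel_right]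

theorem main3 (hK2 : ∃ l : Kˣ, l ^ 2 ≠ 1) : ∃ J : Subgroup E, (∀ g ∈ U1 K e, ∀ k ∈ U1 K e, h.c g k ∈ J) ∧ ∀ x ∈ J, π x = 1 → x = 1 := by
  obtain ⟨l, hl⟩ := exists_fpf (e := e) hK2
  have hBB : ∀ a ∈ B1 K e, ∀ b ∈ B1 K e, h.c a b = 1 := fun a ha b hb => cBB h hW ha hb
  have hCC : ∀ a ∈ C1 K e, ∀ b ∈ C1 K e, h.c a b = 1 := fun a ha b hb => cBB h hW (C1_le ha) (C1_le hb)
  have hlC : ∀ g ∈ C1 K e, hT l * g * (hT l)⁻¹ = g → g = 1 := fun g hg => hl g (C1_le hg)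
  set J1 := cl h (hT l) (C1 K e) with hJ1
  set J2 := cl h (hT l) (B1 K e) with hJ2
  have hle : J1 ≤ J2 := by
    intro x hx
    obtain ⟨a, ha, rfl⟩ := (mem_cl h hCC (torC l)).1 hx
    exact (mem_cl h hBB (torB l)).2 ⟨a, C1_le ha, rfl⟩
  have map1 : J1.map π = C1 K e := cl_map h hCC (torC l) hlC
  have map2 : J2.map π = B1 K e := cl_map h hBB (torB l) hl
  have ker1 : ∀ x ∈ J1, π x = 1 → x = 1 := fun x hx hk => cl_ker h hCC (torC l) hlC hx hk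
  have ker2 : ∀ x ∈ J2, π x = 1 → x = 1 := fun x hx hk => cl_ker h hBB (torB l) hl hx hk
  have n1 : ∀ g ∈ U1 K e, Nrm h g J1 := by
    intro g hg x hx
    have : π x ∈ C1 K e := by rw [← map1]; exact ⟨x, hx, rfl⟩
    rw [h.act_of_c (cUC h hW hg this)]; exact hx
  have t1 : ∀ l', Nrm h (hT l') J1 := fun l' => cl_nrm h hCC (torC l) (tor_comm _ _) (torC l')
  have t2 : ∀ l', Nrm h (hT l') J2 := fun l' => cl_nrm h hBB (torB l) (tor_comm _ _) (torB l')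
  have cXB : ∀ s t, h.c (uG s 0 0 : G1 K e) (uG 0 t 0) ∈ J1 := by
    intro s t
    exact c_form h (J := J1) (A := U1 K e) (B := B1 K e) n1 (fun b hb => n1 b (B1_le hb))
      (fun a ha b hb => by rw [map1]; exact comm_UB ha hb) ker1
      (x := fun s : K => (uG s 0 0 : G1 K e)) (y := fun s : K => (uG 0 s 0 : G1 K e))
      (fun s => uG_mem _ _ _) (fun s => ⟨s, 0, rfl⟩)
      (fun s t => by
        obtain ⟨r, hr, e1⟩ := X_add (e := e) s t
        exact ⟨r, B1_le hr, e1, fun u => by rw [cBB h hW hr (D1_le ⟨u, rfl⟩)]; exact one_mem _⟩)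
      (fun s t => ⟨1, one_mem _, by rw [B_add, mul_one], fun u => by rw [h.c_one_right]; exact one_mem _⟩)
      degP1 degP2 (by simp) (by simp) (by simp) (hW.mono (by norm_num))
      (fun c hc => by
        obtain ⟨l', h1, h2, h3⟩ := tauB (e := e) hc
        exact ⟨hT l', t1 l', h1, h2⟩) s t
  have cUB : ∀ g ∈ U1 K e, ∀ b ∈ B1 K e, h.c g b ∈ J1 := by
    intro g hg b hb
    obtain ⟨t, u, v, rfl⟩ := mem_U1_iff.1 hg
    obtain ⟨u', v', rfl⟩ := hb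
    rw [split1 t u v, h.c_mul_left, cBB h hW ⟨u, v, rfl⟩ ⟨u', v', rfl⟩]
    have e1 : h.act (uG t 0 0 : G1 K e) 1 = 1 := by unfold CE.act; group
    rw [e1, one_mul, split2 u' v', h.c_mul_right_of_comm (cen_C _ _ _ _), cXC h hW, mul_one]
    exact cXB _ _
  have n2 : ∀ g ∈ U1 K e, Nrm h g J2 := by
    intro g hg x hx
    have : π x ∈ B1 K e := by rw [← map2]; exact ⟨x, hx, rfl⟩
    rw [h.act_eq_c]
    exact J2.mul_mem (hle (cUB g hg _ this)) hx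
  have cXX : ∀ s t, h.c (uG s 0 0 : G1 K e) (uG t 0 0) ∈ J2 := by
    intro s t
    exact c_form h (J := J2) (A := U1 K e) (B := U1 K e) n2 n2
      (fun a ha b hb => by rw [map2]; exact comm_U ha hb) ker2
      (x := fun s : K => (uG s 0 0 : G1 K e)) (y := fun s : K => (uG s 0 0 : G1 K e))
      (fun s => uG_mem _ _ _) (fun s => uG_mem _ _ _)
      (fun s t => by
        obtain ⟨r, hr, e1⟩ := X_add (e := e) s t
        exact ⟨r, B1_le hr, e1, fun u => c_mem_symm h (hle (cUB _ (uG_mem _ _ _) _ hr))⟩)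
      (fun s t => by
        obtain ⟨r, hr, e1⟩ := X_add (e := e) s t
        exact ⟨r, B1_le hr, e1, fun u => hle (cUB _ (uG_mem _ _ _) _ hr)⟩)
      degP1 degP1 (by simp) (by simp) (by simp) (hW.mono (by norm_num))
      (fun c hc => by
        obtain ⟨l', h1, h2, h3⟩ := tauB (e := e) hc
        exact ⟨hT l', t2 l', h1, h1⟩) s t
  refine ⟨J2, fun g hg k hk => ?_, ker2⟩
  have hXk : ∀ s, ∀ k ∈ U1 K e, h.c (uG s 0 0 : G1 K e) k ∈ J2 := by
    intro s k hk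
    obtain ⟨t, u, v, rfl⟩ := mem_U1_iff.1 hk
    rw [split1 t u v, h.c_mul_right]
    exact J2.mul_mem (cXX _ _) (n2 _ (uG_mem _ _ _) _ (hle (cUB _ (uG_mem _ _ _) _ ⟨u, v, rfl⟩)))
  obtain ⟨t, u, v, rfl⟩ := mem_U1_iff.1 hg
  rw [split1 t u v, h.c_mul_left]
  exact J2.mul_mem (n2 _ (uG_mem _ _ _) _ (c_mem_symm h (hle (cUB _ hk _ ⟨u, v, rfl⟩)))) (hXk t k hk)

end

end H23.ReeMult
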