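/-
H23: the Schur multiplier of the small Ree groups.
-/
import Cfsg.Agent.Lib.H23.ReeMult
import Cfsg.Agent.Lib.H40.StemFinish
import Cfsg.Agent.Lib.H40.SL2Nine
set_option autoImplicit false
set_option linter.unusedVariables false
set_option linter.unusedSectionVars false

namespace H23.ReeMult

open scoped commutatorElement MatrixGroups
open Cfsg.Lie H24.ReeGrp H24.ReeStr H24.ReeUni H24.ReeSyl H24.ReePts H24.ReeAct H24.ReeTor H24.ReeCen H24.ReeFour
open H23.Lift H23.Deg H23.WSplit

variable {K : Type*} [Field K] {e : ℕ} [RF K e] [Finite K]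

local notation "iv" => (H24.ReeCen.inv : G1 K e)

theorem wide6 {K : Type*} [Field K] {e : ℕ} [RF K e] [Finite K] {m : ℕ} (hm : 1 ≤ m) (hn : Nat.card K = 3 ^ (2 * m + 1)) : Wide K 6 := by
  have h := wide_of_card (K := K) Nat.prime_three (fun x => by
    rw [nsmul_eq_mul, Nat.cast_ofNat, three0 (K := K) (e := e), zero_mul]) (n := 3) (by
      rw [hn]; exact Nat.pow_le_pow_right (by norm_num) (by omega))
  exact h

section
variable {E : Type*} [Group E] {π : E →* G1 K e} (h : CE π)

/-- the preimage of an elementary abelian Sylow 2-subgroup is abelian -/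
theorem two_part {m : ℕ} (hm : 1 ≤ m) (hn : Nat.card K = 3 ^ (2 * m + 1)) {x y : G1 K e} (hx : x * x = 1) (hxy : Commute x y) :
    h.c x y = 1 := by
  by_cases hx1 : x = 1
  · rw [hx1, h.c_one_left]
  obtain ⟨g, hg⟩ := H24.ReeInvo.invo_conj hn hx hx1
  have key : ∀ z : G1 K e, Commute iv z → h.c iv z = 1 := by
    have hz : ∀ z : G1 K e, Commute iv z → h.c iv z ∈ Subgroup.center E := fun z hz => h.c_mem_center hz
    have hper : commutator SL(2, K) = ⊤ := by
      haveI : Fintype K := Fintype.ofFinite K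
      apply H40.SL2Nine.commutator_top
      rw [← Nat.card_eq_fintype_card, hn]
      calc 4 ≤ 3 ^ 3 := by norm_num
        _ ≤ 3 ^ (2 * m + 1) := Nat.pow_le_pow_right (by norm_num) (by omega)
    letI : CommGroup (Subgroup.center E) := { (inferInstance : Group (Subgroup.center E)) with
      mul_comm := fun a b => Subtype.ext (CE.zc a.2 b) }
    let f : SL(2, K) →* Subgroup.center E :=
      { toFun := fun M => ⟨h.c iv (rho M), hz _ (rho_comm M)⟩
        map_one' := Subtype.ext (by
          show h.c iv (rho 1) = 1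
          rw [map_one, h.c_one_right])
        map_mul' := fun M N => Subtype.ext (by
          show h.c iv (rho (M * N)) = h.c iv (rho M) * h.c iv (rho N)
          rw [map_mul, h.c_mul_right_of_comm (rho_comm N)]) }
    have hf : ∀ M, h.c iv (rho M) = 1 := by
      intro M
      have h1 : commutator SL(2, K) ≤ f.ker := Abelianization.commutator_subset_ker f
      have h2 : M ∈ f.ker := h1 (by rw [hper]; exact Subgroup.mem_top M)
      exact congrArg Subtype.val (MonoidHom.mem_ker.1 h2)
    intro z hz
    obtain ⟨M, rfl | rfl⟩ := cent hz.eq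
    · exact hf M
    · rw [h.c_mul_right_of_comm (rho_comm M), h.c_self, hf, one_mul]
  have h1 : h.act g (h.c x y) = 1 := by
    rw [h.act_c, hg]
    apply key
    show iv * (g * y * g⁻¹) = (g * y * g⁻¹) * iv
    rw [← hg]
    have := hxy.eq
    calc g * x * g⁻¹ * (g * y * g⁻¹) = g * (x * y) * g⁻¹ := by group
      _ = g * (y * x) * g⁻¹ := by rw [this]
      _ = _ := by group
  have h2 : h.c x y = h.act g⁻¹ (h.act g (h.c x y)) := by
    rw [h.act_act, inv_mul_cancel]
    have := h.act_eq 1 (h.c x y)
    rw [map_one] at this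
    rw [this]; group
  rw [h2, h1]; unfold CE.act; group

include h in
theorem coprime_all [Finite E] {m : ℕ} (hm : 1 ≤ m) (hn : Nat.card K = 3 ^ (2 * m + 1)) (hst : π.ker ≤ commutator E)
    {r : ℕ} (hr : r.Prime) : (Nat.card π.ker).Coprime r := by
  haveI : Fact r.Prime := ⟨hr⟩
  have hq : 1 < Nat.card K := Finite.one_lt_card
  have hG := card_G1' (K := K) (e := e)
  have h3K : 3 ∣ Nat.card K := three_dvd hn
  have hn27 : 27 ≤ Nat.card K := by
    rw [hn]
    calc 27 = 3 ^ 3 := by norm_num
      _ ≤ 3 ^ (2 * m + 1) := Nat.pow_le_pow_right (by norm_num) (by omega)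
  by_cases h2 : r = 2
  · subst h2
    obtain ⟨P, hP⟩ := H24.ReeFour.exists_P (K := K) (e := e) hn
    refine coprime_of_J h (U := E0 K e) (J := ⊥) ?_ (fun y hy _ => by rwa [Subgroup.mem_bot] at hy) hst hr ?_
    · intro x hx y hy
      rw [Subgroup.mem_bot]
      exact two_part h hm hn (sq_E0 hx) (comm_E0 hx hy)
    · rw [← hP]; exact P.not_dvd_index
  by_cases h3 : r = 3
  · subst h3
    obtain ⟨J, hJ, hJ1⟩ := main3 h (wide6 (e := e) hm hn) (exists_sq_ne (show 3 < Nat.card K by omega))
    refine coprime_of_J h (U := U1 K e) (J := J) hJ hJ1 hst hr ?_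
    rw [← H24.ReeSyl3.coe_syl3 hn]
    exact (H24.ReeSyl3.syl3 hn).not_dvd_index
  by_cases hrG : r ∣ Nat.card (G1 K e)
  · rw [hG] at hrG
    rcases (Nat.Prime.dvd_mul hr).1 hrG with h4 | h4
    · rcases (Nat.Prime.dvd_mul hr).1 h4 with h5 | h5
      · exfalso
        have h6 := hr.dvd_of_dvd_pow h5
        rw [hn] at h6
        exact h3 ((Nat.prime_dvd_prime_iff_eq hr Nat.prime_three).1 (hr.dvd_of_dvd_pow h6))
      · -- q - 1
        refine coprime_of_cyclic h (U := T1 K e) cyclic_T1 hst hr ?_
        have h6 := Subgroup.card_mul_index (T1 K e)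
        rw [card_T1, hG] at h6
        have h7 : (T1 K e).index = Nat.card K ^ 3 * ((Nat.card K + 1) * MQ (Nat.card K)) := by
          apply Nat.eq_of_mul_eq_mul_left (show 0 < Nat.card K - 1 by omega)
          rw [h6]; ring
        rw [h7]
        intro h8
        have hr1 : ¬ r ∣ 1 := fun h => hr.one_lt.ne' (Nat.dvd_one.1 h)
        rcases (Nat.Prime.dvd_mul hr).1 h8 with h9 | h9
        · have h10 := hr.dvd_of_dvd_pow h9
          apply hr1
          have := Nat.dvd_sub h10 h5
          rwa [show Nat.card K - (Nat.card K - 1) = 1 by omega] at this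
        · rcases (Nat.Prime.dvd_mul hr).1 h9 with h10 | h10
          · have := Nat.dvd_sub h10 h5
            rw [show Nat.card K + 1 - (Nat.card K - 1) = 2 by omega] at this
            exact h2 ((Nat.prime_dvd_prime_iff_eq hr Nat.prime_two).1 this)
          · -- q^2 - q + 1 = (q-1) q + 1
            apply hr1
            have e1 : MQ (Nat.card K) = (Nat.card K - 1) * Nat.card K + 1 := by
              have := MQ_add (Nat.card K)
              have h11 : (Nat.card K - 1) * Nat.card K + Nat.card K = Nat.card K ^ 2 := by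
                obtain ⟨k, hk⟩ : ∃ k, Nat.card K = k + 1 := ⟨Nat.card K - 1, by omega⟩
                rw [hk, Nat.add_sub_cancel]; ring
              omega
            rw [e1] at h10
            exact (Nat.dvd_add_right (Dvd.dvd.mul_right h5 _)).1 h10
    · rcases (Nat.Prime.dvd_mul hr).1 h4 with h5 | h5
      · obtain ⟨c, b, hNS⟩ := exists_NS (K := K) (e := e)
        exact coprime_of_cyclic h (U := AA K e c) (by unfold AA; infer_instance) hst hr
          (H24.ReeCnt.index_AA hn hNS hr h2 h5)
      · obtain ⟨P⟩ : Nonempty (Sylow r (G1 K e)) := inferInstance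
        exact coprime_of_cyclic h (U := (P : Subgroup (G1 K e))) (sylow_cyclic_M hn h5 P) hst hr P.not_dvd_index
  · refine coprime_of_cyclic h (U := ⊥) inferInstance hst hr ?_
    rwa [Subgroup.index_bot]

end

theorem main {m : ℕ} (hm : 1 ≤ m) (hn : Nat.card K = 3 ^ (2 * m + 1)) :
    Cfsg.HasCyclicSchurMultiplier (G1 K e) 1 := by
  refine H40.StemFinish.hasCyclic_one_of_ker fun Γ _ _ σ hσ z hz => ?_
  by_contra hne
  have hord : orderOf (⟨z, hz⟩ : σ.ker) ≠ 1 := fun h => hne (congrArg Subtype.val (orderOf_eq_one_iff.1 h))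
  obtain ⟨r, hr, hrz⟩ := Nat.exists_prime_and_dvd hord
  have h1 := coprime_all (π := σ) ⟨hσ.1, hσ.2.1⟩ hm hn hσ.2.2 hr
  have h2 : r ∣ Nat.card σ.ker := hrz.trans (orderOf_dvd_natCard _)
  rw [Nat.coprime_comm, Nat.Prime.coprime_iff_not_dvd hr] at h1
  exact h1 h2

end H23.ReeMult
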