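/-
H23: the Steinberg groups of type E6, E7, B2, D4 have trivial multipliers.
-/
import Cfsg.Agent.Lib.H23.LiftB23b
import Cfsg.Agent.Lib.H23.F4Mult
set_option autoImplicit false
set_option linter.unusedVariables false

namespace H23.StMult

open H23.Lift H23.Cv H23.LiftT H23.LiftGrp H23.Lift34 H23.LiftApp H23.LiftTr H23.F4Mult H23.Mult
open Cfsg.Lie (ChevalleyDatum chevB2)

universe u

theorem three_el {K : Type*} [Field K] [Fintype K] (h : Fintype.card K = 3) : ∀ t : K, t = 0 ∨ t = 1 ∨ t = -1 := by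
  intro t
  by_cases h0 : t = 0
  · exact Or.inl h0
  · have h1 := FiniteField.pow_card_sub_one_eq_one t h0
    rw [h] at h1
    have h2 : (t - 1) * (t + 1) = 0 := by
      have : (t - 1) * (t + 1) = t ^ 2 - 1 := by ring
      rw [this, sub_eq_zero]; exact h1
    rcases mul_eq_zero.1 h2 with h3 | h3
    · exact Or.inr (Or.inl (sub_eq_zero.1 h3))
    · exact Or.inr (Or.inr (eq_neg_of_add_eq_zero_left h3))

theorem two_eq {K : Type*} [Field K] [Fintype K] (h : Fintype.card K = 4) : (2 : K) = 0 := by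
  have h1 : ((4 : ℕ) : K) = 0 := by rw [← h]; exact Nat.cast_card_eq_zero K
  have h2 : (2 : K) * 2 = 0 := by
    have : (2 : K) * 2 = ((4 : ℕ) : K) := by norm_num
    rw [this, h1]
  rcases mul_eq_zero.1 h2 with h3 | h3 <;> exact h3

/-- the lifting theorem for B2 -/
theorem lift_B2 {K : Type*} [Field K] [Fintype K] (hF : 3 ≤ Fintype.card K) {x : ℕ → K → ↥(chevB2.group K)}
    (hx : ∀ r < chevB2.nroots, ∀ t, ((x r t : GL chevB2.Idx K) : Matrix _ _ K) = chevB2.x K r t)
    {E : Type*} [Group E] {π : E →* ↥(chevB2.group K)} (h : CE π) :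
    ∃ y : ℕ → K → E, AB chevB2 y ∧ ∀ r < chevB2.nroots, ∀ t, π (y r t) = x r t := by
  have hD : chevB2 ∈ L7 := by simp
  by_cases h5 : 5 ≤ Fintype.card K
  · exact lift_big hD hx h ⟨Finset.univ, by rw [Finset.card_univ]; omega⟩
  · by_cases h4 : Fintype.card K = 4
    · obtain ⟨v, v0, v1, v3⟩ := cube h4
      exact H23.LiftB2.lift_B2_4 hD hx h (two_eq h4) v0 v1 v3
    · exact H23.LiftB23.lift_B2_3 (three_el (by omega)) (two_ne (by omega)) hD hx h

/-- the lifting theorem in the four types -/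
theorem lift_4t {D : ChevalleyDatum} {m : ℕ} (hD : (D, m) ∈ [(Cfsg.Lie.chevE6, 0), (Cfsg.Lie.chevE7, 0), (Cfsg.Lie.chevB2, 2), (Cfsg.Lie.chevD4, 2)])
    {K : Type*} [Field K] [Fintype K] (hK : Fintype.card K ≠ m) {x : ℕ → K → ↥(D.group K)}
    (hx : ∀ r < D.nroots, ∀ t, ((x r t : GL D.Idx K) : Matrix _ _ K) = D.x K r t)
    {E : Type*} [Group E] {π : E →* ↥(D.group K)} (h : CE π) :
    ∃ y : ℕ → K → E, AB D y ∧ ∀ r < D.nroots, ∀ t, π (y r t) = x r t := by
  have h2 : 1 < Fintype.card K := Fintype.one_lt_card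
  simp only [List.mem_cons, Prod.mk.injEq, List.not_mem_nil, or_false] at hD
  rcases hD with ⟨h0, h1⟩ | ⟨h0, h1⟩ | ⟨h0, h1⟩ | ⟨h0, h1⟩
  · subst h0
    have hD : Cfsg.Lie.chevE6 ∈ L7 := by simp
    exact H23.LiftE.lift_E h (by simp) (LiftGrp.ab hD hx) (inj_of_theta hD (MonoidHom.id _) (fun r t hr => hx r hr t))
  · subst h0
    have hD : Cfsg.Lie.chevE7 ∈ L7 := by simp
    exact H23.LiftE.lift_E h (by simp) (LiftGrp.ab hD hx) (inj_of_theta hD (MonoidHom.id _) (fun r t hr => hx r hr t))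
  · subst h0
    exact lift_B2 (by omega) hx h
  · subst h0
    exact lift_D4 (by omega) hx h

theorem st_gen {D : ChevalleyDatum} {K : Type*} [Field K] :
    Subgroup.closure {g : D.SteinbergGroup K | ∃ (r : ℕ) (t : K), r < D.nroots ∧ g = D.stGen K r t} = ⊤ := by
  rw [eq_top_iff, ← PresentedGroup.closure_range_of]
  apply Subgroup.closure_mono
  rintro _ ⟨a, rfl⟩
  refine ⟨a.1, a.2, a.1.2, ?_⟩
  unfold ChevalleyDatum.stGen ChevalleyDatum.stX
  rw [dif_pos a.1.2]; rfl

theorem s2400 {K : Type u} [Field K] [Fintype K] (e : Cfsg.Lie.ChevalleyDatum × ℕ)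
    (he : e ∈ [(Cfsg.Lie.chevE6, 0), (Cfsg.Lie.chevE7, 0), (Cfsg.Lie.chevB2, 2), (Cfsg.Lie.chevD4, 2)]) (hK : Fintype.card K ≠ e.2) :
    Cfsg.HasCyclicSchurMultiplier (e.1.SteinbergGroup K) 1 := by
  obtain ⟨D, m⟩ := e
  have hD : D ∈ L7 := by
    simp only [List.mem_cons, Prod.mk.injEq, List.not_mem_nil, or_false] at he ⊢
    tauto
  have h1 : 1 < Fintype.card K := Fintype.one_lt_card
  have hK2 : D ∈ [Cfsg.Lie.chevB2, Cfsg.Lie.chevG2] → ∃ x : K, x ≠ 0 ∧ x ≠ 1 := by
    intro hB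
    classical
    have h3 : 3 ≤ Fintype.card K := by
      simp only [List.mem_cons, Prod.mk.injEq, List.not_mem_nil, or_false] at he hB
      rcases hB with rfl | rfl
      · rcases he with ⟨h, -⟩ | ⟨h, -⟩ | ⟨-, rfl⟩ | ⟨h, -⟩
        · exact absurd (congrArg ChevalleyDatum.rank h) (by decide)
        · exact absurd (congrArg ChevalleyDatum.rank h) (by decide)
        · have : Fintype.card K ≠ 2 := hK
          omega
        · exact absurd (congrArg ChevalleyDatum.rank h) (by decide)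
      · rcases he with ⟨h, -⟩ | ⟨h, -⟩ | ⟨h, -⟩ | ⟨h, -⟩
        · exact absurd (congrArg ChevalleyDatum.rank h) (by decide)
        · exact absurd (congrArg ChevalleyDatum.rank h) (by decide)
        · exact absurd (congrArg ChevalleyDatum.nroots h) (by decide)
        · exact absurd (congrArg ChevalleyDatum.rank h) (by decide)
    have h4 : (({0, 1} : Finset K)).card < (Finset.univ : Finset K).card := by
      rw [Finset.card_univ]
      have := Finset.card_le_two (a := (0 : K)) (b := 1)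
      omega
    obtain ⟨v, -, hv⟩ := Finset.exists_mem_notMem_of_card_lt_card h4
    simp only [Finset.mem_insert, Finset.mem_singleton, not_or] at hv
    exact ⟨v, hv.1, hv.2⟩
  refine st_trivial hD hK2 ?_
  intro Γ _ σ hσ
  obtain ⟨θ, hs, hker, hθ⟩ := H22.St.s1077 (K := K) D hD
  exact transfer hD (s2395 D hD hK2) (st_ab hD) st_gen θ hs hker.le hσ
    (fun {π} hπ => lift_4t he hK (x := fun r t => θ (D.stGen K r t)) (fun r hr t => hθ r t hr) hπ)

end H23.StMult
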