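/-
H23: the Schur multiplier of Sz(8).
-/
import Cfsg.Agent.Lib.H23.Sz8Up
import Cfsg.Agent.Lib.H23.Cores
import Cfsg.Agent.Lib.H23.StemGen

set_option autoImplicit false
set_option linter.unusedVariables false

open Subgroup H40.Stem H40.StemFinish
open scoped commutatorElement

universe u v

namespace H23.Sz8

open H8.SuzOvoid H8.SuzField H8.SuzMat H8.SuzStab H8.SuzGroup H8.SuzSylow H8.SuzCent H40.SzMult H23.Cores Cfsg

section phi
variable {F : Type*} [Field F]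

/-- the cocycle -/
def Phi (a a' b' : F) : F := a * b' ^ 4 + a ^ 4 * b' ^ 2 + a ^ 5 * a' ^ 2 + a * a' ^ 6

theorem Phi_zero_left (a' b' : F) : Phi 0 a' b' = 0 := by unfold Phi; ring
theorem Phi_zero_right (a : F) : Phi a 0 0 = 0 := by unfold Phi; ring

theorem Phi_coc (h2 : (2 : F) = 0) (h8 : ∀ x : F, x ^ 8 = x) (a b a' b' a'' b'' : F) :
    Phi a a' b' + Phi (a + a') a'' b'' = Phi a' a'' b'' + Phi a (a' + a'') (b' + b'' + a' ^ 4 * a'') := by
  have h := h8 a'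
  unfold Phi
  linear_combination (-1*a^5*a'*a'' + -1*a^4*a'^4*b'*a'' + -1*a^4*a'^4*a''*b'' + 2*a^4*a'*a''^2 + -1*a^4*b'*b'' + 5*a^3*a'^2*a''^2 + 2*a^3*a'*b''^2 + 5*a^2*a'^3*a''^2 + 3*a^2*a'^2*b''^2 + -2*a*a'^12*b'*a''^3 + -2*a*a'^12*a''^3*b'' + -3*a*a'^8*b'^2*a''^2 + -6*a*a'^8*b'*a''^2*b'' + -3*a*a'^8*a''^2*b''^2 + -3*a*a'^5*a'' + -2*a*a'^4*b'^3*a'' + -6*a*a'^4*b'^2*a''*b'' + -6*a*a'^4*b'*a''*b''^2 + -5*a*a'^4*a''^2 + -2*a*a'^4*a''*b''^3 + -10*a*a'^3*a''^3 + 2*a*a'^3*b''^2 + -8*a*a'^2*a''^4 + -3*a*a'*a''^5 + -2*a*b'^3*b'' + -3*a*b'^2*b''^2 + -2*a*b'*b''^3) * h2 - a * a'' ^ 4 * (a' ^ 8 + a') * h - a ^ 4 * a'' ^ 2 * h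

theorem Phi_inv {k : F} (h7 : k ^ 7 = 1) (a a' b' : F) : Phi (k * a) (k * a') (k * k ^ 4 * b') = Phi a a' b' := by
  unfold Phi
  linear_combination (a * b' ^ 4 * (k ^ 14 + k ^ 7 + 1) + a ^ 4 * b' ^ 2 * (k ^ 7 + 1) + a ^ 5 * a' ^ 2 + a * a' ^ 6) * h7

end phi


section cov
variable {F : Type u} [Field F] [Fintype F] (hF : Fintype.card F = 2 ^ (2 * 1 + 1))

/-- the base point -/
def oo : suzukiOvoid F 1 := ⟨suzukiPointInfinity F, inf_mem 1⟩

theorem coe_smul (g : Sz F 1) (x : suzukiOvoid F 1) : ((g • x : suzukiOvoid F 1) : Projectivization F (Fin 4 → F)) = (g : SL F) • (x : Projectivization F (Fin 4 → F)) := rfl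

theorem pow8 (hF : Fintype.card F = 2 ^ (2 * 1 + 1)) (x : F) : x ^ 8 = x := by
  have := FiniteField.pow_card x
  rwa [hF] at this

theorem pow7 (hF : Fintype.card F = 2 ^ (2 * 1 + 1)) (k : Fˣ) : (k : F) ^ 7 = 1 := by
  have h := pow8 hF (k : F)
  have h1 : (k : F) ^ 7 * k = 1 * k := by rw [one_mul, ← pow_succ]; exact h
  exact mul_right_cancel₀ k.ne_zero h1

theorem th_eq (x : F) : th 1 x = x ^ 4 := by unfold th; norm_num

theorem stab_coord {g : Sz F 1} (hg : g ∈ MulAction.stabilizer (Sz F 1) (oo (F := F))) :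
    ∃ p : F × F × Fˣ, g = tG hF p.1 p.2.1 * dG hF p.2.2 := by
  have h1 : (g : SL F) • suzukiPointInfinity F = suzukiPointInfinity F := congrArg Subtype.val hg
  obtain ⟨a, b, k, h⟩ := eq_TD_of_fix_inf hF le_rfl g.2 h1
  exact ⟨(a, b, k), Subtype.ext h⟩

/-- coordinates -/
noncomputable def cd (s : MulAction.stabilizer (Sz F 1) (oo (F := F))) : F × F × Fˣ := (stab_coord hF s.2).choose

theorem cd_spec (s : MulAction.stabilizer (Sz F 1) (oo (F := F))) : (s : Sz F 1) = tG hF (cd hF s).1 (cd hF s).2.1 * dG hF (cd hF s).2.2 :=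
  (stab_coord hF s.2).choose_spec

theorem cd_eq {s : MulAction.stabilizer (Sz F 1) (oo (F := F))} {a b : F} {k : Fˣ} (h : (s : Sz F 1) = tG hF a b * dG hF k) : cd hF s = (a, b, k) := by
  have h1 := cd_spec hF s
  rw [h] at h1
  obtain ⟨h2, h3, h4⟩ := TD_inj (congrArg Subtype.val h1)
  rw [h2, h3, h4]

theorem cd_mul (s t : MulAction.stabilizer (Sz F 1) (oo (F := F))) : cd hF (s * t) =
    ((cd hF s).1 + (cd hF s).2.2 * (cd hF t).1,
      (cd hF s).2.1 + ((cd hF s).2.2 : F) * ((cd hF s).2.2 : F) ^ 4 * (cd hF t).2.1 + (cd hF s).1 ^ 4 * ((cd hF s).2.2 * (cd hF t).1),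
      (cd hF s).2.2 * (cd hF t).2.2) := by
  apply cd_eq
  rw [Subgroup.coe_mul, cd_spec hF s, cd_spec hF t]
  have h1 := D_T hF (cd hF s).2.2 (cd hF t).1 (cd hF t).2.1
  calc tG hF (cd hF s).1 (cd hF s).2.1 * dG hF (cd hF s).2.2 * (tG hF (cd hF t).1 (cd hF t).2.1 * dG hF (cd hF t).2.2)
      = tG hF (cd hF s).1 (cd hF s).2.1 * (dG hF (cd hF s).2.2 * tG hF (cd hF t).1 (cd hF t).2.1) * dG hF (cd hF t).2.2 := by group
    _ = (tG hF (cd hF s).1 (cd hF s).2.1 * tG hF ((cd hF s).2.2 * (cd hF t).1) ((cd hF s).2.2 * th 1 ((cd hF s).2.2 : F) * (cd hF t).2.1)) *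
        (dG hF (cd hF s).2.2 * dG hF (cd hF t).2.2) := by rw [h1]; group
    _ = _ := by rw [tG_mul, ← map_mul, th_eq, th_eq]

/-- the cocycle on the stabiliser -/
noncomputable def CB : Coc (MulAction.stabilizer (Sz F 1) (oo (F := F))) F where
  c s t := Phi (cd hF s).1 ((cd hF s).2.2 * (cd hF t).1) (((cd hF s).2.2 : F) * ((cd hF s).2.2 : F) ^ 4 * (cd hF t).2.1)
  one_left t := by
    have h1 : cd hF (1 : MulAction.stabilizer (Sz F 1) (oo (F := F))) = (0, 0, 1) := by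
      apply cd_eq
      rw [tG_one, map_one, mul_one]; rfl
    rw [h1]; exact Phi_zero_left _ _
  one_right s := by
    have h1 : cd hF (1 : MulAction.stabilizer (Sz F 1) (oo (F := F))) = (0, 0, 1) := by
      apply cd_eq
      rw [tG_one, map_one, mul_one]; rfl
    rw [h1]
    show Phi _ (_ * 0) (_ * 0) = 0
    rw [mul_zero, mul_zero]; exact Phi_zero_right _
  coc s t u := by
    rw [cd_mul, cd_mul]
    have h8 := pow8 hF
    have h2 := two_eq_zero (m := 1) hF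
    have h7 := pow7 hF (cd hF s).2.2
    generalize cd hF s = p at *
    generalize cd hF t = q at *
    generalize cd hF u = r at *
    obtain ⟨a, b, k⟩ := p
    obtain ⟨a', b', l⟩ := q
    obtain ⟨a'', b'', l'⟩ := r
    simp only at *
    have h1 := Phi_coc h2 h8 a b (k * a') (k * (k : F) ^ 4 * b') (k * l * a'') (k * l * (k * l : F) ^ 4 * b'')
    have h3 := Phi_inv h7 a' (l * a'') (l * (l : F) ^ 4 * b'')
    have e1 : (k : F) * ((l : F) * a'') = k * l * a'' := by ring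
    have e2 : (k : F) * (k : F) ^ 4 * ((l : F) * (l : F) ^ 4 * b'') = k * l * (k * l : F) ^ 4 * b'' := by ring
    rw [e1, e2] at h3
    rw [← h3]
    have e3 : (k : F) * (a' + l * a'') = k * a' + k * l * a'' := by ring
    have e4 : (k : F) * (k : F) ^ 4 * (b' + l * (l : F) ^ 4 * b'' + a' ^ 4 * (l * a'')) =
        k * (k : F) ^ 4 * b' + k * l * (k * l : F) ^ 4 * b'' + (k * a') ^ 4 * (k * l * a'') := by ring
    rw [e3, e4, Units.val_mul]
    exact h1

/-- the section -/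
noncomputable def rr (x : suzukiOvoid F 1) : Sz F 1 := by
  classical
  exact if h : ∃ p : F × F, (x : Projectivization F (Fin 4 → F)) = pnt 1 p.1 p.2 then tG hF h.choose.1 h.choose.2 * wG hF else 1

theorem rr_oo : rr hF (oo (F := F)) = 1 := by
  unfold rr
  rw [dif_neg]
  rintro ⟨p, hp⟩
  exact pnt_ne_inf _ _ hp.symm

theorem rr_pnt {x : suzukiOvoid F 1} {a b : F} (h : (x : Projectivization F (Fin 4 → F)) = pnt 1 a b) : rr hF x = tG hF a b * wG hF := by
  have h1 : ∃ p : F × F, (x : Projectivization F (Fin 4 → F)) = pnt 1 p.1 p.2 := ⟨(a, b), h⟩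
  unfold rr
  rw [dif_pos h1]
  have h2 := h.symm.trans h1.choose_spec
  obtain ⟨h3, h4⟩ := pnt_inj h2
  rw [← h3, ← h4]

theorem oo_or (x : suzukiOvoid F 1) : x = oo ∨ ∃ a b, (x : Projectivization F (Fin 4 → F)) = pnt 1 a b := by
  rcases mem_ovoid_iff.1 x.2 with h | h
  · exact Or.inl (Subtype.ext h)
  · exact Or.inr h

theorem rr_smul (x : suzukiOvoid F 1) : rr hF x • (oo (F := F)) = x := by
  rcases oo_or x with rfl | ⟨a, b, h⟩
  · rw [rr_oo, one_smul]
  · rw [rr_pnt hF h]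
    apply Subtype.ext
    rw [coe_smul, h]
    show (T 1 a b * W F) • suzukiPointInfinity F = pnt 1 a b
    rw [mul_smul, W_smul_inf (m := 1), T_smul_zero hF]

theorem rr_T (a b : F) {x : suzukiOvoid F 1} (hx : x ≠ oo) : rr hF (tG hF a b • x) = tG hF a b * rr hF x := by
  rcases oo_or x with h | ⟨c, d, h⟩
  · exact absurd h hx
  · rw [rr_pnt hF h, rr_pnt hF (a := c + a) (b := d + b + th 1 a * c), ← mul_assoc, tG_mul]
    · congr 2
      · ring
      · ring
    · rw [coe_smul, h]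
      exact T_smul_pnt hF a b c d

noncomputable local instance : Fintype (suzukiOvoid F 1) := Fintype.ofFinite _

/-- the cocycle on the Suzuki group -/
noncomputable def CG : Coc (Sz F 1) F := cor (oo (F := F)) (rr hF) (rr_smul hF) (CB hF)

theorem tG_stab (a b : F) : tG hF a b ∈ MulAction.stabilizer (Sz F 1) (oo (F := F)) := by
  rw [MulAction.mem_stabilizer_iff]
  apply Subtype.ext
  rw [coe_smul]
  exact T_smul_inf a b

theorem CG_T (a b a' b' : F) : (CG hF).c (tG hF a b) (tG hF a' b') = Phi a a' b' := by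
  unfold CG
  rw [cor_of (oo (F := F)) (rr hF) (rr_smul hF) (CB hF) (tG_stab hF a b) (tG_stab hF a' b') (rr_oo hF) (fun x hx => rr_T hF a b hx)
    (fun x hx => rr_T hF a' b' hx)]
  have h1 : cd hF ⟨tG hF a b, tG_stab hF a b⟩ = (a, b, 1) := cd_eq hF (by rw [map_one, mul_one])
  have h2 : cd hF ⟨tG hF a' b', tG_stab hF a' b'⟩ = (a', b', 1) := cd_eq hF (by rw [map_one, mul_one])
  show Phi _ _ _ = _
  rw [h1, h2]
  simp only [Units.val_one, one_pow, one_mul]

/-- the commutators -/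
theorem comm_mem (b : F) : (⟨1, b ^ 4 + b ^ 2⟩ : EG (CG hF)) ∈ commutator (EG (CG hF)) := by
  have h := EG.comm_of (⟨tG hF 1 0, 0⟩ : EG (CG hF)) ⟨tG hF 0 b, 0⟩ (by
    show tG hF 1 0 * tG hF 0 b = tG hF 0 b * tG hF 1 0
    rw [tG_mul, tG_mul]
    congr 1
    · ring
    · rw [th_zero]; ring)
  simp only at h
  rw [CG_T, CG_T] at h
  have e : Phi 1 0 b - Phi 0 1 (0 : F) = b ^ 4 + b ^ 2 := by unfold Phi; ring
  rw [e] at h
  rw [← h]
  exact commutator_mem_commutator (mem_top _) (mem_top _)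

end cov

end H23.Sz8
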