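/-
H23: the Schur multiplier of Sz(8) is a four-group.
-/
import Cfsg.Agent.Lib.H23.Sz8Cov

set_option autoImplicit false
set_option linter.unusedVariables false

open Subgroup H40.Stem H40.StemFinish
open scoped commutatorElement

universe u v

namespace H23.Sz8

open H8.SuzOvoid H8.SuzField H8.SuzMat H8.SuzStab H8.SuzGroup H8.SuzSylow H8.SuzCent H40.SzMult H23.Cores Cfsg

section quo
variable {F : Type u} [Field F] [Fintype F] (hF : Fintype.card F = 2 ^ (2 * 1 + 1)) {A : Type v} [Group A]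

/-- elements outside a small set -/
theorem exists_ne4 (hF : Fintype.card F = 2 ^ (2 * 1 + 1)) (a b c d : F) : ∃ x, x ≠ a ∧ x ≠ b ∧ x ≠ c ∧ x ≠ d := by
  classical
  by_contra h
  push_neg at h
  have h1 : (Finset.univ : Finset F) ⊆ {a, b, c, d} := by
    intro x _
    simp only [Finset.mem_insert, Finset.mem_singleton]
    by_contra h2
    push_neg at h2
    exact h2.2.2.2 (h x h2.1 h2.2.1 h2.2.2.1)
  have h2 := Finset.card_le_card h1
  rw [Finset.card_univ, hF] at h2
  have h3 := Finset.card_le_four (a := a) (b := b) (c := c) (d := d)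
  omega

/-- quotients of `F` modulo the prime field -/
theorem exists_surj4 (hF : Fintype.card F = 2 ^ (2 * 1 + 1)) (β : F → A) (hadd : ∀ u v, β (u + v) = β u * β v) (h1 : β 1 = 1) (hs : Function.Surjective β) :
    ∃ π : Multiplicative (ZMod 2 × ZMod 2) →* A, Function.Surjective π := by
  classical
  haveI := charP_two hF
  have h0 : β 0 = 1 := by
    have := hadd 0 0
    rw [add_zero] at this
    exact left_eq_mul.mp this
  obtain ⟨g, hg0, hg1, -, -⟩ := exists_ne4 hF 0 1 1 1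
  obtain ⟨u, hu0, hu1, hu2, hu3⟩ := exists_ne4 hF 0 1 g (g + 1)
  let ι : ZMod 2 →+* F := ZMod.castHom (dvd_refl 2) F
  have ι0 : ι 0 = 0 := map_zero ι
  have ι1 : ι 1 = 1 := map_one ι
  have two : ∀ i : ZMod 2, i = 0 ∨ i = 1 := by decide
  let f : ZMod 2 × ZMod 2 × ZMod 2 → F := fun p => ι p.1 + ι p.2.1 * g + ι p.2.2 * u
  have hf : Function.Injective f := by
    have key : ∀ a b c : ZMod 2, ι a + ι b * g + ι c * u = 0 → a = 0 ∧ b = 0 ∧ c = 0 := by
      intro a b c h
      rcases two a with rfl | rfl <;> rcases two b with rfl | rfl <;> rcases two c with rfl | rfl <;>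
        simp only [ι0, ι1, zero_mul, one_mul, zero_add, add_zero] at h
      · exact ⟨rfl, rfl, rfl⟩
      · exact absurd h hu0
      · exact absurd h hg0
      · exfalso
        rw [CharTwo.add_eq_zero] at h
        exact hu2 h.symm
      · exact absurd h one_ne_zero
      · exfalso
        rw [CharTwo.add_eq_zero] at h
        exact hu1 h.symm
      · exfalso
        rw [CharTwo.add_eq_zero] at h
        exact hg1 h.symm
      · exfalso
        rw [CharTwo.add_eq_zero] at h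
        exact hu3 (by rw [← h, add_comm])
    rintro ⟨a, b, c⟩ ⟨a', b', c'⟩ h
    have h2 : ι (a - a') + ι (b - b') * g + ι (c - c') * u = 0 := by
      rw [map_sub, map_sub, map_sub]
      have h3 : ι a + ι b * g + ι c * u = ι a' + ι b' * g + ι c' * u := h
      linear_combination h3
    obtain ⟨e1, e2, e3⟩ := key _ _ _ h2
    rw [sub_eq_zero.1 e1, sub_eq_zero.1 e2, sub_eq_zero.1 e3]
  have hb : Function.Surjective f := by
    have hc : Fintype.card (ZMod 2 × ZMod 2 × ZMod 2) = Fintype.card F := by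
      rw [hF, Fintype.card_prod, Fintype.card_prod, ZMod.card]
      norm_num
    exact ((Fintype.bijective_iff_injective_and_card f).2 ⟨hf, hc⟩).2
  refine ⟨⟨⟨fun p => β (ι p.toAdd.1 * g + ι p.toAdd.2 * u), ?_⟩, ?_⟩, ?_⟩
  · show β (ι 0 * g + ι 0 * u) = 1
    rw [ι0, zero_mul, zero_mul, zero_add, h0]
  · intro p q
    show β (ι (p.toAdd.1 + q.toAdd.1) * g + ι (p.toAdd.2 + q.toAdd.2) * u) = β (ι p.toAdd.1 * g + ι p.toAdd.2 * u) * β (ι q.toAdd.1 * g + ι q.toAdd.2 * u)
    rw [← hadd, map_add, map_add]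
    congr 1; ring
  · intro x
    obtain ⟨y, rfl⟩ := hs x
    obtain ⟨⟨a, b, c⟩, rfl⟩ := hb y
    refine ⟨Multiplicative.ofAdd (b, c), ?_⟩
    show β (ι b * g + ι c * u) = β (ι a + ι b * g + ι c * u)
    rw [add_assoc, hadd (ι a)]
    rcases two a with rfl | rfl
    · rw [ι0, h0, one_mul]
    · rw [ι1, h1, one_mul]

end quo

section up
variable {F : Type u} [Field F] [Fintype F] (hF : Fintype.card F = 2 ^ (2 * 1 + 1)) {Γ : Type v} [Group Γ] {σ : Γ →* Cfsg.Sz F 1}

include hF in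
/-- the upper bound -/
theorem upper [Finite Γ] (hσ : Cfsg.IsStemExtension σ) : ∃ π : Multiplicative (ZMod 2 × ZMod 2) →* σ.ker, Function.Surjective π := by
  classical
  have hs := hσ.1
  have hc := hσ.2.1
  have hch := charP_two hF
  choose ℓ hℓ using fun s : F => hs (tG hF 0 s)
  choose r hr using fun s : F => hs (tG hF s 0)
  have hTT : ∀ s t : F, (tG hF 0 s : Cfsg.Sz F 1) * tG hF 0 t = tG hF 0 (s + t) := by
    intro s t
    rw [tG_mul, th_zero]
    congr 1 <;> ring
  have hTT' : ∀ a s t : F, (tG hF a s : Cfsg.Sz F 1) * tG hF 0 t = tG hF a (s + t) := by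
    intro a s t
    rw [tG_mul]
    congr 1 <;> ring
  have hTT'' : ∀ a s t : F, (tG hF 0 t : Cfsg.Sz F 1) * tG hF a s = tG hF a (s + t) := by
    intro a s t
    rw [tG_mul, th_zero]
    congr 1 <;> ring
  have hker : ∀ g h a a' b, σ g = tG hF a a' → σ h = tG hF 0 b → ⁅g, h⁆ ∈ σ.ker := by
    intro g h a a' b hg hh
    rw [MonoidHom.mem_ker, map_commutatorElement, hg, hh, commutatorElement_eq_one_iff_mul_comm, hTT', hTT'']
  let B : F → F → Γ := fun s t => ⁅r s, ℓ t⁆
  have hBk : ∀ s t, B s t ∈ σ.ker := fun s t => hker _ _ _ _ _ (hr s) (hℓ t)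
  have hcen : ∀ g h a a' b, σ g = tG hF a a' → σ h = tG hF 0 b → ∀ x : Γ, x * ⁅g, h⁆ = ⁅g, h⁆ * x :=
    fun g h a a' b hg hh x => mem_center_iff.mp (hc (hker g h a a' b hg hh)) x
  have hB : ∀ g h s s' t, σ g = tG hF s s' → σ h = tG hF 0 t → ⁅g, h⁆ = B s t := by
    intro g h s s' t hg hh
    have h1 : ⁅g, h⁆ = ⁅r s * ℓ s', ℓ t⁆ :=
      comm_dep hc (by rw [map_mul, hr, hℓ, hTT', zero_add, hg]) (by rw [hh, hℓ])
    rw [h1, comm_mul_left (hcen _ _ _ _ _ (hℓ s') (hℓ t) _),
      commutatorElement_eq_one_iff_mul_comm.mpr (step1 hF le_rfl hs hc (hℓ s') (hℓ t)), one_mul]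
  have hrr : ∀ s t t', B s (t + t') = B s t * B s t' := by
    intro s t t'
    change B s (t + t') = ⁅r s, ℓ t⁆ * ⁅r s, ℓ t'⁆
    rw [← hB (r s) (ℓ t * ℓ t') s 0 (t + t') (hr s) (by rw [map_mul, hℓ, hℓ, hTT]),
      comm_mul_right (hcen _ _ _ _ _ (hr s) (hℓ t') _)]
  have hinv : ∀ (k : F) (s t : F), k ≠ 0 → B (k * s) (k * th 1 k * t) = B s t := by
    intro k s t hk0
    obtain ⟨d, hd⟩ := hs (dG hF (Units.mk0 k hk0))
    change B (k * s) (k * th 1 k * t) = ⁅r s, ℓ t⁆
    rw [← hB (d * r s * d⁻¹) (d * ℓ t * d⁻¹) (k * s) (k * th 1 k * 0) (k * th 1 k * t) (by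
      rw [map_mul, map_mul, map_inv, hd, hr, conj_T, Units.val_mk0]) (by
      rw [map_mul, map_mul, map_inv, hd, hℓ, conj_T, Units.val_mk0, mul_zero]), comm_conj,
      hcen _ _ _ _ _ (hr s) (hℓ t), mul_assoc, mul_inv_cancel, mul_one]
  have hB0 : ∀ t, B 0 t = 1 := by
    intro t
    change ⁅r 0, ℓ t⁆ = 1
    rw [commutatorElement_eq_one_iff_mul_comm]
    exact step1 hF le_rfl hs hc (hr 0) (hℓ t)
  -- reduction to the first argument 1
  have hred : ∀ s t, B s t = B 1 (s ^ 2 * t) ∨ s = 0 := by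
    intro s t
    by_cases hs0 : s = 0
    · exact Or.inr hs0
    · left
      have h1 := hinv s 1 (s ^ 2 * t) hs0
      rw [mul_one, th_eq] at h1
      have h7 := pow7 hF (Units.mk0 s hs0)
      rw [Units.val_mk0] at h7
      have e : s * s ^ 4 * (s ^ 2 * t) = s ^ 7 * t := by ring
      rw [e, h7, one_mul] at h1
      exact h1
  have hone : B 1 1 = 1 := by
    have h1 : ⁅r 1, r 1 * r 1⁆ = B 1 1 := hB (r 1) (r 1 * r 1) 1 0 1 (hr 1) (by
      rw [map_mul, hr, tG_mul, th_one]
      congr 1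
      · exact CharTwo.add_self_eq_zero 1
      · ring)
    rw [← h1, commutatorElement_eq_one_iff_mul_comm]; group
  -- the subgroup of values
  have hadd : ∀ u v, B 1 (u + v) = B 1 u * B 1 v := hrr 1
  have h0 : B 1 0 = 1 := by
    have := hadd 0 0
    rw [add_zero] at this
    exact left_eq_mul.mp this
  let W : Subgroup Γ :=
    { carrier := Set.range (B 1)
      one_mem' := ⟨0, h0⟩
      mul_mem' := by
        rintro _ _ ⟨b, rfl⟩ ⟨b', rfl⟩
        exact ⟨b + b', hadd b b'⟩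
      inv_mem' := by
        rintro _ ⟨b, rfl⟩
        refine ⟨b, ?_⟩
        rw [eq_inv_iff_mul_eq_one, ← hadd, CharTwo.add_self_eq_zero, h0] }
  have hWk : W ≤ σ.ker := by
    rintro _ ⟨b, rfl⟩
    exact hBk 1 b
  have hBW : ∀ s t, B s t ∈ W := by
    intro s t
    rcases hred s t with h | rfl
    · rw [h]; exact ⟨_, rfl⟩
    · rw [hB0]; exact W.one_mem
  haveI hWn : W.Normal := ⟨fun w hw g => by
    have := mem_center_iff.mp (hc (hWk hw)) g
    rw [this, mul_inv_cancel_right]; exact hw⟩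
  let σ' : Γ ⧸ W →* Cfsg.Sz F 1 := QuotientGroup.lift W σ (fun x hx => MonoidHom.mem_ker.1 (hWk hx))
  have hσ'm : ∀ x : Γ, σ' (x : Γ ⧸ W) = σ x := fun x => rfl
  have hσ' : Cfsg.IsStemExtension σ' := by
    refine ⟨?_, ?_, ?_⟩
    · intro g
      obtain ⟨x, rfl⟩ := hs g
      exact ⟨x, rfl⟩
    · intro y hy
      obtain ⟨x, rfl⟩ := QuotientGroup.mk_surjective y
      have h1 : x ∈ σ.ker := hy
      rw [mem_center_iff]
      intro z
      obtain ⟨w, rfl⟩ := QuotientGroup.mk_surjective z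
      have h2 := mem_center_iff.mp (hc h1) w
      rw [← QuotientGroup.mk_mul, ← QuotientGroup.mk_mul, h2]
    · intro y hy
      obtain ⟨x, rfl⟩ := QuotientGroup.mk_surjective y
      have h1 : x ∈ σ.ker := hy
      have h2 := hσ.2.2 h1
      have h3 : (commutator Γ).map (QuotientGroup.mk' W) ≤ commutator (Γ ⧸ W) := by
        rw [map_commutator_eq]
        exact commutator_mono le_top le_top
      exact h3 ⟨x, h2, rfl⟩
  have hall := ker_eq_one' hF le_rfl hσ' (by
    intro x y a a' b hx hy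
    obtain ⟨g, rfl⟩ := QuotientGroup.mk_surjective x
    obtain ⟨h, rfl⟩ := QuotientGroup.mk_surjective y
    rw [← commutatorElement_eq_one_iff_mul_comm]
    have h1 : ⁅g, h⁆ = B a b := hB g h a a' b hx hy
    have h2 : ((⁅g, h⁆ : Γ) : Γ ⧸ W) = 1 := by
      rw [QuotientGroup.eq_one_iff, h1]; exact hBW _ _
    exact h2)
  have hkW : ∀ x ∈ σ.ker, x ∈ W := by
    intro x hx
    have h1 := hall (x : Γ ⧸ W) hx
    exact (QuotientGroup.eq_one_iff x).1 h1
  refine exists_surj4 (A := σ.ker) hF (fun u => ⟨B 1 u, hBk 1 u⟩) (fun u v => Subtype.ext (hadd u v)) (Subtype.ext hone) ?_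
  rintro ⟨x, hx⟩
  obtain ⟨u, rfl⟩ := hkW x hx
  exact ⟨u, rfl⟩

end up

section low
variable {F : Type u} [Field F] [Fintype F] (hF : Fintype.card F = 2 ^ (2 * 1 + 1))

include hF in
/-- the cover -/
theorem lower : ∃ (Γ : Type u) (_ : Group Γ) (_ : Finite Γ) (σ : Γ →* Cfsg.Sz F 1), Cfsg.IsStemExtension σ ∧
    Nonempty (σ.ker ≃* Multiplicative (ZMod 2 × ZMod 2)) := by
  classical
  have hch := charP_two hF
  let E := EG (CG hF)
  let D : Subgroup E := commutator E
  have hperf := SuzGen.perfect (F := F) (m := 1) le_rfl hF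
  have hD : D ≤ ⁅D, D⁆ := comm_le EG.pr_surj EG.ker_le_center hperf
  have hDp : commutator ↥D = ⊤ := StemGen.perfect_sub hD
  let σ : ↥D →* Cfsg.Sz F 1 := (EG.pr (CG hF)).comp D.subtype
  have hσ : Cfsg.IsStemExtension σ := by
    refine ⟨?_, ?_, ?_⟩
    · intro g
      have h1 : Subgroup.map (EG.pr (CG hF)) (commutator E) = ⊤ := map_comm_top EG.pr_surj hperf
      have h2 : g ∈ Subgroup.map (EG.pr (CG hF)) (commutator E) := by rw [h1]; exact Subgroup.mem_top _
      obtain ⟨y, hy, e⟩ := h2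
      exact ⟨⟨y, hy⟩, e⟩
    · intro x hx
      have h1 : (x : E) ∈ (EG.pr (CG hF)).ker := hx
      have h2 := mem_center_iff.1 (EG.ker_le_center h1)
      rw [mem_center_iff]
      intro y
      exact Subtype.ext (h2 y)
    · rw [hDp]; exact le_top
  obtain ⟨π, hπ⟩ := upper hF hσ
  -- three elements of the kernel
  obtain ⟨g, hg0, hg1, -, -⟩ := exists_ne4 hF 0 1 1 1
  obtain ⟨u, hu0, hu1, hu2, hu3⟩ := exists_ne4 hF 0 1 g (g + 1)
  let w : F → σ.ker := fun b => ⟨⟨⟨1, b ^ 4 + b ^ 2⟩, comm_mem hF b⟩, rfl⟩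
  have hw : ∀ b c, w b = w c → b = c ∨ b = c + 1 := by
    intro b c h
    have h1 : b ^ 4 + b ^ 2 = c ^ 4 + c ^ 2 := congrArg (fun x : σ.ker => ((x : ↥D) : E).a) h
    have h2 : ((b + c) * (b + c + 1)) ^ 2 = 0 := by
      have htwo := two_eq_zero (m := 1) hF
      linear_combination h1 + (2 * b ^ 3 * c + 3 * b ^ 2 * c ^ 2 + 2 * b * c ^ 3 + c ^ 4 + (b + c) ^ 3 + b * c + c ^ 2) * htwo
    have h3 := pow_eq_zero_iff (two_ne_zero) |>.1 h2
    rcases mul_eq_zero.1 h3 with h4 | h4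
    · left; rw [CharTwo.add_eq_zero] at h4; exact h4
    · right
      rw [add_assoc, CharTwo.add_eq_zero] at h4; exact h4
  have hcard : 3 ≤ Nat.card σ.ker := by
    haveI : Fintype σ.ker := Fintype.ofFinite _
    have h3 : ({w 0, w g, w u} : Finset σ.ker).card = 3 := by
      rw [Finset.card_eq_three]
      refine ⟨w 0, w g, w u, ?_, ?_, ?_, rfl⟩
      · intro h
        rcases hw _ _ h with h | h
        · exact hg0 h.symm
        · rw [eq_comm, CharTwo.add_eq_zero] at h; exact hg1 h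
      · intro h
        rcases hw _ _ h with h | h
        · exact hu0 h.symm
        · rw [eq_comm, CharTwo.add_eq_zero] at h; exact hu1 h
      · intro h
        rcases hw _ _ h with h | h
        · exact hu2 h.symm
        · apply hu3
          rw [h, add_assoc, CharTwo.add_self_eq_zero, add_zero]
    rw [← h3, Nat.card_eq_fintype_card]
    exact Finset.card_le_univ _
  have hc4 : Nat.card (Multiplicative (ZMod 2 × ZMod 2)) = 4 := by
    rw [Nat.card_congr Multiplicative.toAdd, Nat.card_prod, Nat.card_zmod]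
  have hdvd0 := Subgroup.card_dvd_of_surjective π hπ
  have hdvd : Nat.card σ.ker ∣ 4 := hdvd0.trans hc4.dvd
  have hcard4 : Nat.card σ.ker = 4 := by
    have : Nat.card σ.ker ≤ 4 := Nat.le_of_dvd (by norm_num) hdvd
    interval_cases h : Nat.card σ.ker
    · exact absurd hdvd (by norm_num)
    · rfl
  have hbij : Function.Bijective π := by
    rw [Nat.bijective_iff_surjective_and_card]
    exact ⟨hπ, by rw [hc4, hcard4]⟩
  exact ⟨↥D, inferInstance, inferInstance, σ, hσ, ⟨(MulEquiv.ofBijective π hbij).symm⟩⟩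

end low

theorem s2112 {F : Type u} [Field F] [Fintype F] (hF : Fintype.card F = 8) :
    Cfsg.HasSchurMultiplier ↥(Cfsg.Lie.Sz F 4) (Multiplicative (ZMod 2 × ZMod 2)) := by
  have hF' : Fintype.card F = 2 ^ (2 * 1 + 1) := by rw [hF]; norm_num
  exact HasSchurMultiplier.congr (H24.SzIso.equiv hF' (le_refl 1))
    ⟨lower hF', fun Γ _ _ σ hσ => upper hF' hσ⟩

end H23.Sz8
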